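import Mathlib
import Cfsg.Agent.Lib.H19.FrobCount
import Cfsg.Agent.Lib.H06.Brauer5
import Cfsg.Agent.Lib.H01.Frobenius
import Cfsg.Agent.Lib.H22.Ord
import Cfsg.Agent.Lib.H22.Deg2pB
import Cfsg.Agent.Lib.H10.CharGen

/-!
Brauer–Suzuki: a Hall subgroup controlling its fusion, into which all elementary subgroups of
suitable order can be conjugated, has a normal complement.
-/

set_option autoImplicit false

namespace Cfsg.Agent.H12.BS

open Cfsg Cfsg.Agent.H21
open scoped ComplexConjugate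

universe u

section Part

variable {G : Type u} [Group G]

/-- Decomposition data for the two-part decomposition of elements. -/
structure Part (G : Type u) [Group G] (n m e f : ℕ) : Prop where
  e_n : ∀ x : G, x ^ n = 1 → x ^ e = x
  e_m : ∀ x : G, x ^ m = 1 → x ^ e = 1
  e_pow : ∀ g : G, (g ^ e) ^ n = 1
  f_pow : ∀ g : G, (g ^ f) ^ m = 1
  mul_eq : ∀ g : G, g ^ e * g ^ f = g

theorem exists_part [Finite G] {n m : ℕ} (hc : n.Coprime m) (hG : Nat.card G = n * m) :
    ∃ e f, Part G n m e f := by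
  obtain ⟨e, he1, he0⟩ := Nat.chineseRemainder hc 1 0
  obtain ⟨f, hf0, hf1⟩ := Nat.chineseRemainder hc 0 1
  have hord : ∀ g : G, g ^ (n * m) = 1 := fun g => by rw [← hG]; exact pow_card_eq_one'
  refine ⟨e, f, ⟨?_, ?_, ?_, ?_, ?_⟩⟩
  · intro x hx
    rw [pow_eq_pow_mod e hx, he1, ← pow_eq_pow_mod 1 hx, pow_one]
  · intro x hx
    rw [pow_eq_pow_mod e hx, he0, ← pow_eq_pow_mod 0 hx, pow_zero]
  · intro g
    obtain ⟨k, hk⟩ := (Nat.modEq_zero_iff_dvd).mp he0
    have : (g ^ (m * k)) ^ n = (g ^ (n * m)) ^ k := by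
      rw [← pow_mul, ← pow_mul]; congr 1; ring
    rw [hk, this, hord, one_pow]
  · intro g
    obtain ⟨k, hk⟩ := (Nat.modEq_zero_iff_dvd).mp hf0
    have : (g ^ (n * k)) ^ m = (g ^ (n * m)) ^ k := by
      rw [← pow_mul, ← pow_mul]; congr 1; ring
    rw [hk, this, hord, one_pow]
  · intro g
    rw [← pow_add]
    have h : e + f ≡ 1 [MOD n * m] := by
      rw [← Nat.modEq_and_modEq_iff_modEq_mul hc]
      constructor
      · have := he1.add hf0; simpa using this
      · have := he0.add hf1; simpa using this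
    rw [pow_eq_pow_mod _ (hord g), h, ← pow_eq_pow_mod 1 (hord g), pow_one]

theorem card_dvd_of_pow [Finite G] {n m : ℕ} (hc : n.Coprime m) (hG : Nat.card G = n * m)
    (T : Subgroup G) (hT : ∀ t ∈ T, t ^ n = 1) : Nat.card T ∣ n := by
  have h1 : Nat.card T ∣ n * m := hG ▸ Subgroup.card_subgroup_dvd_card T
  refine Nat.Coprime.dvd_of_dvd_mul_right ?_ h1
  apply Nat.coprime_of_dvd
  intro q hq hq1 hq2
  haveI := Fact.mk hq
  obtain ⟨t, ht⟩ := exists_prime_orderOf_dvd_card' q hq1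
  have h3 : (t : G) ^ n = 1 := hT t t.2
  have h4 : orderOf (t : G) = q := by rw [Subgroup.orderOf_coe]; exact ht
  have h5 : q ∣ n := h4 ▸ orderOf_dvd_of_pow_eq_one h3
  have := Nat.dvd_gcd h5 hq2
  rw [Nat.Coprime.gcd_eq_one hc] at this
  exact hq.one_lt.ne' (Nat.dvd_one.mp this)

theorem pow_mul_of_nilp {E : Type*} [Group E] [Finite E] (hE : Group.IsNilpotent E) (e : ℕ)
    (h : ∀ (p : ℕ) (_ : Fact p.Prime) (P : Sylow p E),
      (∀ u ∈ (P : Subgroup E), u ^ e = u) ∨ (∀ u ∈ (P : Subgroup E), u ^ e = 1)) (a b : E) :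
    (a * b) ^ e = a ^ e * b ^ e := by
  obtain ⟨Φ⟩ := ((Group.isNilpotent_of_finite_tfae (G := E)).out 0 4).mp hE
  have key : ∀ A B : (∀ p : (Nat.card E).primeFactors, ∀ P : Sylow p E, (↑P : Subgroup E)),
      (A * B) ^ e = A ^ e * B ^ e := by
    intro A B
    funext p P
    simp only [Pi.pow_apply, Pi.mul_apply]
    apply Subtype.ext
    simp only [Subgroup.coe_pow, Subgroup.coe_mul]
    rcases h (p : ℕ) ⟨Nat.prime_of_mem_primeFactors p.2⟩ P with h1 | h1
    · rw [h1 _ (mul_mem (A p P).2 (B p P).2), h1 _ (A p P).2, h1 _ (B p P).2]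
    · rw [h1 _ (mul_mem (A p P).2 (B p P).2), h1 _ (A p P).2, h1 _ (B p P).2, one_mul]
  have h1 := key (Φ.symm a) (Φ.symm b)
  have h2 := congrArg Φ h1
  simpa [map_mul, map_pow] using h2

/-- The uniform behaviour of the power map on Sylow subgroups of a subgroup. -/
theorem sylow_alt [Finite G] {n m e f : ℕ} (hP : Part G n m e f) (hc : n.Coprime m)
    (hG : Nat.card G = n * m) (E : Subgroup G) (p : ℕ) (_ : Fact p.Prime) (P : Sylow p E) :
    (∀ u ∈ (P : Subgroup E), u ^ e = u) ∨ (∀ u ∈ (P : Subgroup E), u ^ e = 1) := by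
  have hp : p.Prime := Fact.out
  obtain ⟨k, hk⟩ := IsPGroup.iff_card.mp P.2
  have h1 : Nat.card (P : Subgroup E) ∣ n * m := by
    rw [← hG]
    exact (Subgroup.card_subgroup_dvd_card _).trans (Subgroup.card_subgroup_dvd_card E)
  have hu : ∀ u ∈ (P : Subgroup E), ((u : E) : G) ^ Nat.card (P : Subgroup E) = 1 := by
    intro u hu
    have h3 := pow_card_eq_one' (x := (⟨u, hu⟩ : ↥(P : Subgroup E)))
    have h4 : u ^ Nat.card (P : Subgroup E) = 1 := congrArg Subtype.val h3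
    exact congrArg Subtype.val h4
  by_cases hn : p ∣ n
  · left
    have h2 : Nat.card (P : Subgroup E) ∣ n := by
      refine Nat.Coprime.dvd_of_dvd_mul_right ?_ h1
      rw [hk]
      refine Nat.Coprime.pow_left _ ?_
      rw [Nat.Prime.coprime_iff_not_dvd hp]
      intro h3
      have := Nat.dvd_gcd hn h3
      rw [Nat.Coprime.gcd_eq_one hc] at this
      exact hp.one_lt.ne' (Nat.dvd_one.mp this)
    intro u hu'
    apply Subtype.ext
    have h5 : ((u : E) : G) ^ n = 1 := by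
      obtain ⟨c, hc'⟩ := h2
      rw [hc', pow_mul, hu u hu', one_pow]
    simpa using hP.e_n _ h5
  · right
    have h2 : Nat.card (P : Subgroup E) ∣ m := by
      refine Nat.Coprime.dvd_of_dvd_mul_left ?_ h1
      rw [hk]
      refine Nat.Coprime.pow_left _ ?_
      rw [Nat.Prime.coprime_iff_not_dvd hp]
      exact hn
    intro u hu'
    apply Subtype.ext
    have h5 : ((u : E) : G) ^ m = 1 := by
      obtain ⟨c, hc'⟩ := h2
      rw [hc', pow_mul, hu u hu', one_pow]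
    simpa using hP.e_m _ h5

/-- The power map as a homomorphism on a nilpotent subgroup. -/
noncomputable def piHom [Finite G] {n m e f : ℕ} (hP : Part G n m e f) (hc : n.Coprime m)
    (hG : Nat.card G = n * m) (E : Subgroup G) (hE : Group.IsNilpotent E) : E →* G where
  toFun x := (x : G) ^ e
  map_one' := by simp
  map_mul' a b := by
    have h := pow_mul_of_nilp hE e (sylow_alt hP hc hG E) a b
    simpa using congrArg (fun w : E => (w : G)) h

@[simp] theorem piHom_apply [Finite G] {n m e f : ℕ} (hP : Part G n m e f) (hc : n.Coprime m)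
    (hG : Nat.card G = n * m) (E : Subgroup G) (hE : Group.IsNilpotent E) (x : E) :
    piHom hP hc hG E hE x = (x : G) ^ e := rfl

/-- A cyclic subgroup is elementary for any prime not dividing its order. -/
theorem isElementary_zpowers (x : G) [Finite G] :
    ∃ p : ℕ, p.Prime ∧ IsElementary p (Subgroup.zpowers x) := by
  obtain ⟨p, hp1, hp⟩ := Nat.exists_infinite_primes (orderOf x + 1)
  refine ⟨p, hp, ⟨x, Subgroup.mem_zpowers x⟩, ?_, ?_, 0, ?_⟩
  · rw [Subgroup.mem_center_iff]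
    rintro ⟨_, i, rfl⟩
    apply Subtype.ext
    show x ^ i * x = x * x ^ i
    exact ((Commute.refl x).zpow_left i).eq
  · rw [Subgroup.orderOf_mk, Nat.coprime_comm, Nat.Prime.coprime_iff_not_dvd hp]
    exact Nat.not_dvd_of_pos_of_lt (orderOf_pos x) (by omega)
  · rw [pow_zero, Subgroup.index_eq_one, Subgroup.eq_top_iff']
    rintro ⟨_, i, rfl⟩
    refine ⟨i, ?_⟩
    apply Subtype.ext
    simp

/-- The subgroup `⟨x⟩ Q` for a `q`-subgroup `Q` centralized by `x`. -/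
def xQ (x : G) (Q : Subgroup G) (hc : ∀ u ∈ Q, Commute x u) : Subgroup G where
  carrier := {y | ∃ i : ℤ, ∃ u ∈ Q, y = x ^ i * u}
  mul_mem' := by
    rintro _ _ ⟨i, u, hu, rfl⟩ ⟨j, v, hv, rfl⟩
    refine ⟨i + j, u * v, mul_mem hu hv, ?_⟩
    have h1 : Commute u (x ^ j) := ((hc u hu).zpow_left j).symm
    rw [zpow_add, mul_assoc, mul_assoc, ← mul_assoc u, h1.eq, mul_assoc]
  one_mem' := ⟨0, 1, one_mem _, by simp⟩
  inv_mem' := by
    rintro _ ⟨i, u, hu, rfl⟩
    refine ⟨-i, u⁻¹, inv_mem hu, ?_⟩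
    have h1 : Commute u⁻¹ (x ^ (-i)) := (((hc u hu).zpow_left (-i)).inv_right).symm
    rw [mul_inv_rev, ← zpow_neg, h1.eq]

theorem mem_xQ {x : G} {Q : Subgroup G} {hc : ∀ u ∈ Q, Commute x u} {y : G} :
    y ∈ xQ x Q hc ↔ ∃ i : ℤ, ∃ u ∈ Q, y = x ^ i * u := Iff.rfl

theorem self_mem_xQ (x : G) (Q : Subgroup G) (hc : ∀ u ∈ Q, Commute x u) : x ∈ xQ x Q hc :=
  ⟨1, 1, one_mem _, by simp⟩

theorem le_xQ (x : G) (Q : Subgroup G) (hc : ∀ u ∈ Q, Commute x u) : Q ≤ xQ x Q hc :=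
  fun u hu => ⟨0, u, hu, by simp⟩

theorem isElementary_xQ [Finite G] (x : G) (Q : Subgroup G) (hc : ∀ u ∈ Q, Commute x u) {q : ℕ}
    (hq : q.Prime) (hQ : IsPGroup q Q) : IsElementary q (xQ x Q hc) := by
  haveI := Fact.mk hq
  have hord : orderOf x ≠ 0 := (orderOf_pos x).ne'
  set a := q ^ (orderOf x).factorization q with ha
  have hadvd : a ∣ orderOf x := Nat.ordProj_dvd _ _
  have ha0 : a ≠ 0 := (pow_pos hq.pos _).ne'
  have hz : x ^ a ∈ xQ x Q hc := ⟨(a : ℤ), 1, one_mem _, by simp⟩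
  have hcen : (⟨x ^ a, hz⟩ : xQ x Q hc) ∈ Subgroup.center (xQ x Q hc) := by
    rw [Subgroup.mem_center_iff]
    rintro ⟨_, i, u, hu, rfl⟩
    apply Subtype.ext
    show x ^ i * u * x ^ a = x ^ a * (x ^ i * u)
    have h1 : Commute u (x ^ a) := ((hc u hu).pow_left a).symm
    have h2 : Commute (x ^ i) (x ^ a) := ((Commute.refl x).zpow_left i).pow_right a
    rw [mul_assoc, h1.eq, ← mul_assoc, h2.eq, mul_assoc]
  haveI hN : (Subgroup.zpowers (⟨x ^ a, hz⟩ : xQ x Q hc)).Normal := by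
    refine ⟨fun n hn g => ?_⟩
    have hcomm : n ∈ Subgroup.center (xQ x Q hc) := (Subgroup.zpowers_le.2 hcen) hn
    rw [Subgroup.mem_center_iff] at hcomm
    rw [hcomm g, mul_inv_cancel_right]
    exact hn
  refine ⟨⟨x ^ a, hz⟩, hcen, ?_, ?_⟩
  · rw [Subgroup.orderOf_mk, orderOf_pow_of_dvd ha0 hadvd, Nat.coprime_comm]
    exact Nat.coprime_ordCompl hq hord
  · have hP : IsPGroup q ((xQ x Q hc) ⧸ Subgroup.zpowers (⟨x ^ a, hz⟩ : xQ x Q hc)) := by
      intro w
      obtain ⟨⟨y, i, u, hu, rfl⟩, rfl⟩ := QuotientGroup.mk'_surjective _ w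
      obtain ⟨K, hK⟩ := hQ ⟨u, hu⟩
      have hK' : u ^ q ^ K = 1 := by simpa using congrArg Subtype.val hK
      refine ⟨K + (orderOf x).factorization q, ?_⟩
      rw [← map_pow, MonoidHom.mem_ker.mp]
      rw [QuotientGroup.ker_mk']
      rw [Subgroup.mem_zpowers_iff]
      refine ⟨i * (q ^ K : ℕ), ?_⟩
      apply Subtype.ext
      have hcomm : Commute (x ^ i) u := (hc u hu).zpow_left i
      simp only [Subgroup.coe_pow, Subgroup.coe_zpow]
      show (x ^ a) ^ (i * (q ^ K : ℕ)) = (x ^ i * u) ^ q ^ (K + (orderOf x).factorization q)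
      rw [hcomm.mul_pow, pow_add, pow_mul u, hK', one_pow, mul_one, ← zpow_natCast,
        ← zpow_natCast, ← zpow_mul, ← zpow_mul]
      congr 1
      rw [ha]
      push_cast
      ring
    obtain ⟨k, hk⟩ := IsPGroup.iff_card.mp hP
    exact ⟨k, by rw [Subgroup.index_eq_card]; exact hk⟩

theorem elem_range {E : Subgroup G} (π : E →* G) {p : ℕ} (hp : p.Prime) (hE : IsElementary p E) :
    IsElementary p π.range := by
  obtain ⟨x, hx, hco, k, hk⟩ := hE
  have hsurj : Function.Surjective π.rangeRestrict := MonoidHom.rangeRestrict_surjective π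
  refine ⟨π.rangeRestrict x, ?_, ?_, ?_⟩
  · rw [Subgroup.mem_center_iff]
    intro t
    obtain ⟨y, rfl⟩ := hsurj t
    rw [← map_mul, ← map_mul, (Subgroup.mem_center_iff.mp hx) y]
  · exact Nat.Coprime.coprime_dvd_left (orderOf_map_dvd π.rangeRestrict x) hco
  · have h1 := Subgroup.index_map_dvd (Subgroup.zpowers x) hsurj
    rw [MonoidHom.map_zpowers, hk] at h1
    obtain ⟨j, -, hj⟩ := (Nat.dvd_prime_pow hp).1 h1
    exact ⟨j, hj⟩

end Part

section Main

open Classical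

variable {G : Type u} [Group G] [Fintype G]

/-- All hypotheses bundled. -/
structure Hyp (H : Subgroup G) (n m e f : ℕ) : Prop where
  hP : Part G n m e f
  hc : n.Coprime m
  hG : Nat.card G = n * m
  hn : Nat.card H = n
  hfus : ∀ x ∈ H, ∀ y ∈ H, IsConj x y → ∃ h ∈ H, h * x * h⁻¹ = y
  helem : ∀ (E : Subgroup G) (p : ℕ), p.Prime → IsElementary p E → Nat.card E ∣ Nat.card H →
    ∃ g : G, E.map (MulAut.conj g).toMonoidHom ≤ H

variable {H : Subgroup G} {n m e f : ℕ}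

theorem Hyp.pow_n (hy : Hyp H n m e f) {x : G} (hx : x ∈ H) : x ^ n = 1 := by
  have h3 := pow_card_eq_one' (x := (⟨x, hx⟩ : H))
  rw [hy.hn] at h3
  exact congrArg Subtype.val h3

theorem Hyp.pi_eq (hy : Hyp H n m e f) {x : G} (hx : x ∈ H) : x ^ e = x :=
  hy.hP.e_n x (hy.pow_n hx)

theorem Hyp.exists_conj (hy : Hyp H n m e f) {t : G} (ht : t ^ n = 1) : ∃ c, c * t * c⁻¹ ∈ H := by
  obtain ⟨p, hp, hE⟩ := isElementary_zpowers t
  have h1 : Nat.card (Subgroup.zpowers t) ∣ Nat.card H := by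
    rw [hy.hn]
    apply card_dvd_of_pow hy.hc hy.hG
    rintro _ ⟨i, rfl⟩
    show (t ^ i) ^ n = 1
    rw [← zpow_natCast, ← zpow_mul, mul_comm, zpow_mul, zpow_natCast, ht, one_zpow]
  obtain ⟨g, hg⟩ := hy.helem _ p hp hE h1
  exact ⟨g, hg ⟨t, Subgroup.mem_zpowers t, rfl⟩⟩

/-- Number of `c` conjugating `x` into `H`. -/
noncomputable def dd (H : Subgroup G) (x : G) : ℕ :=
  (Finset.univ.filter (fun c : G => c * x * c⁻¹ ∈ H)).card

/-- Number of `g` with `g ^ e = x`. -/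
noncomputable def phi (e : ℕ) (x : G) : ℕ :=
  (Finset.univ.filter (fun g : G => g ^ e = x)).card

theorem dd_conj (H : Subgroup G) (a x : G) : dd H (a * x * a⁻¹) = dd H x := by
  unfold dd
  apply Finset.card_bij (fun c _ => c * a)
  · intro c hc
    simp only [Finset.mem_filter, Finset.mem_univ, true_and] at hc ⊢
    have : c * (a * x * a⁻¹) * c⁻¹ = c * a * x * (c * a)⁻¹ := by group
    rwa [← this]
  · intro c _ c' _ h
    exact mul_right_cancel h
  · intro c hc
    refine ⟨c * a⁻¹, ?_, by group⟩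
    simp only [Finset.mem_filter, Finset.mem_univ, true_and] at hc ⊢
    have : c * a⁻¹ * (a * x * a⁻¹) * (c * a⁻¹)⁻¹ = c * x * c⁻¹ := by group
    rwa [this]

theorem Hyp.dd_pos (hy : Hyp H n m e f) {t : G} (ht : t ^ n = 1) : dd H t ≠ 0 := by
  obtain ⟨c, hc⟩ := hy.exists_conj ht
  unfold dd
  rw [Finset.card_ne_zero]
  exact ⟨c, by simpa using hc⟩

theorem sum_ite_conj {𝕜 : Type*} [Field 𝕜] (W : G → 𝕜) (hW : ∀ c t, W (c * t * c⁻¹) = W t) (c : G) :
    (∑ g : G, if c * g ^ e * c⁻¹ ∈ H then W (g ^ e) else 0)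
      = ∑ g : G, if g ^ e ∈ H then W (g ^ e) else 0 := by
  apply Fintype.sum_equiv (MulAut.conj c).toEquiv
  intro g
  have h1 : ((MulAut.conj c).toEquiv g) ^ e = c * g ^ e * c⁻¹ := by
    simp [MulAut.conj_apply, conj_pow]
  rw [h1, hW]

theorem sum_fiber {𝕜 : Type*} [Field 𝕜] (W : G → 𝕜) :
    (∑ g : G, if g ^ e ∈ H then W (g ^ e) else 0)
      = ∑ x : H, (phi e (x : G) : 𝕜) * W x := by
  have h1 : ∀ x : H, (phi e (x : G) : 𝕜) * W x = ∑ g : G, if g ^ e = (x : G) then W x else 0 := by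
    intro x
    rw [Finset.sum_ite, Finset.sum_const_zero, add_zero, Finset.sum_const, nsmul_eq_mul]
    rfl
  simp only [h1]
  rw [Finset.sum_comm]
  apply Finset.sum_congr rfl
  intro g _
  by_cases hg : g ^ e ∈ H
  · rw [if_pos hg, Finset.sum_eq_single (⟨g ^ e, hg⟩ : H)]
    · simp
    · intro b _ hb
      rw [if_neg]
      intro h2
      exact hb (Subtype.ext h2.symm)
    · simp
  · rw [if_neg hg]
    symm
    apply Finset.sum_eq_zero
    intro x _
    rw [if_neg]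
    intro h2
    exact hg (h2 ▸ x.2)

/-- The main summation identity. -/
theorem Hyp.sum_identity {𝕜 : Type*} [Field 𝕜] [CharZero 𝕜] (hy : Hyp H n m e f) (F : G → 𝕜)
    (hF : ∀ c t, F (c * t * c⁻¹) = F t) :
    ∑ g : G, F (g ^ e) = (Nat.card G : 𝕜) * ∑ x : H, (phi e (x : G) : 𝕜) * (F x / (dd H (x : G) : 𝕜)) := by
  set W : G → 𝕜 := fun t => F t / (dd H t : 𝕜) with hWdef
  have hW : ∀ c t, W (c * t * c⁻¹) = W t := by
    intro c t
    simp only [hWdef, hF, dd_conj]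
  have h1 : ∀ g : G, F (g ^ e) = ∑ c : G, if c * g ^ e * c⁻¹ ∈ H then W (g ^ e) else 0 := by
    intro g
    rw [Finset.sum_ite, Finset.sum_const_zero, add_zero, Finset.sum_const, nsmul_eq_mul]
    have h2 : ((dd H (g ^ e) : ℕ) : 𝕜) ≠ 0 := by
      exact_mod_cast hy.dd_pos (hy.hP.e_pow g)
    have h3 : (Finset.univ.filter (fun c : G => c * g ^ e * c⁻¹ ∈ H)).card = dd H (g ^ e) := rfl
    rw [h3, hWdef]
    field_simp
  calc ∑ g : G, F (g ^ e)
      = ∑ g : G, ∑ c : G, (if c * g ^ e * c⁻¹ ∈ H then W (g ^ e) else 0) :=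
        Finset.sum_congr rfl fun g _ => h1 g
    _ = ∑ c : G, ∑ g : G, (if c * g ^ e * c⁻¹ ∈ H then W (g ^ e) else 0) := Finset.sum_comm
    _ = ∑ _c : G, ∑ g : G, (if g ^ e ∈ H then W (g ^ e) else 0) :=
        Finset.sum_congr rfl fun c _ => sum_ite_conj W hW c
    _ = (Nat.card G : 𝕜) * ∑ g : G, (if g ^ e ∈ H then W (g ^ e) else 0) := by
        rw [Finset.sum_const, nsmul_eq_mul, Finset.card_univ, Nat.card_eq_fintype_card]
    _ = _ := by rw [sum_fiber W]

/-- The centralizer of `x`. -/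
abbrev Cx (x : G) : Subgroup G := Subgroup.centralizer ({x} : Set G)

theorem mem_Cx {x y : G} : y ∈ Cx x ↔ y * x = x * y := by
  rw [Subgroup.mem_centralizer_singleton_iff]

/-- `C_H(x)` has index prime to `n` in `C_G(x)`. -/
theorem Hyp.coprime_index (hy : Hyp H n m e f) {x : G} (hx : x ∈ H) :
    (H.subgroupOf (Cx x)).index.Coprime n := by
  apply Nat.coprime_of_dvd
  intro q hq h1 h2
  haveI := Fact.mk hq
  let Q : Sylow q (Cx x) := default
  let Q₀ : Subgroup G := (Q : Subgroup (Cx x)).map (Cx x).subtype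
  have hQ₀ : Q₀ ≤ Cx x := by
    rintro _ ⟨u, -, rfl⟩
    exact u.2
  have hcomm : ∀ u ∈ Q₀, Commute x u := fun u hu => (mem_Cx.mp (hQ₀ hu)).symm
  have hp : IsPGroup q Q₀ := Q.2.map _
  obtain ⟨K, hK⟩ := IsPGroup.iff_card.mp hp
  have hKn : q ^ K ∣ n := by
    have h3 : q ^ K ∣ n * m := by
      rw [← hK, ← hy.hG]
      exact Subgroup.card_subgroup_dvd_card _
    refine Nat.Coprime.dvd_of_dvd_mul_right ?_ h3
    refine Nat.Coprime.pow_left _ ?_
    rw [Nat.Prime.coprime_iff_not_dvd hq]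
    intro h4
    have := Nat.dvd_gcd h2 h4
    rw [Nat.Coprime.gcd_eq_one hy.hc] at this
    exact hq.one_lt.ne' (Nat.dvd_one.mp this)
  have hQn : ∀ u ∈ Q₀, u ^ n = 1 := by
    intro u hu
    have h3 := pow_card_eq_one' (x := (⟨u, hu⟩ : Q₀))
    have h4 : u ^ Nat.card Q₀ = 1 := congrArg Subtype.val h3
    rw [hK] at h4
    obtain ⟨c, hc⟩ := hKn
    rw [hc, pow_mul, h4, one_pow]
  have hEl := isElementary_xQ x Q₀ hcomm hq hp
  have hEn : Nat.card (xQ x Q₀ hcomm) ∣ Nat.card H := by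
    rw [hy.hn]
    apply card_dvd_of_pow hy.hc hy.hG
    rintro _ ⟨i, u, hu, rfl⟩
    have hc1 : Commute (x ^ i) u := (hcomm u hu).zpow_left i
    rw [hc1.mul_pow, hQn u hu, mul_one, ← zpow_natCast, ← zpow_mul, mul_comm, zpow_mul, zpow_natCast,
      hy.pow_n hx, one_zpow]
  obtain ⟨g, hg⟩ := hy.helem _ q hq hEl hEn
  have hgE : ∀ y ∈ xQ x Q₀ hcomm, g * y * g⁻¹ ∈ H := fun y hy' => hg ⟨y, hy', rfl⟩
  have hx' := hgE x (self_mem_xQ x Q₀ hcomm)
  obtain ⟨h, hh, hhx⟩ := hy.hfus _ hx' _ hx (isConj_iff.mpr ⟨g⁻¹, by group⟩)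
  have ha : (h * g) * x * (h * g)⁻¹ = x := by
    have h0 : (h * g) * x * (h * g)⁻¹ = h * (g * x * g⁻¹) * h⁻¹ := by group
    rw [h0, hhx]
  have haC : h * g ∈ Cx x := by
    rw [mem_Cx]
    calc h * g * x = (h * g) * x * (h * g)⁻¹ * (h * g) := by group
      _ = x * (h * g) := by rw [ha]
  have hle : Nat.card Q ∣ Nat.card (H.subgroupOf (Cx x)) := by
    let a' : Cx x := ⟨h * g, haC⟩
    have h5 : (Q : Subgroup (Cx x)).map (MulAut.conj a').toMonoidHom ≤ H.subgroupOf (Cx x) := by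
      rintro _ ⟨u, hu, rfl⟩
      rw [Subgroup.mem_subgroupOf]
      have h6 : ((u : G)) ∈ Q₀ := ⟨u, hu, rfl⟩
      have h7 := hgE u (le_xQ x Q₀ hcomm h6)
      have h8 : (((MulAut.conj a').toMonoidHom u : Cx x) : G) = h * (g * (u : G) * g⁻¹) * h⁻¹ := by
        simp [MulAut.conj_apply, a']
        group
      rw [h8]
      exact mul_mem (mul_mem hh h7) (inv_mem hh)
    have h9 := Subgroup.card_dvd_of_le h5
    rw [Subgroup.card_map_of_injective (MulAut.conj a').injective] at h9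
    exact h9
  have hmul := Subgroup.card_mul_index (H.subgroupOf (Cx x))
  have hQmul := (Q : Subgroup (Cx x)).card_mul_index
  obtain ⟨c, hc⟩ := hle
  have h10 : (Q : Subgroup (Cx x)).index = c * (H.subgroupOf (Cx x)).index := by
    have hpos : 0 < Nat.card Q := Nat.card_pos
    apply Nat.eq_of_mul_eq_mul_left hpos
    rw [hQmul, ← hmul, hc, mul_assoc]
  apply Q.not_dvd_index
  rw [h10]
  exact h1.mul_left c

theorem Hyp.index_dvd_m (hy : Hyp H n m e f) {x : G} (hx : x ∈ H) :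
    (H.subgroupOf (Cx x)).index ∣ m := by
  have h1 : (H.subgroupOf (Cx x)).index ∣ n * m := by
    rw [← hy.hG]
    refine (Subgroup.index_dvd_card _).trans (Subgroup.card_subgroup_dvd_card _)
  exact (hy.coprime_index hx).dvd_of_dvd_mul_left h1

theorem Hyp.phi_lower (hy : Hyp H n m e f) {x : G} (hx : x ∈ H) :
    (H.subgroupOf (Cx x)).index ≤ phi e x := by
  set k := (H.subgroupOf (Cx x)).index with hk
  have h1 : k ∣ Nat.card (Cx x) := Subgroup.index_dvd_card _
  have h2 := H19.dvd_sol h1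
  have h3 : 0 < H19.sol (Cx x) k := by
    unfold H19.sol
    rw [Nat.card_pos_iff]
    exact ⟨⟨⟨1, by simp⟩⟩, Finite.of_fintype _⟩
  have h4 : k ≤ H19.sol (Cx x) k := Nat.le_of_dvd h3 h2
  refine h4.trans ?_
  have h5 : phi e x = Nat.card {g : G // g ^ e = x} := by
    unfold phi
    rw [Nat.card_eq_fintype_card, Fintype.card_subtype]
  rw [h5]
  unfold H19.sol
  have hm' := hy.index_dvd_m hx
  apply Nat.card_le_card_of_injective
    (fun y : {u : Cx x // u ^ k = 1} => (⟨x * ((y.1 : Cx x) : G), ?_⟩ : {g : G // g ^ e = x}))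
  · intro y y' h
    have h6 : x * ((y.1 : Cx x) : G) = x * ((y'.1 : Cx x) : G) := congrArg Subtype.val h
    exact Subtype.ext (Subtype.ext (mul_left_cancel h6))
  · have hcom : Commute x ((y.1 : Cx x) : G) := (mem_Cx.mp y.1.2).symm
    have h7 : ((y.1 : Cx x) : G) ^ k = 1 := by
      have := congrArg Subtype.val y.2
      simpa using this
    have h8 : ((y.1 : Cx x) : G) ^ m = 1 := by
      obtain ⟨c, hc⟩ := hm'
      rw [hc, pow_mul, h7, one_pow]
    rw [hcom.mul_pow, hy.pi_eq hx, hy.hP.e_m _ h8, mul_one]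

theorem Hyp.dd_upper (hy : Hyp H n m e f) {x : G} (hx : x ∈ H) :
    dd H x ≤ n * (H.subgroupOf (Cx x)).index := by
  haveI : Fintype H := Fintype.ofFinite _
  haveI : Fintype ((Cx x) ⧸ H.subgroupOf (Cx x)) := Fintype.ofFinite _
  let S : H × ((Cx x) ⧸ H.subgroupOf (Cx x)) → G := fun p => (p.1 : G) * ((p.2.out : Cx x) : G)⁻¹
  have hsub : (Finset.univ.filter (fun c : G => c * x * c⁻¹ ∈ H)) ⊆ Finset.univ.image S := by
    intro c hc
    simp only [Finset.mem_filter, Finset.mem_univ, true_and] at hc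
    obtain ⟨h, hh, hhx⟩ := hy.hfus _ hx _ hc (isConj_iff.mpr ⟨c, rfl⟩)
    have hz : h⁻¹ * c ∈ Cx x := by
      rw [mem_Cx]
      have h1 : c * x = h * x * h⁻¹ * c := by
        rw [hhx]
        group
      calc h⁻¹ * c * x = h⁻¹ * (c * x) := by group
        _ = h⁻¹ * (h * x * h⁻¹ * c) := by rw [h1]
        _ = x * (h⁻¹ * c) := by group
    let z : Cx x := ⟨h⁻¹ * c, hz⟩
    let q : (Cx x) ⧸ H.subgroupOf (Cx x) := ((z⁻¹ : Cx x) : (Cx x) ⧸ H.subgroupOf (Cx x))
    obtain ⟨u, hu⟩ := QuotientGroup.mk_out_eq_mul (H.subgroupOf (Cx x)) (z⁻¹ : Cx x)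
    have huH : (((u : H.subgroupOf (Cx x)) : Cx x) : G) ∈ H := Subgroup.mem_subgroupOf.mp u.2
    rw [Finset.mem_image]
    refine ⟨(⟨h * (((u : H.subgroupOf (Cx x)) : Cx x) : G), mul_mem hh huH⟩, q), Finset.mem_univ _, ?_⟩
    show h * (((u : H.subgroupOf (Cx x)) : Cx x) : G) * ((q.out : Cx x) : G)⁻¹ = c
    have h2 : ((q.out : Cx x) : G) = (h⁻¹ * c)⁻¹ * (((u : H.subgroupOf (Cx x)) : Cx x) : G) := by
      have := congrArg Subtype.val hu
      simpa [z] using this
    rw [h2]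
    group
  have h1 := Finset.card_le_card hsub
  have h2 := Finset.card_image_le (s := Finset.univ) (f := S)
  have h3 : (Finset.univ : Finset (H × ((Cx x) ⧸ H.subgroupOf (Cx x)))).card =
      n * (H.subgroupOf (Cx x)).index := by
    rw [Finset.card_univ, Fintype.card_prod, ← hy.hn, Subgroup.index, Nat.card_eq_fintype_card,
      Nat.card_eq_fintype_card]
  unfold dd
  omega

/-- The key equality: `phi x * n = dd x`. -/
theorem Hyp.phi_mul (hy : Hyp H n m e f) (x : H) : phi e (x : G) * n = dd H (x : G) := by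
  have hn0 : n ≠ 0 := by
    rw [← hy.hn]; exact Nat.card_pos.ne'
  have hne : (Nat.card G : ℝ) ≠ 0 := by
    exact_mod_cast Nat.card_pos.ne'
  have h1 := hy.sum_identity (𝕜 := ℝ) (fun _ => 1) (fun _ _ => rfl)
  simp only [Finset.sum_const, Finset.card_univ, nsmul_eq_mul, mul_one] at h1
  have h2 : (∑ y : H, (phi e (y : G) : ℝ) * (1 / (dd H (y : G) : ℝ))) = 1 := by
    rw [← Nat.card_eq_fintype_card] at h1
    exact (mul_left_cancel₀ hne (by simpa using h1.symm.trans (mul_one _).symm))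
  have hlow : ∀ y : H, (1 / (n : ℝ)) ≤ (phi e (y : G) : ℝ) * (1 / (dd H (y : G) : ℝ)) := by
    intro y
    have h3 := hy.phi_lower y.2
    have h4 := hy.dd_upper y.2
    have hd : dd H (y : G) ≠ 0 := hy.dd_pos (hy.pow_n y.2)
    have hdr : (0 : ℝ) < dd H (y : G) := by exact_mod_cast Nat.pos_of_ne_zero hd
    have hnr : (0 : ℝ) < n := by exact_mod_cast Nat.pos_of_ne_zero hn0
    rw [mul_one_div, div_le_div_iff₀ hnr hdr]
    have h5 : dd H (y : G) ≤ phi e (y : G) * n := by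
      calc dd H (y : G) ≤ n * (H.subgroupOf (Cx (y : G))).index := h4
        _ ≤ n * phi e (y : G) := Nat.mul_le_mul_left _ h3
        _ = phi e (y : G) * n := mul_comm _ _
    have h6 : ((dd H (y : G) : ℕ) : ℝ) ≤ ((phi e (y : G) * n : ℕ) : ℝ) := by exact_mod_cast h5
    push_cast at h6
    linarith
  have hsum : ∑ y : H, ((phi e (y : G) : ℝ) * (1 / (dd H (y : G) : ℝ)) - 1 / (n : ℝ)) = 0 := by
    rw [Finset.sum_sub_distrib, h2, Finset.sum_const, Finset.card_univ, nsmul_eq_mul,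
      ← Nat.card_eq_fintype_card, hy.hn]
    have hnr : (n : ℝ) ≠ 0 := by exact_mod_cast hn0
    field_simp
    norm_num
  have hzero := (Finset.sum_eq_zero_iff_of_nonneg (fun y _ => sub_nonneg.mpr (hlow y))).mp hsum x
    (Finset.mem_univ x)
  have hd : dd H (x : G) ≠ 0 := hy.dd_pos (hy.pow_n x.2)
  have hdr : (dd H (x : G) : ℝ) ≠ 0 := by exact_mod_cast hd
  have hnr : (n : ℝ) ≠ 0 := by exact_mod_cast hn0
  have h7 : (phi e (x : G) : ℝ) * n = dd H (x : G) := by
    have h8 : (phi e (x : G) : ℝ) * (1 / (dd H (x : G) : ℝ)) = 1 / (n : ℝ) := by linarith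
    field_simp at h8
    linarith
  exact_mod_cast h7

/-- Sum formula with the identity `phi * n = dd`. -/
theorem Hyp.sum_eq (hy : Hyp H n m e f) (F : G → ℂ) (hF : ∀ c t, F (c * t * c⁻¹) = F t) :
    ∑ g : G, F (g ^ e) = (Nat.card G : ℂ) * ((n : ℂ)⁻¹ * ∑ x : H, F x) := by
  rw [hy.sum_identity F hF]
  congr 1
  rw [Finset.mul_sum]
  apply Finset.sum_congr rfl
  intro x _
  have hn0 : n ≠ 0 := by
    rw [← hy.hn]; exact Nat.card_pos.ne'
  have hd : dd H (x : G) ≠ 0 := hy.dd_pos (hy.pow_n x.2)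
  have hdr : (dd H (x : G) : ℂ) ≠ 0 := by exact_mod_cast hd
  have hnr : (n : ℂ) ≠ 0 := by exact_mod_cast hn0
  have h1 : (phi e (x : G) : ℂ) * n = dd H (x : G) := by exact_mod_cast hy.phi_mul x
  rw [← h1] at hdr ⊢
  have hph : (phi e (x : G) : ℂ) ≠ 0 := left_ne_zero_of_mul hdr
  field_simp

theorem Hyp.phi_one (hy : Hyp H n m e f) : phi e (1 : G) = m := by
  have h1 := hy.phi_mul (1 : H)
  have hn0 : 0 < n := by
    rw [← hy.hn]; exact Nat.card_pos
  have h2 : dd H (1 : G) = n * m := by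
    unfold dd
    rw [← hy.hG, Nat.card_eq_fintype_card, ← Finset.card_univ]
    congr 1
    ext c
    simp [one_mem]
  simp only [Subgroup.coe_one] at h1
  rw [h2, mul_comm] at h1
  exact Nat.eq_of_mul_eq_mul_left hn0 h1

/-- Extension of a class function on `H` to `H`-conjugates. -/
noncomputable def tl (H : Subgroup G) (χ : H → ℂ) (t : G) : ℂ :=
  if h : ∃ c, c * t * c⁻¹ ∈ H then χ ⟨h.choose * t * h.choose⁻¹, h.choose_spec⟩ else 0

theorem Hyp.tl_eq (hy : Hyp H n m e f) {χ : H → ℂ} (hχ : IsClassFunction H χ) {t c : G}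
    (hc : c * t * c⁻¹ ∈ H) : tl H χ t = χ ⟨c * t * c⁻¹, hc⟩ := by
  have hex : ∃ c, c * t * c⁻¹ ∈ H := ⟨c, hc⟩
  unfold tl
  rw [dif_pos hex]
  obtain ⟨h, hh, hhx⟩ := hy.hfus _ hc _ hex.choose_spec
    (isConj_iff.mpr ⟨hex.choose * c⁻¹, by group⟩)
  have h1 := hχ ⟨c * t * c⁻¹, hc⟩ ⟨h, hh⟩
  rw [← h1]
  congr 1
  apply Subtype.ext
  exact hhx.symm

theorem Hyp.tl_coe (hy : Hyp H n m e f) {χ : H → ℂ} (hχ : IsClassFunction H χ) (x : H) :
    tl H χ (x : G) = χ x := by
  have h1 : (1 : G) * (x : G) * (1 : G)⁻¹ ∈ H := by simp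
  rw [hy.tl_eq hχ h1]
  congr 1
  apply Subtype.ext
  simp

theorem Hyp.tl_class (hy : Hyp H n m e f) {χ : H → ℂ} (hχ : IsClassFunction H χ) (a t : G) :
    tl H χ (a * t * a⁻¹) = tl H χ t := by
  by_cases hex : ∃ c, c * t * c⁻¹ ∈ H
  · obtain ⟨c, hc⟩ := hex
    have h1 : (c * a⁻¹) * (a * t * a⁻¹) * (c * a⁻¹)⁻¹ = c * t * c⁻¹ := by group
    have h2 : (c * a⁻¹) * (a * t * a⁻¹) * (c * a⁻¹)⁻¹ ∈ H := by rw [h1]; exact hc
    rw [hy.tl_eq hχ h2, hy.tl_eq hχ hc]
    congr 1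
    exact Subtype.ext h1
  · have hex' : ¬ ∃ c, c * (a * t * a⁻¹) * c⁻¹ ∈ H := by
      rintro ⟨c, hc⟩
      apply hex
      refine ⟨c * a, ?_⟩
      have h1 : (c * a) * t * (c * a)⁻¹ = c * (a * t * a⁻¹) * c⁻¹ := by group
      rw [h1]
      exact hc
    unfold tl
    rw [dif_neg hex, dif_neg hex']

/-- The extended function. -/
noncomputable def th (H : Subgroup G) (e : ℕ) (χ : H → ℂ) (g : G) : ℂ := tl H χ (g ^ e)

theorem Hyp.th_class (hy : Hyp H n m e f) {χ : H → ℂ} (hχ : IsClassFunction H χ) :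
    IsClassFunction G (th H e χ) := by
  intro g h
  unfold th
  rw [conj_pow, hy.tl_class hχ]

theorem Hyp.th_gen (hy : Hyp H n m e f) {χ : H → ℂ} (hχ : IsCharacter H χ) :
    IsGeneralizedCharacter G (th H e χ) := by
  haveI : Fintype (IrrCharacter H) := Fintype.ofFinite _
  have hcl : IsClassFunction H χ := isClassFunction_of_isCharacter hχ
  apply H06.Brauer.gen_of_elementary (hy.th_class hcl)
  intro E p hp hE
  have hnil := H06.Brauer.IsElementary_nilpotent hp hE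
  let π := piHom hy.hP hy.hc hy.hG E hnil
  have hEl := elem_range π hp hE
  have hcd : Nat.card π.range ∣ Nat.card H := by
    rw [hy.hn]
    apply card_dvd_of_pow hy.hc hy.hG
    rintro _ ⟨y, rfl⟩
    exact hy.hP.e_pow _
  obtain ⟨g₀, hg₀⟩ := hy.helem _ p hp hEl hcd
  have hmem : ∀ y : E, ((MulAut.conj g₀).toMonoidHom.comp π) y ∈ H := fun y =>
    hg₀ ⟨π y, ⟨y, rfl⟩, rfl⟩
  let ψ : E →* H := ((MulAut.conj g₀).toMonoidHom.comp π).codRestrict H hmem
  have h1 : (fun y : E => th H e χ (y : G)) = χ ∘ ψ := by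
    funext y
    have h2 : g₀ * ((y : G) ^ e) * g₀⁻¹ ∈ H := hmem y
    show tl H χ ((y : G) ^ e) = χ (ψ y)
    rw [hy.tl_eq hcl h2]
    rfl
  rw [h1]
  exact H06.gen_of_char (isCharacter_comp ψ hχ)

theorem Hyp.th_one (hy : Hyp H n m e f) {χ : H → ℂ} (hχ : IsClassFunction H χ) :
    th H e χ 1 = χ 1 := by
  unfold th
  rw [one_pow]
  exact hy.tl_coe hχ 1

theorem Hyp.th_irr (hy : Hyp H n m e f) [Fintype (IrrCharacter G)]
    [Fintype (IrrCharacter H)] (χ : IrrCharacter H) : IsIrrCharacter G (th H e (χ : H → ℂ)) := by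
  have hχc : IsCharacter H (χ : H → ℂ) := isCharacter_of_irr χ.2
  have hcl : IsClassFunction H (χ : H → ℂ) := isClassFunction_of_isCharacter hχc
  apply H01.isIrrCharacter_of_int_norm_one (hy.th_class hcl)
  · intro ψ
    obtain ⟨a, b, ha, hb, hab⟩ := hy.th_gen hχc
    obtain ⟨u, hu⟩ := classInner_isNat ha ψ
    obtain ⟨v, hv⟩ := classInner_isNat hb ψ
    refine ⟨(u : ℤ) - v, ?_⟩
    rw [hab, H10.classInner_sub_left, hu, hv]
    push_cast
    ring
  · unfold classInner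
    have hF := hy.sum_eq (fun t => tl H (χ : H → ℂ) t * conj (tl H (χ : H → ℂ) t))
      (fun c t => by simp only [hy.tl_class hcl])
    have hne : (Nat.card G : ℂ) ≠ 0 := by exact_mod_cast Nat.card_pos.ne'
    have h1 : ∑ g : G, th H e (χ : H → ℂ) g * conj (th H e (χ : H → ℂ) g)
        = (Nat.card G : ℂ) * ((n : ℂ)⁻¹ * ∑ x : H, (χ : H → ℂ) x * conj ((χ : H → ℂ) x)) := by
      have h2 : ∀ x : H, tl H (χ : H → ℂ) (x : G) * conj (tl H (χ : H → ℂ) (x : G))
          = (χ : H → ℂ) x * conj ((χ : H → ℂ) x) := fun x => by rw [hy.tl_coe hcl]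
      simp only [h2] at hF
      exact hF
    rw [h1, ← mul_assoc, inv_mul_cancel₀ hne, one_mul]
    have h3 := classInner_self_irr χ
    unfold classInner at h3
    rw [hy.hn] at h3
    exact h3
  · rw [hy.th_one hcl]
    obtain ⟨d, hd, hd'⟩ := H22.irr_one_pos χ
    rw [hd']
    simpa using hd

/-- The final assembly. -/
theorem Hyp.main (hy : Hyp H n m e f) :
    ∃ K : Subgroup G, K.Normal ∧ K ⊔ H = ⊤ ∧ K ⊓ H = ⊥ := by
  haveI : Fintype (IrrCharacter G) := Fintype.ofFinite _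
  haveI : Fintype (IrrCharacter H) := Fintype.ofFinite _
  let K : Subgroup G := ⨅ χ : IrrCharacter H,
    charKer (th H e (χ : H → ℂ)) (isCharacter_of_irr (hy.th_irr χ))
  have hcl : ∀ χ : IrrCharacter H, IsClassFunction H (χ : H → ℂ) := fun χ =>
    isClassFunction_of_isCharacter (isCharacter_of_irr χ.2)
  have hmem : ∀ y : G, y ∈ K ↔ y ^ e = 1 := by
    intro y
    simp only [K, Subgroup.mem_iInf, mem_charKer]
    constructor
    · intro h1
      obtain ⟨c, hc⟩ := hy.exists_conj (hy.hP.e_pow y)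
      have h2 : ∀ χ : IrrCharacter H, χ.1 ⟨c * y ^ e * c⁻¹, hc⟩ = χ.1 1 := by
        intro χ
        have h3 := h1 χ
        rw [hy.th_one (hcl χ)] at h3
        unfold th at h3
        rw [hy.tl_eq (hcl χ) hc] at h3
        exact h3
      have h4 := H22.isConj_of_forall_irr_eq h2
      have h5 : (⟨c * y ^ e * c⁻¹, hc⟩ : H) = 1 := isConj_one_right.mp h4.symm
      have h6 : c * y ^ e * c⁻¹ = 1 := congrArg Subtype.val h5
      have h7 : y ^ e = c⁻¹ * (c * y ^ e * c⁻¹) * c := by group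
      rw [h7, h6]
      group
    · intro h1 χ
      unfold th
      rw [h1]
      rw [one_pow]
  have hNn : K.Normal := by
    apply Subgroup.normal_iInf_normal
    intro θ
    exact charKer_normal _ _
  have hdisj : Disjoint K H := by
    rw [Subgroup.disjoint_def]
    intro x hxK hxH
    rw [hmem] at hxK
    rw [hy.pi_eq hxH] at hxK
    exact hxK
  have hcard : Nat.card K = m := by
    rw [← hy.phi_one]
    unfold phi
    rw [Nat.card_eq_fintype_card, ← Fintype.card_subtype]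
    apply Fintype.card_congr
    exact Equiv.subtypeEquivRight hmem
  have hcomp : Subgroup.IsComplement' K H := by
    rw [Subgroup.isComplement'_iff_card_mul_and_disjoint]
    refine ⟨?_, hdisj⟩
    rw [hcard, hy.hn, hy.hG, mul_comm]
  exact ⟨K, hNn, hcomp.sup_eq_top, hdisj.eq_bot⟩

end Main

/-- The Brauer–Suzuki theorem. -/
theorem main {G : Type u} [Group G] [Finite G] (H : Subgroup G)
    (hHall : Nat.Coprime (Nat.card H) H.index)
    (hfus : ∀ x ∈ H, ∀ y ∈ H, IsConj x y → ∃ h ∈ H, h * x * h⁻¹ = y)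
    (helem : ∀ (E : Subgroup G) (p : ℕ), p.Prime → Cfsg.IsElementary p E → Nat.card E ∣ Nat.card H →
      ∃ g : G, E.map (MulAut.conj g).toMonoidHom ≤ H) :
    ∃ K : Subgroup G, K.Normal ∧ K ⊔ H = ⊤ ∧ K ⊓ H = ⊥ := by
  classical
  haveI : Fintype G := Fintype.ofFinite G
  have hG : Nat.card G = Nat.card H * H.index := (H.card_mul_index).symm
  obtain ⟨e, f, hP⟩ := exists_part hHall hG
  exact Hyp.main (e := e) (f := f) (n := Nat.card H) (m := H.index) ⟨hP, hHall, hG, rfl, hfus, helem⟩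

end Cfsg.Agent.H12.BS
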