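import Mathlib
import Cfsg.Agent.Lib.H06.Brauer5
import Cfsg.Agent.Lib.H01.CharEquiv

/-!
Brauer's splitting field theorem.
-/

set_option autoImplicit false

namespace Cfsg.Agent.H12.BrauerSplit

open Cfsg Cfsg.Agent.H21 Module Representation
open scoped ComplexConjugate MonoidAlgebra

universe u v

section Basic

variable {F : Type} [Field F] [Algebra F ℂ] {G : Type u} [Group G]

/-- The complex trace function of a representation over a subfield. -/
noncomputable def cch {V : Type v} [AddCommGroup V] [Module F V]
    (r : Representation F G V) : G → ℂ :=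
  fun g => algebraMap F ℂ (LinearMap.trace F V (r g))

/-- The matrix representation. -/
noncomputable def cxRep {V : Type v} [AddCommGroup V] [Module F V] [FiniteDimensional F V]
    (r : Representation F G V) : Representation ℂ G (Fin (finrank F V) → ℂ) where
  toFun g := Matrix.toLin' ((LinearMap.toMatrix (finBasis F V) (finBasis F V) (r g)).map
    (algebraMap F ℂ))
  map_one' := by
    rw [map_one, Module.End.one_eq_id, LinearMap.toMatrix_id, Matrix.map_one _ (map_zero _) (map_one _),
      Matrix.toLin'_one]
    rfl
  map_mul' a b := by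
    rw [map_mul, Module.End.mul_eq_comp, LinearMap.toMatrix_comp _ (finBasis F V),
      Matrix.map_mul, Matrix.toLin'_mul]
    rfl

theorem cxRep_entry {V : Type v} [AddCommGroup V] [Module F V] [FiniteDimensional F V]
    (r : Representation F G V) (g : G) (i j : Fin (finrank F V)) :
    LinearMap.toMatrix' (cxRep r g) i j =
      algebraMap F ℂ (LinearMap.toMatrix (finBasis F V) (finBasis F V) (r g) i j) := by
  show LinearMap.toMatrix' (Matrix.toLin' _) i j = _
  rw [LinearMap.toMatrix'_toLin']
  rfl

theorem cxRep_character {V : Type v} [AddCommGroup V] [Module F V] [FiniteDimensional F V]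
    (r : Representation F G V) : (cxRep r).character = cch r := by
  funext g
  show LinearMap.trace ℂ _ (Matrix.toLin' _) = _
  rw [Matrix.trace_toLin'_eq]
  simp only [cch]
  rw [LinearMap.trace_eq_matrix_trace F (finBasis F V) (r g)]
  simp [Matrix.trace, map_sum]

theorem isCharacter_cch {V : Type v} [AddCommGroup V] [Module F V] [FiniteDimensional F V]
    (r : Representation F G V) : IsCharacter G (cch r) :=
  ⟨_, cxRep r, cxRep_character r⟩

end Basic

section Div

variable {F : Type} [Field F] {G : Type u} [Group G] {V : Type v} [AddCommGroup V] [Module F V]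
  [FiniteDimensional F V]

theorem finrank_dvd_of_tower {E : Type*} [DivisionRing E] [Algebra F E] {W : Type*}
    [AddCommGroup W] [Module F W] [Module E W] [IsScalarTower F E W] [FiniteDimensional F W]
    [FiniteDimensional F E] : finrank F E ∣ finrank F W :=
  ⟨finrank E W, (Module.finrank_mul_finrank F E W).symm⟩

theorem finrank_intertwining_dvd (r : Representation F G V) [hr : r.IsIrreducible]
    (X : Submodule F V) (hX : ∀ f : IntertwiningMap r r, ∀ v ∈ X, f v ∈ X) :
    finrank F (IntertwiningMap r r) ∣ finrank F X := by
  classical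
  have hEq := (IntertwiningMap.equivAlgEnd (ρ := r)).toLinearEquiv.finrank_eq
  rw [hEq]
  let X' : Submodule (Module.End F[G] r.asModule) r.asModule :=
    { carrier := {v | r.asModuleEquiv v ∈ X}
      add_mem' := by
        intro a b ha hb
        simp only [Set.mem_setOf_eq, map_add] at ha hb ⊢
        exact X.add_mem ha hb
      zero_mem' := by
        simp
      smul_mem' := by
        intro c v hv
        have := hX ((IntertwiningMap.equivAlgEnd (ρ := r)).symm c) _ hv
        exact this }
  haveI : FiniteDimensional F (Module.End F[G] r.asModule) :=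
    (IntertwiningMap.equivAlgEnd (ρ := r)).toLinearEquiv.finiteDimensional
  letI e : X' ≃ₗ[F] X :=
    { toFun := fun x => ⟨r.asModuleEquiv x.1, x.2⟩
      invFun := fun x => ⟨r.asModuleEquiv.symm x.1, by
        show r.asModuleEquiv (r.asModuleEquiv.symm x.1) ∈ X
        simp⟩
      map_add' := fun a b => by
        apply Subtype.ext
        simp
      map_smul' := fun c a => by
        apply Subtype.ext
        simp
      left_inv := fun a => by
        apply Subtype.ext
        simp
      right_inv := fun a => by
        apply Subtype.ext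
        simp }
  rw [← e.finrank_eq]
  haveI : FiniteDimensional F X' := e.symm.finiteDimensional
  exact finrank_dvd_of_tower (F := F) (E := Module.End F[G] r.asModule) (W := X')

end Div

section Main

variable {F : Type} [Field F] [Algebra F ℂ] {G : Type u} [Group G] [Fintype G]

theorem charZeroF (F : Type) [Field F] [Algebra F ℂ] : CharZero F :=
  ((algebraMap F ℂ).charZero_iff (algebraMap F ℂ).injective).mpr inferInstance

variable {V : Type v} [AddCommGroup V] [Module F V] [FiniteDimensional F V]

/-- The dimension of the endomorphism algebra is the norm of the character. -/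
theorem classInner_cch_self (r : Representation F G V) :
    classInner (cch r) (cch r) = (finrank F (IntertwiningMap r r) : ℂ) := by
  haveI := charZeroF F
  haveI : Invertible (Nat.card G : F) :=
    invertibleOfNonzero (by simpa using Nat.card_pos.ne')
  have h := card_inv_mul_sum_char_mul_char_eq_finrank r r
  have h2 := congrArg (algebraMap F ℂ) h
  simp only [map_mul, map_sum, map_natCast, map_inv₀] at h2
  rw [← h2]
  unfold classInner
  congr 1
  refine Finset.sum_congr rfl fun g _ => ?_
  rw [← isCharacter_inv (isCharacter_cch r) g]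
  rfl

/-- Twisting the restriction to a subgroup. -/
noncomputable def twist (r : Representation F G V) (H : Subgroup G) (c : H → F) (h1 : c 1 = 1)
    (hm : ∀ a b, c (a * b) = c a * c b) : Representation F H V where
  toFun h := c h • r (h : G)
  map_one' := by
    rw [h1, one_smul]
    simp
  map_mul' a b := by
    rw [hm]
    apply LinearMap.ext
    intro v
    show (c a * c b) • r ((a * b : H) : G) v = c a • r (a : G) (c b • r (b : G) v)
    rw [Subgroup.coe_mul, map_mul, Module.End.mul_apply, map_smul, smul_smul]

theorem twist_character (r : Representation F G V) (H : Subgroup G) (c : H → F) (h1 : c 1 = 1)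
    (hm : ∀ a b, c (a * b) = c a * c b) (h : H) :
    (twist r H c h1 hm).character h = c h * r.character (h : G) := by
  show LinearMap.trace F V (c h • r (h : G)) = _
  rw [map_smul, smul_eq_mul]
  rfl

/-- The key divisibility. -/
theorem dvd_classInner_restrict (r : Representation F G V) [r.IsIrreducible]
    (hF : ∀ z : ℂ, z ^ Monoid.exponent G = 1 → ∃ a : F, algebraMap F ℂ a = z)
    (H : Subgroup G) [Fintype H] (l : H →* ℂˣ) :
    ∃ k : ℕ, classInner (fun h : H => cch r (h : G)) (fun h : H => ((l h : ℂˣ) : ℂ)) =
      (finrank F (IntertwiningMap r r) : ℂ) * k := by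
  classical
  haveI := charZeroF F
  have hroot : ∀ h : H, (((l h)⁻¹ : ℂˣ) : ℂ) ^ Monoid.exponent G = 1 := by
    intro h
    have h1 : (h : G) ^ Monoid.exponent G = 1 := Monoid.pow_exponent_eq_one _
    have h2 : h ^ Monoid.exponent G = 1 := by
      apply Subtype.ext
      simpa using h1
    have h3 : (l h) ^ Monoid.exponent G = 1 := by rw [← map_pow, h2, map_one]
    rw [← Units.val_pow_eq_pow_val, inv_pow, h3]
    simp
  choose c hc using fun h : H => hF _ (hroot h)
  have hc1 : c 1 = 1 := by
    apply (algebraMap F ℂ).injective
    rw [hc]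
    simp
  have hcm : ∀ a b, c (a * b) = c a * c b := by
    intro a b
    apply (algebraMap F ℂ).injective
    rw [map_mul, hc, hc, hc, map_mul, mul_inv]
    simp [mul_comm]
  let tw := twist r H c hc1 hcm
  haveI : Invertible (Nat.card H : F) :=
    invertibleOfNonzero (by simpa using Nat.card_pos.ne')
  have h := card_inv_mul_sum_char_eq_finrank tw
  have h2 := congrArg (algebraMap F ℂ) h
  simp only [map_mul, map_sum, map_natCast, map_inv₀] at h2
  have hX : ∀ f : IntertwiningMap r r, ∀ v ∈ invariants tw, f v ∈ invariants tw := by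
    intro f v hv h
    have h3 := hv h
    show c h • r (h : G) (f v) = f v
    rw [← IntertwiningMap.isIntertwining, ← map_smul]
    exact congrArg f h3
  obtain ⟨k, hk⟩ := finrank_intertwining_dvd r (invariants tw) hX
  refine ⟨k, ?_⟩
  rw [← Nat.cast_mul, ← hk, ← h2]
  unfold classInner
  congr 1
  refine Finset.sum_congr rfl fun x _ => ?_
  rw [twist_character, map_mul, hc]
  have hnorm : ‖((l x : ℂˣ) : ℂ)‖ = 1 := by
    have h4 : ((l x : ℂˣ) : ℂ) ^ Monoid.exponent G = 1 := by
      have := hroot x⁻¹
      simpa using this
    exact Complex.norm_eq_one_of_pow_eq_one h4 (Monoid.exponent_ne_zero_of_finite)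
  rw [mul_comm]
  congr 1
  rw [Units.val_inv_eq_inv_val, Complex.inv_eq_conj hnorm]

theorem classInner_cch_ind (r : Representation F G V)
    (H : Subgroup G) [Fintype H] (θ : H → ℂ) :
    classInner (cch r) (indFun H θ) = classInner (fun h : H => cch r (h : G)) θ := by
  classical
  haveI : Fintype (IrrCharacter G) := Fintype.ofFinite _
  rw [← classInner_comm_conj,
    frobenius_reciprocity H θ (cch r) (isClassFunction_of_isCharacter (isCharacter_cch r)),
    classInner_comm_conj]

theorem classInner_list (r : Representation F G V) [r.IsIrreducible]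
    (hF : ∀ z : ℂ, z ^ Monoid.exponent G = 1 → ∃ a : F, algebraMap F ℂ a = z)
    (l : List ((E : Subgroup G) × ((E →* ℂˣ) × ℤ))) :
    ∃ K : ℤ, classInner (cch r)
      ((l.map fun t => (t.2.2 : ℂ) • indFun t.1 (fun e => ((t.2.1 e : ℂˣ) : ℂ))).sum) =
        (finrank F (IntertwiningMap r r) : ℂ) * K := by
  classical
  induction l with
  | nil =>
    refine ⟨0, ?_⟩
    simp only [List.map_nil, List.sum_nil]
    rw [← classInner_comm_conj, classInner_zero_left]
    simp
  | cons t l ih =>
    obtain ⟨K, hK⟩ := ih
    simp only [List.map_cons, List.sum_cons]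
    haveI : Fintype t.1 := Fintype.ofFinite _
    obtain ⟨k, hk⟩ := dvd_classInner_restrict r hF t.1 t.2.1
    refine ⟨t.2.2 * k + K, ?_⟩
    rw [classInner_add_right, hK, classInner_smul_right, classInner_cch_ind, hk,
      map_intCast]
    push_cast
    ring

/-- Characters of absolutely... simple modules over fields containing enough roots of unity
are irreducible. -/
theorem isIrr_cch (r : Representation F G V) [hr : r.IsIrreducible]
    (hF : ∀ z : ℂ, z ^ Monoid.exponent G = 1 → ∃ a : F, algebraMap F ℂ a = z) :
    IsIrrCharacter G (cch r) := by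
  classical
  haveI : Fintype (IrrCharacter G) := Fintype.ofFinite _
  set d := finrank F (IntertwiningMap r r) with hd
  obtain ⟨m, hm, hm'⟩ := isCharacter_decomp (isCharacter_cch r)
  have h2 : classInner (cch r) (cch r) = ∑ ψ : IrrCharacter G, (m ψ : ℂ) * (m ψ : ℂ) := by
    conv_lhs => rw [hm]
    rw [classInner_sum_left]
    refine Finset.sum_congr rfl fun ψ _ => ?_
    rw [← Nat.cast_smul_eq_nsmul ℂ, classInner_smul_left, ← hm, ← classInner_comm_conj, hm',
      Complex.conj_natCast]
  rw [classInner_cch_self] at h2
  have h3 : d = ∑ ψ : IrrCharacter G, m ψ * m ψ := by exact_mod_cast h2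
  have hdvd : ∀ ψ : IrrCharacter G, d ∣ m ψ := by
    intro ψ
    obtain ⟨K, hK⟩ := classInner_list r hF
      (Classical.choose (Cfsg.Agent.H06.Brauer.exists_list_of_mem_VL
        (Cfsg.Agent.H06.Brauer.char_mem_VL (isCharacter_of_irr ψ.2))))
    rw [← Classical.choose_spec (Cfsg.Agent.H06.Brauer.exists_list_of_mem_VL
        (Cfsg.Agent.H06.Brauer.char_mem_VL (isCharacter_of_irr ψ.2)))|>.2, hm'] at hK
    have h5 : (m ψ : ℤ) = d * K := by exact_mod_cast hK
    exact Int.natCast_dvd_natCast.mp ⟨K, h5⟩
  -- a nonzero multiplicity
  have hnt : Nontrivial V := by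
    by_contra hV
    rw [not_nontrivial_iff_subsingleton] at hV
    obtain ⟨a, b, hab⟩ := (inferInstance : Nontrivial (Subrepresentation r)).exists_pair_ne
    apply hab
    apply Subrepresentation.toSubmodule_injective
    exact Subsingleton.elim _ _
  have h4 : ∃ ψ : IrrCharacter G, m ψ ≠ 0 := by
    by_contra hcon
    push Not at hcon
    have h6 : cch r = 0 := by
      rw [hm]
      simp [hcon]
    have h7 := congrFun h6 1
    have h8 : algebraMap F ℂ (LinearMap.trace F V (r 1)) = 0 := h7
    haveI := charZeroF F
    rw [map_one, LinearMap.trace_one, map_natCast] at h8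
    have h9 : finrank F V = 0 := by exact_mod_cast h8
    exact (Module.finrank_pos (R := F) (M := V)).ne' h9
  obtain ⟨ψ, hψ⟩ := h4
  have h5 : m ψ * m ψ ≤ d := by
    rw [h3]
    exact Finset.single_le_sum (f := fun ψ => m ψ * m ψ) (fun _ _ => Nat.zero_le _)
      (Finset.mem_univ ψ)
  have h6 : d ≤ m ψ := Nat.le_of_dvd (Nat.pos_of_ne_zero hψ) (hdvd ψ)
  have h7 : m ψ = 1 := by nlinarith [Nat.pos_of_ne_zero hψ]
  have h8 : d = 1 := by
    have : 1 ≤ d := by nlinarith [Nat.pos_of_ne_zero hψ]
    omega
  apply isIrrCharacter_of_inner_self_eq_one (isCharacter_cch r)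
  rw [classInner_cch_self, ← hd, h8]
  simp

theorem trace_eq_add_of_isComplF (p q : Submodule F V) (h : IsCompl p q) (f : End F V)
    (hp : ∀ x ∈ p, f x ∈ p) (hq : ∀ x ∈ q, f x ∈ q) :
    LinearMap.trace F V f =
      LinearMap.trace F p (f.restrict hp) + LinearMap.trace F q (f.restrict hq) := by
  let e : (p × q) ≃ₗ[F] V := Submodule.prodEquivOfIsCompl p q h
  have hconj : f = e.conj ((f.restrict hp).prodMap (f.restrict hq)) := by
    apply LinearMap.ext
    intro x
    obtain ⟨y, rfl⟩ := e.surjective x
    obtain ⟨a, b⟩ := y
    simp [LinearEquiv.conj_apply, e, Submodule.coe_prodEquivOfIsCompl']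
  conv_lhs => rw [hconj]
  rw [LinearMap.trace_conj', LinearMap.trace_prodMap']

theorem cch_eq_add {r : Representation F G V} {S S' : Subrepresentation r} (hc : IsCompl S S') :
    cch r = cch S.toRepresentation + cch S'.toRepresentation := by
  have hcompl : IsCompl S.toSubmodule S'.toSubmodule := by
    constructor
    · rw [disjoint_iff]
      have := hc.inf_eq_bot
      exact congrArg Subrepresentation.toSubmodule this
    · rw [codisjoint_iff]
      have := hc.sup_eq_top
      exact congrArg Subrepresentation.toSubmodule this
  funext g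
  simp only [cch, Pi.add_apply]
  rw [← map_add]
  congr 1
  exact trace_eq_add_of_isComplF _ _ hcompl (r g)
    (fun x hx => S.apply_mem_toSubmodule g hx) (fun x hx => S'.apply_mem_toSubmodule g hx)

/-- Some irreducible constituent has a nonzero inner product. -/
theorem exists_simple (χ : G → ℂ) (n : ℕ) :
    ∀ (V : Type u) [AddCommGroup V] [Module F V] [FiniteDimensional F V]
      (r : Representation F G V), finrank F V = n → classInner (cch r) χ ≠ 0 →
      ∃ (W : Type u) (_ : AddCommGroup W) (_ : Module F W) (_ : FiniteDimensional F W)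
        (s : Representation F G W), s.IsIrreducible ∧ classInner (cch s) χ ≠ 0 := by
  induction n using Nat.strong_induction_on with
  | _ n ih =>
    intro V _ _ _ r hn hne
    haveI := charZeroF F
    haveI : NeZero (Nat.card G : F) := ⟨by simpa using Nat.card_pos.ne'⟩
    by_cases hnt : Subsingleton V
    · exfalso
      apply hne
      have : cch r = 0 := by
        funext g
        have h0 : r g = 0 := Subsingleton.elim _ _
        simp [cch, h0]
      rw [this, classInner_zero_left]
    rw [not_subsingleton_iff_nontrivial] at hnt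
    have hbt : (⊥ : Subrepresentation r) ≠ ⊤ := by
      intro hh
      have := congrArg Subrepresentation.toSubmodule hh
      exact (bot_ne_top : (⊥ : Submodule F V) ≠ ⊤) this
    have : Nontrivial (Subrepresentation r) := ⟨⟨⊥, ⊤, hbt⟩⟩
    by_cases hirr' : r.IsIrreducible
    · exact ⟨V, _, _, inferInstance, r, hirr', hne⟩
    have : ∃ S : Subrepresentation r, S ≠ ⊥ ∧ S ≠ ⊤ := by
      by_contra hcon
      push Not at hcon
      apply hirr'
      exact { eq_bot_or_eq_top := fun S => by
                by_cases hS : S = ⊥
                · exact Or.inl hS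
                · exact Or.inr (hcon S hS) }
    obtain ⟨S, hS1, hS2⟩ := this
    obtain ⟨S', hc⟩ := exists_isCompl S
    have hS'2 : S' ≠ ⊤ := by
      intro hh
      rw [hh] at hc
      exact hS1 (hc.disjoint.eq_bot_of_le le_top)
    have hlt : ∀ T : Subrepresentation r, T ≠ ⊤ → finrank F T.toSubmodule < n := by
      intro T hT
      rw [← hn]
      apply Submodule.finrank_lt
      intro h'
      apply hT
      apply Subrepresentation.toSubmodule_injective
      exact h'
    have hadd := cch_eq_add hc
    rw [hadd, classInner_add_left] at hne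
    by_cases h1 : classInner (cch S.toRepresentation) χ = 0
    · rw [h1, zero_add] at hne
      exact ih _ (hlt S' hS'2) _ S'.toRepresentation rfl hne
    · exact ih _ (hlt S hS2) _ S.toRepresentation rfl h1

/-- The regular representation. -/
noncomputable def regF (F : Type) [Field F] (G : Type u) [Group G] : Representation F G (G → F) where
  toFun g :=
    { toFun := fun f x => f (g⁻¹ * x)
      map_add' := fun _ _ => rfl
      map_smul' := fun _ _ => rfl }
  map_one' := by ext f x; simp
  map_mul' a b := by
    ext f x
    simp [mul_assoc]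

theorem regF_trace_ne {g : G} (hg : g ≠ 1) : LinearMap.trace F (G → F) (regF F G g) = 0 := by
  classical
  rw [LinearMap.trace_eq_matrix_trace F (Pi.basisFun F G) (regF F G g), Matrix.trace]
  simp only [Matrix.diag, LinearMap.toMatrix_apply, Pi.basisFun_repr, Pi.basisFun_apply]
  apply Finset.sum_eq_zero
  intro x _
  show (Pi.single x (1 : F) : G → F) (g⁻¹ * x) = 0
  rw [Pi.single_apply, if_neg]
  intro h
  apply hg
  have : g⁻¹ = 1 := by
    have h3 : g⁻¹ * x * x⁻¹ = x * x⁻¹ := by rw [h]
    simpa using h3
  simpa using this

/-- Every irreducible character is the character of a simple module over `F`. -/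
theorem exists_simple_of_irr
    (hF : ∀ z : ℂ, z ^ Monoid.exponent G = 1 → ∃ a : F, algebraMap F ℂ a = z)
    (χ : IrrCharacter G) :
    ∃ (W : Type u) (_ : AddCommGroup W) (_ : Module F W) (_ : FiniteDimensional F W)
      (s : Representation F G W), cch s = χ.1 := by
  classical
  haveI := charZeroF F
  haveI : Fintype (IrrCharacter G) := Fintype.ofFinite _
  have hne : classInner (cch (regF F G)) χ.1 ≠ 0 := by
    have hne : (Nat.card G : ℂ) ≠ 0 := by simp [Nat.card_pos.ne']
    simp only [classInner]
    rw [Finset.sum_eq_single 1]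
    · have h1 : cch (regF F G) 1 = (Nat.card G : ℂ) := by
        simp [cch, map_one, LinearMap.trace_one, Module.finrank_fintype_fun_eq_card,
          Nat.card_eq_fintype_card]
      rw [h1, one_eq_charDegree (isCharacter_of_irr χ.2), Complex.conj_natCast,
        inv_mul_cancel_left₀ hne]
      have := irr_charDegree_pos χ.2
      exact_mod_cast this.ne'
    · intro b _ hb
      simp [cch, regF_trace_ne hb]
    · intro h; exact absurd (Finset.mem_univ _) h
  obtain ⟨W, i1, i2, i3, s, hs, hne2⟩ := exists_simple χ.1 _ (G → F) (regF F G) rfl hne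
  refine ⟨W, i1, i2, i3, s, ?_⟩
  have h1 := isIrr_cch s hF
  have h2 := classInner_irr ⟨_, h1⟩ χ
  by_cases h3 : (⟨_, h1⟩ : IrrCharacter G) = χ
  · exact congrArg Subtype.val h3
  · rw [if_neg h3] at h2
    exact absurd h2 hne2

end Main

section Realized

variable (F : Type) [Field F] [Algebra F ℂ] {G : Type u} [Group G]

/-- Realizable over `F`. -/
def Realized (χ : G → ℂ) : Prop :=
  ∃ (W : Type u) (_ : AddCommGroup W) (_ : Module F W) (_ : FiniteDimensional F W)
    (s : Representation F G W), cch s = χ

theorem realized_zero : Realized F (0 : G → ℂ) := by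
  refine ⟨PUnit.{u+1}, inferInstance, inferInstance, inferInstance, 1, ?_⟩
  funext g
  simp [cch, Module.finrank_zero_of_subsingleton]

variable {F}

theorem realized_add {χ ψ : G → ℂ} (h1 : Realized F χ) (h2 : Realized F ψ) :
    Realized F (χ + ψ) := by
  obtain ⟨W, i1, i2, i3, s, rfl⟩ := h1
  obtain ⟨W', i1', i2', i3', s', rfl⟩ := h2
  refine ⟨W × W', inferInstance, inferInstance, inferInstance, s.prod s', ?_⟩
  funext g
  simp only [cch, Pi.add_apply]
  rw [← map_add, ← LinearMap.trace_prodMap']
  rfl

theorem realized_nsmul {χ : G → ℂ} (h1 : Realized F χ) (n : ℕ) : Realized F (n • χ) := by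
  induction n with
  | zero => rw [zero_smul]; exact realized_zero F
  | succ n ih =>
    rw [succ_nsmul]
    exact realized_add ih h1

theorem realized_sum {ι : Type*} (s : Finset ι) (f : ι → G → ℂ) (h : ∀ i ∈ s, Realized F (f i)) :
    Realized F (∑ i ∈ s, f i) := by
  classical
  induction s using Finset.induction_on with
  | empty => simpa using realized_zero F
  | insert a s ha ih =>
    rw [Finset.sum_insert ha]
    exact realized_add (h a (Finset.mem_insert_self _ _))
      (ih fun i hi => h i (Finset.mem_insert_of_mem hi))

theorem realized_of_isCharacter [Fintype G]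
    (hF : ∀ z : ℂ, z ^ Monoid.exponent G = 1 → ∃ a : F, algebraMap F ℂ a = z)
    {χ : G → ℂ} (h : IsCharacter G χ) : Realized F χ := by
  classical
  haveI : Fintype (IrrCharacter G) := Fintype.ofFinite _
  obtain ⟨m, hm, -⟩ := isCharacter_decomp h
  rw [hm]
  refine realized_sum _ _ fun ψ _ => realized_nsmul ?_ _
  exact exists_simple_of_irr hF ψ

/-- **Brauer's splitting field theorem**, over a subfield. -/
theorem exists_rep_over [Fintype G]
    (hF : ∀ z : ℂ, z ^ Monoid.exponent G = 1 → ∃ a : F, algebraMap F ℂ a = z)
    (n : ℕ) (ρ : Representation ℂ G (Fin n → ℂ)) :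
    ∃ σ : Representation ℂ G (Fin n → ℂ), Nonempty (ρ.Equiv σ) ∧
      ∀ g : G, ∀ i j : Fin n, ∃ a : F, LinearMap.toMatrix' (σ g) i j = algebraMap F ℂ a := by
  obtain ⟨W, i1, i2, i3, s, hs⟩ := realized_of_isCharacter (F := F) hF ⟨n, ρ, rfl⟩
  have h1 : (cxRep s).character = ρ.character := by rw [cxRep_character, hs]
  have hk : finrank F W = n := by
    have := congrFun h1 1
    rw [Representation.char_one, Representation.char_one] at this
    simpa using this
  subst hk
  refine ⟨cxRep s, Cfsg.Agent.H01.equiv_of_character_eq _ _ h1.symm, fun g i j => ?_⟩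
  exact ⟨_, cxRep_entry s g i j⟩

end Realized

end Cfsg.Agent.H12.BrauerSplit
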