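import Mathlib
import Cfsg.Agent.Lib.H14.UniqueSub

/-! Groups with a fixed-point-free matrix representation over an algebraically closed field:
elements of prime order normalizing a cyclic subgroup centralize it, and `p`-subgroups have a unique
subgroup of order `p`. -/

set_option autoImplicit false

namespace Cfsg.Agent.H12.FC

open Matrix

variable {A : Type*} [Group A] {n : ℕ} {K : Type*} [Field K]
  {φ : A →* Matrix (Fin n) (Fin n) K}

theorem eq_one_of_fix (hφ : ∀ a, a ≠ 1 → IsUnit ((φ a - 1).det)) {a : A} {v : Fin n → K}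
    (hv : v ≠ 0) (h : φ a *ᵥ v = v) : a = 1 := by
  by_contra ha
  apply hv
  have h1 := hφ a ha
  have h2 : (φ a - 1) *ᵥ v = 0 := by
    rw [Matrix.sub_mulVec, Matrix.one_mulVec, h, sub_self]
  exact Matrix.eq_zero_of_mulVec_eq_zero h1.ne_zero h2

theorem pow_eigen {y : A} {ζ : K} {v : Fin n → K} (h : φ y *ᵥ v = ζ • v) (k : ℕ) :
    φ (y ^ k) *ᵥ v = ζ ^ k • v := by
  induction k with
  | zero => simp
  | succ k ih =>
    rw [pow_succ, map_mul, ← Matrix.mulVec_mulVec, h, Matrix.mulVec_smul, ih, smul_smul, pow_succ']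

variable [IsAlgClosed K]

theorem exists_eigen (hn : 0 < n) (y : A) :
    ∃ (ζ : K) (v : Fin n → K), v ≠ 0 ∧ φ y *ᵥ v = ζ • v := by
  haveI : Nonempty (Fin n) := ⟨⟨0, hn⟩⟩
  obtain ⟨ζ, hζ⟩ := Module.End.exists_eigenvalue (φ y).mulVecLin
  obtain ⟨v, hv⟩ := hζ.exists_hasEigenvector
  exact ⟨ζ, v, hv.2, by simpa using hv.apply_eq_smul⟩

/-- An element of prime order normalizing a cyclic subgroup centralizes it. -/
theorem commute_of_prime (hn : 0 < n) (hφ : ∀ a, a ≠ 1 → IsUnit ((φ a - 1).det)) {w y : A}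
    {p e : ℕ} (hp : p.Prime) (hw : orderOf w = p) (hc : w⁻¹ * y * w = y ^ e) :
    w * y = y * w := by
  classical
  by_contra hne
  obtain ⟨ζ, v, hv, hy⟩ := exists_eigen (φ := φ) hn y
  have hw1 : w ≠ 1 := by
    rintro rfl
    rw [orderOf_one] at hw
    exact hp.one_lt.ne hw
  have hwp : w ^ p = 1 := by rw [← hw]; exact pow_orderOf_eq_one w
  have hconj : ∀ k : ℕ, (w ^ k)⁻¹ * y * w ^ k = y ^ (e ^ k) := by
    intro k
    induction k with
    | zero => simp
    | succ k ih =>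
      have h3 : w⁻¹ * y ^ (e ^ k) * w = (y ^ e) ^ (e ^ k) := by
        rw [← hc]
        generalize e ^ k = d
        induction d with
        | zero => simp
        | succ d ihd =>
          rw [pow_succ, pow_succ, ← ihd]
          group
      calc (w ^ (k + 1))⁻¹ * y * w ^ (k + 1) = w⁻¹ * ((w ^ k)⁻¹ * y * w ^ k) * w := by
            rw [pow_succ]; group
        _ = _ := by rw [ih, h3, ← pow_mul, pow_succ, mul_comm]
  let V : ℕ → (Fin n → K) := fun i => φ (w ^ i) *ᵥ v
  have hV : ∀ i, φ y *ᵥ V i = ζ ^ (e ^ i) • V i := by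
    intro i
    have h1 : y * w ^ i = w ^ i * y ^ (e ^ i) := by rw [← hconj i]; group
    calc φ y *ᵥ (φ (w ^ i) *ᵥ v) = φ (y * w ^ i) *ᵥ v := by rw [map_mul, Matrix.mulVec_mulVec]
      _ = φ (w ^ i * y ^ (e ^ i)) *ᵥ v := by rw [h1]
      _ = φ (w ^ i) *ᵥ (φ (y ^ (e ^ i)) *ᵥ v) := by rw [map_mul, Matrix.mulVec_mulVec]
      _ = φ (w ^ i) *ᵥ (ζ ^ (e ^ i) • v) := by rw [pow_eigen hy]
      _ = _ := by rw [Matrix.mulVec_smul]
  have hVne : ∀ i, V i ≠ 0 := by
    intro i h
    apply hv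
    have h2 : φ ((w ^ i)⁻¹) *ᵥ (φ (w ^ i) *ᵥ v) = v := by
      rw [Matrix.mulVec_mulVec, ← map_mul]
      simp
    rw [← h2]
    have h3 : φ (w ^ i) *ᵥ v = 0 := h
    rw [h3, Matrix.mulVec_zero]
  have h3 : ∀ i, (φ w).mulVecLin (V i) = V (i + 1) := by
    intro i
    show φ w *ᵥ (φ (w ^ i) *ᵥ v) = φ (w ^ (i + 1)) *ᵥ v
    rw [Matrix.mulVec_mulVec, ← map_mul, pow_succ']
  have hS : φ w *ᵥ (∑ i ∈ Finset.range p, V i) = ∑ i ∈ Finset.range p, V i := by
    have h4 : (φ w).mulVecLin (∑ i ∈ Finset.range p, V i) = ∑ i ∈ Finset.range p, V (i + 1) := by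
      rw [map_sum]
      exact Finset.sum_congr rfl (fun i _ => h3 i)
    have h5 : V p = V 0 := by
      show φ (w ^ p) *ᵥ v = φ (w ^ 0) *ᵥ v
      rw [hwp, pow_zero]
    have h6 := Finset.sum_range_succ V p
    have h7 := Finset.sum_range_succ' V p
    rw [h6, h5] at h7
    have h8 := add_right_cancel h7
    have h9 : φ w *ᵥ (∑ i ∈ Finset.range p, V i) = (φ w).mulVecLin (∑ i ∈ Finset.range p, V i) := rfl
    rw [h9, h4, h8]
  have hS0 : ∑ i ∈ Finset.range p, V i = 0 := by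
    by_contra h
    exact hw1 (eq_one_of_fix hφ h hS)
  -- distinct eigenvalues
  have hμ : ∀ i j : ℕ, i < j → j < p → ζ ^ (e ^ i) = ζ ^ (e ^ j) → False := by
    intro i j hij hjp heq
    have h1 : φ (y ^ (e ^ i)) *ᵥ v = φ (y ^ (e ^ j)) *ᵥ v := by
      rw [pow_eigen hy, pow_eigen hy, heq]
    have h2 : φ ((y ^ (e ^ j))⁻¹ * y ^ (e ^ i)) *ᵥ v = v := by
      rw [map_mul, ← Matrix.mulVec_mulVec, h1, Matrix.mulVec_mulVec, ← map_mul]
      simp
    have h4 := eq_one_of_fix hφ hv h2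
    have h5 : y ^ (e ^ j) = y ^ (e ^ i) := (inv_mul_eq_one.mp h4)
    rw [← hconj i, ← hconj j] at h5
    obtain ⟨d, rfl⟩ : ∃ d, j = i + d := ⟨j - i, by omega⟩
    have hd0 : 0 < d := by omega
    have hdlt : d < p := by omega
    set c := (w ^ i)⁻¹ * y * w ^ i with hc'
    have h6 : (w ^ d)⁻¹ * c * w ^ d = c := by
      refine Eq.trans ?_ h5
      rw [hc', pow_add]
      group
    have hdc : Commute (w ^ d) c := by
      show w ^ d * c = c * w ^ d
      calc w ^ d * c = w ^ d * ((w ^ d)⁻¹ * c * w ^ d) := by rw [h6]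
        _ = c * w ^ d := by group
    have hdi : Commute (w ^ d) (w ^ i) := Commute.pow_pow_self w d i
    have hy' : w ^ i * c * (w ^ i)⁻¹ = y := by
      rw [hc']; group
    have hdy : Commute (w ^ d) y := by
      rw [← hy']
      exact (hdi.mul_right hdc).mul_right hdi.inv_right
    have hcop : d.Coprime (orderOf w) := by
      rw [hw, Nat.coprime_comm, hp.coprime_iff_not_dvd]
      exact Nat.not_dvd_of_pos_of_lt hd0 hdlt
    obtain ⟨b, hb⟩ := exists_pow_eq_self_of_coprime hcop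
    apply hne
    have h7 : Commute ((w ^ d) ^ b) y := hdy.pow_left b
    rw [hb] at h7
    exact h7
  let μ : Fin p → K := fun i => ζ ^ (e ^ (i : ℕ))
  have hμinj : Function.Injective μ := by
    intro i j hij
    rcases lt_trichotomy (i : ℕ) (j : ℕ) with h | h | h
    · exact (hμ _ _ h j.2 hij).elim
    · exact Fin.ext h
    · exact (hμ _ _ h i.2 hij.symm).elim
  have hli := Module.End.eigenvectors_linearIndependent' (φ y).mulVecLin μ hμinj
    (fun i : Fin p => V i)
    (fun i => ⟨Module.End.mem_eigenspace_iff.mpr (hV i), hVne i⟩)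
  have hsum : ∑ i : Fin p, (1 : K) • V i = 0 := by
    simp only [one_smul]
    rw [Fin.sum_univ_eq_sum_range V p]
    exact hS0
  have := Fintype.linearIndependent_iff.mp hli (fun _ => 1) hsum ⟨0, hp.pos⟩
  exact one_ne_zero this

/-- Commuting elements of the same prime order generate the same subgroup. -/
theorem mem_zpowers_of_commute (hn : 0 < n) (hφ : ∀ a, a ≠ 1 → IsUnit ((φ a - 1).det)) {a b : A}
    {q : ℕ} [hq : Fact q.Prime] (ha : orderOf a = q) (hb : b ^ q = 1) (hab : a * b = b * a) :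
    b ∈ Subgroup.zpowers a := by
  classical
  haveI : Nonempty (Fin n) := ⟨⟨0, hn⟩⟩
  let Ta := (φ a).mulVecLin
  let Tb := (φ b).mulVecLin
  have hcomm : ∀ x, Ta (Tb x) = Tb (Ta x) := by
    intro x
    show φ a *ᵥ (φ b *ᵥ x) = φ b *ᵥ (φ a *ᵥ x)
    rw [Matrix.mulVec_mulVec, Matrix.mulVec_mulVec, ← map_mul, ← map_mul, hab]
  obtain ⟨ζ, hζ⟩ := Module.End.exists_eigenvalue Ta
  have hE : ∀ x ∈ Module.End.eigenspace Ta ζ, Tb x ∈ Module.End.eigenspace Ta ζ := by
    intro x hx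
    rw [Module.End.mem_eigenspace_iff] at hx ⊢
    rw [hcomm, hx, map_smul]
  haveI : Nontrivial (Module.End.eigenspace Ta ζ) := (Submodule.nontrivial_iff_ne_bot).mpr hζ
  obtain ⟨ξ, hξ⟩ := Module.End.exists_eigenvalue (Tb.restrict hE)
  obtain ⟨w, hw⟩ := hξ.exists_hasEigenvector
  let v : Fin n → K := w
  have hv : v ≠ 0 := by
    intro h
    exact hw.2 (Subtype.ext h)
  have hav : φ a *ᵥ v = ζ • v := Module.End.mem_eigenspace_iff.mp w.2
  have hbv : φ b *ᵥ v = ξ • v := by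
    have := congrArg Subtype.val hw.apply_eq_smul
    exact this
  have hne1 : ζ ≠ 1 := by
    rintro rfl
    have h1 : φ a *ᵥ v = v := by rw [hav, one_smul]
    have h2 := eq_one_of_fix hφ hv h1
    rw [h2, orderOf_one] at ha
    exact hq.out.one_lt.ne ha
  have hζq : ζ ^ q = 1 := by
    have h1 : φ (a ^ q) *ᵥ v = ζ ^ q • v := pow_eigen hav q
    rw [← ha, pow_orderOf_eq_one, map_one, Matrix.one_mulVec] at h1
    have h2 : (ζ ^ orderOf a - 1) • v = 0 := by
      rw [sub_smul, ← h1, one_smul, sub_self]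
    rcases smul_eq_zero.mp h2 with h3 | h3
    · rw [← ha]; exact sub_eq_zero.mp h3
    · exact (hv h3).elim
  have hξq : ξ ^ q = 1 := by
    have h1 : φ (b ^ q) *ᵥ v = ξ ^ q • v := pow_eigen hbv q
    rw [hb, map_one, Matrix.one_mulVec] at h1
    have h2 : (ξ ^ q - 1) • v = 0 := by
      rw [sub_smul, ← h1, one_smul, sub_self]
    rcases smul_eq_zero.mp h2 with h3 | h3
    · exact sub_eq_zero.mp h3
    · exact (hv h3).elim
  have hprim : IsPrimitiveRoot ζ q := by
    have h1 := IsPrimitiveRoot.orderOf ζ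
    rwa [orderOf_eq_prime hζq hne1] at h1
  haveI : NeZero q := ⟨hq.out.ne_zero⟩
  obtain ⟨i, -, hi⟩ := hprim.eq_pow_of_pow_eq_one hξq
  have h1 : φ (a ^ i) *ᵥ v = φ b *ᵥ v := by
    rw [pow_eigen hav, hi, hbv]
  have h2 : φ ((a ^ i)⁻¹ * b) *ᵥ v = v := by
    rw [map_mul, ← Matrix.mulVec_mulVec, ← h1, Matrix.mulVec_mulVec, ← map_mul]
    simp
  have h4 := eq_one_of_fix hφ hv h2
  have h5 : b = a ^ i := (inv_mul_eq_one.mp h4).symm
  rw [h5]
  exact Subgroup.npow_mem_zpowers a i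

/-- A `q`-subgroup has a unique subgroup of order `q`. -/
theorem uniqueP_of_fpf [Finite A] (hn : 0 < n) (hφ : ∀ a, a ≠ 1 → IsUnit ((φ a - 1).det)) {q : ℕ}
    [hq : Fact q.Prime] (S : Subgroup A) (hS : IsPGroup q S) : H14.UniqueP q S := by
  classical
  intro x y hx hy
  haveI : Nontrivial S := by
    refine ⟨⟨x, 1, ?_⟩⟩
    rintro rfl
    rw [orderOf_one] at hx
    exact hq.out.one_lt.ne hx
  haveI := hS.center_nontrivial
  have hdvd : q ∣ Nat.card (Subgroup.center S) := by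
    rcases (hS.to_subgroup (Subgroup.center S)).card_eq_or_dvd with h | h
    · exact absurd h Finite.one_lt_card.ne'
    · exact h
  obtain ⟨z, hz⟩ := exists_prime_orderOf_dvd_card' q hdvd
  have hz' : orderOf ((z : S) : A) = q := by
    rw [Subgroup.orderOf_coe, Subgroup.orderOf_coe]; exact hz
  have hxa : orderOf ((x : S) : A) = q := by rw [Subgroup.orderOf_coe]; exact hx
  have hyp : ((y : S) : A) ^ q = 1 := by
    have h := pow_orderOf_eq_one y
    rw [hy] at h
    simpa using congrArg Subtype.val h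
  have hzp : ((z : S) : A) ^ q = 1 := by
    rw [← hz', pow_orderOf_eq_one]
  have hzc : ∀ u : S, (z : S) * u = u * (z : S) := by
    intro u
    exact (Subgroup.mem_center_iff.mp z.2 u).symm
  have h1 : ((y : S) : A) ∈ Subgroup.zpowers (((z : S) : A)) :=
    mem_zpowers_of_commute hn hφ hz' hyp (congrArg Subtype.val (hzc y))
  have h2 : ((z : S) : A) ∈ Subgroup.zpowers ((x : S) : A) :=
    mem_zpowers_of_commute hn hφ hxa hzp (congrArg Subtype.val (hzc x)).symm
  have h3 : ((y : S) : A) ∈ Subgroup.zpowers ((x : S) : A) :=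
    (Subgroup.zpowers_le.mpr h2) h1
  obtain ⟨k, hk⟩ := Subgroup.mem_zpowers_iff.mp h3
  exact Subgroup.mem_zpowers_iff.mpr ⟨k, Subtype.ext (by simpa using hk)⟩

end Cfsg.Agent.H12.FC
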