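import Mathlib

/-! Presentations of finite groups all of whose Sylow subgroups are cyclic. -/

set_option autoImplicit false

namespace Cfsg.Agent.H12.FC

/-- The relators of the metacyclic presentation. -/
abbrev Rels (n m r : ℕ) : Set (FreeGroup (Fin 2)) :=
  {FreeGroup.of (0 : Fin 2) ^ n, FreeGroup.of (1 : Fin 2) ^ m,
    (FreeGroup.of (0 : Fin 2))⁻¹ * FreeGroup.of 1 * FreeGroup.of 0 * (FreeGroup.of (1 : Fin 2) ^ r)⁻¹}

section card

variable {n m r : ℕ}

/-- Every element of the presented group has the form `X^i Y^j`. -/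
theorem exists_normal_form (hn : 0 < n) (hm : 0 < m) (g : PresentedGroup (Rels n m r)) :
    ∃ i j : ℕ, i < n ∧ j < m ∧
      g = (PresentedGroup.of (0 : Fin 2) : PresentedGroup (Rels n m r)) ^ i *
        (PresentedGroup.of (1 : Fin 2) : PresentedGroup (Rels n m r)) ^ j := by
  classical
  set X : PresentedGroup (Rels n m r) := PresentedGroup.of (0 : Fin 2) with hX
  set Y : PresentedGroup (Rels n m r) := PresentedGroup.of (1 : Fin 2) with hY
  have hXn : X ^ n = 1 := by
    have h := PresentedGroup.one_of_mem (rels := Rels n m r)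
      (x := FreeGroup.of (0 : Fin 2) ^ n) (by simp [Rels])
    rw [map_pow] at h
    exact h
  have hYm : Y ^ m = 1 := by
    have h := PresentedGroup.one_of_mem (rels := Rels n m r)
      (x := FreeGroup.of (1 : Fin 2) ^ m) (by simp [Rels])
    rw [map_pow] at h
    exact h
  have hr : X⁻¹ * Y * X = Y ^ r := by
    have h := PresentedGroup.one_of_mem (rels := Rels n m r)
      (x := (FreeGroup.of (0 : Fin 2))⁻¹ * FreeGroup.of 1 * FreeGroup.of 0 *
        (FreeGroup.of (1 : Fin 2) ^ r)⁻¹) (by simp [Rels])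
    rw [map_mul, map_mul, map_mul, map_inv, map_inv, map_pow] at h
    exact mul_inv_eq_one.mp h
  have hYX : ∀ j : ℕ, Y ^ j * X = X * Y ^ (r * j) := by
    intro j
    have h1 : X⁻¹ * Y ^ j * X = (Y ^ r) ^ j := by
      rw [← hr]
      induction j with
      | zero => simp
      | succ j ih =>
        rw [pow_succ, pow_succ, ← ih]
        group
    rw [← pow_mul] at h1
    calc Y ^ j * X = X * (X⁻¹ * Y ^ j * X) := by group
      _ = _ := by rw [h1]
  -- the set of normal forms is a subgroup
  have hXinv : X⁻¹ = X ^ (n - 1) := by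
    apply inv_eq_of_mul_eq_one_right
    rw [← pow_succ', Nat.sub_add_cancel hn, hXn]
  have hYinv : Y⁻¹ = Y ^ (m - 1) := by
    apply inv_eq_of_mul_eq_one_right
    rw [← pow_succ', Nat.sub_add_cancel hm, hYm]
  have hX1 : ∀ i j : ℕ, X ^ i * Y ^ j * X = X ^ (i + 1) * Y ^ (r * j) := by
    intro i j
    rw [mul_assoc, hYX, ← mul_assoc, pow_succ]
  have hY1 : ∀ i j : ℕ, X ^ i * Y ^ j * Y = X ^ i * Y ^ (j + 1) := by
    intro i j
    rw [mul_assoc, pow_succ]
  have hall : ∀ g : PresentedGroup (Rels n m r), ∃ i j : ℕ, g = X ^ i * Y ^ j := by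
    have hmulgen : ∀ (g : PresentedGroup (Rels n m r)) , (∃ i j : ℕ, g = X ^ i * Y ^ j) →
        (∃ i j : ℕ, g * X = X ^ i * Y ^ j) ∧ (∃ i j : ℕ, g * Y = X ^ i * Y ^ j) ∧
        (∃ i j : ℕ, g * X⁻¹ = X ^ i * Y ^ j) ∧ (∃ i j : ℕ, g * Y⁻¹ = X ^ i * Y ^ j) := by
      rintro g ⟨i, j, rfl⟩
      refine ⟨⟨_, _, hX1 i j⟩, ⟨_, _, hY1 i j⟩, ?_, ?_⟩
      · rw [hXinv]
        clear hX1 hY1
        induction n - 1 generalizing i j with
        | zero => exact ⟨i, j, by simp⟩
        | succ k ih =>
          obtain ⟨a, b, hab⟩ := ih i j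
          refine ⟨a + 1, r * b, ?_⟩
          rw [pow_succ, ← mul_assoc, hab, mul_assoc, hYX, ← mul_assoc, pow_succ]
      · rw [hYinv, mul_assoc, ← pow_add]
        exact ⟨i, j + (m - 1), rfl⟩
    intro g
    obtain ⟨z, rfl⟩ := PresentedGroup.mk_surjective _ g
    induction z using FreeGroup.induction_on with
    | C1 => exact ⟨0, 0, by simp⟩
    | of a =>
      have h1 : ∃ i j : ℕ, (1 : PresentedGroup (Rels n m r)) = X ^ i * Y ^ j := ⟨0, 0, by simp⟩
      obtain ⟨h2, h3, _, _⟩ := hmulgen 1 h1
      rw [one_mul] at h2 h3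
      revert a
      rw [Fin.forall_fin_two]
      exact ⟨h2, h3⟩
    | inv_of a ih =>
      have h1 : ∃ i j : ℕ, (1 : PresentedGroup (Rels n m r)) = X ^ i * Y ^ j := ⟨0, 0, by simp⟩
      obtain ⟨_, _, h2, h3⟩ := hmulgen 1 h1
      rw [one_mul] at h2 h3
      rw [map_inv]
      revert a
      rw [Fin.forall_fin_two]
      exact ⟨fun _ => h2, fun _ => h3⟩
    | mul a b ih1 ih2 =>
      -- use the decomposition of `b`
      obtain ⟨i, j, hb⟩ := ih2
      obtain ⟨i', j', ha⟩ := ih1
      rw [map_mul, ha, hb]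
      -- multiply by powers of `X` and `Y`
      have hXpow : ∀ (k : ℕ) (g : PresentedGroup (Rels n m r)), (∃ i j : ℕ, g = X ^ i * Y ^ j) →
          ∃ i j : ℕ, g * X ^ k = X ^ i * Y ^ j := by
        intro k
        induction k with
        | zero => intro g hg; simpa using hg
        | succ k ih =>
          intro g hg
          rw [pow_succ, ← mul_assoc]
          exact (hmulgen _ (ih g hg)).1
      have hYpow : ∀ (k : ℕ) (g : PresentedGroup (Rels n m r)), (∃ i j : ℕ, g = X ^ i * Y ^ j) →
          ∃ i j : ℕ, g * Y ^ k = X ^ i * Y ^ j := by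
        intro k
        induction k with
        | zero => intro g hg; simpa using hg
        | succ k ih =>
          intro g hg
          rw [pow_succ, ← mul_assoc]
          exact (hmulgen _ (ih g hg)).2.1
      rw [← mul_assoc]
      exact hYpow j _ (hXpow i _ ⟨i', j', rfl⟩)
  obtain ⟨i, j, rfl⟩ := hall g
  refine ⟨i % n, j % m, Nat.mod_lt _ hn, Nat.mod_lt _ hm, ?_⟩
  rw [← pow_eq_pow_mod i hXn, ← pow_eq_pow_mod j hYm]

/-- The presented group has at most `n * m` elements. -/
theorem finite_card_le (hn : 0 < n) (hm : 0 < m) :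
    Finite (PresentedGroup (Rels n m r)) ∧ Nat.card (PresentedGroup (Rels n m r)) ≤ n * m := by
  classical
  let F : Fin n × Fin m → PresentedGroup (Rels n m r) := fun p =>
    (PresentedGroup.of (0 : Fin 2) : PresentedGroup (Rels n m r)) ^ (p.1 : ℕ) *
        (PresentedGroup.of (1 : Fin 2) : PresentedGroup (Rels n m r)) ^ (p.2 : ℕ)
  have hF : Function.Surjective F := by
    intro g
    obtain ⟨i, j, hi, hj, h⟩ := exists_normal_form hn hm g
    exact ⟨(⟨i, hi⟩, ⟨j, hj⟩), h.symm⟩
  have hfin : Finite (PresentedGroup (Rels n m r)) := Finite.of_surjective F hF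
  refine ⟨hfin, ?_⟩
  have h := Nat.card_le_card_of_surjective F hF
  simpa using h

/-- A group with two generators, relations and the right order has the metacyclic presentation. -/
theorem presented_iso {G : Type*} [Group G] [Finite G] (x y : G) (hn : 0 < n) (hm : 0 < m)
    (hx : x ^ n = 1) (hy : y ^ m = 1) (hr : x⁻¹ * y * x = y ^ r)
    (hgen : Subgroup.closure ({x, y} : Set G) = ⊤) (hcard : Nat.card G = n * m) :
    Nonempty (G ≃* PresentedGroup (Rels n m r)) := by
  classical
  let f : Fin 2 → G := ![x, y]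
  have hrel : ∀ t ∈ Rels n m r, FreeGroup.lift f t = 1 := by
    intro t ht
    simp only [Rels, Set.mem_insert_iff, Set.mem_singleton_iff] at ht
    rcases ht with rfl | rfl | rfl
    · simpa [f] using hx
    · simpa [f] using hy
    · simp only [map_mul, map_inv, map_pow, FreeGroup.lift_apply_of]
      simp only [f, Matrix.cons_val_zero, Matrix.cons_val_one]
      rw [hr]
      simp
  let F : PresentedGroup (Rels n m r) →* G := PresentedGroup.toGroup hrel
  have hsurj : Function.Surjective F := by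
    rw [← MonoidHom.range_eq_top, eq_top_iff, ← hgen, Subgroup.closure_le]
    intro z hz
    rcases hz with rfl | rfl
    · exact ⟨PresentedGroup.of 0, by simp [F, f]⟩
    · exact ⟨PresentedGroup.of 1, by simp [F, f]⟩
  obtain ⟨hfin, hle⟩ := finite_card_le (r := r) hn hm
  have hbij : Function.Bijective F :=
    (Function.Surjective.bijective_of_nat_card_le hsurj (by rw [hcard]; exact hle))
  exact ⟨(MulEquiv.ofBijective F hbij).symm⟩

end card

/-- A group generated by two commuting elements is commutative. -/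
theorem comm_of_closure_pair {Q : Type*} [Group Q] {a b : Q}
    (h : Subgroup.closure ({a, b} : Set Q) = ⊤) (hab : a * b = b * a) (u v : Q) : u * v = v * u := by
  have h1 : Subgroup.closure ({a, b} : Set Q) ≤ Subgroup.centralizer ({a, b} : Set Q) := by
    rw [Subgroup.closure_le]
    rintro z (rfl | rfl)
    · rw [SetLike.mem_coe, Subgroup.mem_centralizer_iff]
      rintro w (rfl | rfl)
      · rfl
      · exact hab.symm
    · rw [SetLike.mem_coe, Subgroup.mem_centralizer_iff]
      rintro w (rfl | rfl)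
      · exact hab
      · rfl
  rw [h] at h1
  have h2 : Subgroup.closure ({a, b} : Set Q) ≤ Subgroup.centralizer ({u} : Set Q) := by
    rw [Subgroup.closure_le]
    intro z hz
    rw [SetLike.mem_coe, Subgroup.mem_centralizer_iff]
    intro w hw
    have hw' : w = u := hw
    rw [hw']
    have h3 := Subgroup.mem_centralizer_iff.mp (h1 (Subgroup.mem_top u)) z hz
    exact h3.symm
  rw [h] at h2
  have h3 := Subgroup.mem_centralizer_iff.mp (h2 (Subgroup.mem_top v)) u rfl
  exact h3

/-- Arithmetic for `n / rad n`. -/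
theorem dvd_div_rad {n d : ℕ} (hn : 0 < n) (hd : d ∣ n)
    (h : ∀ p ∈ n.primeFactors, d ∣ n / p) : d ∣ n / ∏ p ∈ n.primeFactors, p := by
  obtain ⟨t, rfl⟩ := hd
  have hd0 : 0 < d := Nat.pos_of_mul_pos_right hn
  have hpt : ∀ p ∈ (d * t).primeFactors, p ∣ t := by
    intro p hp
    have hpp := Nat.prime_of_mem_primeFactors hp
    have hpd := Nat.dvd_of_mem_primeFactors hp
    obtain ⟨c, hc⟩ := h p hp
    have h1 : d * t / p * p = d * t := Nat.div_mul_cancel hpd
    rw [hc, mul_assoc] at h1
    have h2 : c * p = t := Nat.eq_of_mul_eq_mul_left hd0 h1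
    exact ⟨c, by rw [← h2, mul_comm]⟩
  have hprod : ∏ p ∈ (d * t).primeFactors, p ∣ t :=
    Finset.prod_primes_dvd t (fun p hp => (Nat.prime_of_mem_primeFactors hp).prime) hpt
  have hP : 0 < ∏ p ∈ (d * t).primeFactors, p :=
    Finset.prod_pos (fun p hp => (Nat.prime_of_mem_primeFactors hp).pos)
  generalize (∏ p ∈ (d * t).primeFactors, p) = P at hprod hP ⊢
  obtain ⟨c, hc⟩ := hprod
  refine ⟨c, ?_⟩
  apply Nat.div_eq_of_eq_mul_right hP
  rw [hc]
  ring

/-- The metacyclic presentation of a Z-group in which elements of prime order that normalize a cyclic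
subgroup centralize it. -/
theorem zgroup_presentation {G : Type*} [Group G] [Finite G] [IsZGroup G]
    (hP2 : ∀ (w y : G) (p e : ℕ), p.Prime → orderOf w = p → w⁻¹ * y * w = y ^ e → w * y = y * w) :
    ∃ n m r : ℕ, 0 < n ∧ 0 < m ∧ Nat.Coprime (r - 1) m ∧ Nat.Coprime n m ∧ 1 ≤ r ∧
      r ^ (n / ∏ p ∈ n.primeFactors, p) % m = 1 % m ∧
      Nonempty (G ≃* PresentedGroup (Rels n m r)) := by
  classical
  have hcop := IsZGroup.coprime_commutator_index G
  obtain ⟨H, hH⟩ := Subgroup.exists_right_complement'_of_coprime hcop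
  have h1 : Abelianization G ≃* H := hH.symm.QuotientMulEquiv
  haveI hHcyc : IsCyclic H := isCyclic_of_surjective _ h1.surjective
  haveI hDcyc : IsCyclic (commutator G) := IsZGroup.isCyclic_commutator G
  obtain ⟨⟨x, hxH⟩, hx⟩ := IsCyclic.exists_generator (α := H)
  obtain ⟨⟨y, hyD⟩, hy⟩ := IsCyclic.exists_generator (α := commutator G)
  have hxz : Subgroup.zpowers x = H := by
    apply le_antisymm
    · rw [Subgroup.zpowers_le]; exact hxH
    · intro h hh
      obtain ⟨k, hk⟩ := Subgroup.mem_zpowers_iff.mp (hx ⟨h, hh⟩)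
      exact Subgroup.mem_zpowers_iff.mpr ⟨k, by simpa using congrArg Subtype.val hk⟩
  have hyz : Subgroup.zpowers y = commutator G := by
    apply le_antisymm
    · rw [Subgroup.zpowers_le]; exact hyD
    · intro h hh
      obtain ⟨k, hk⟩ := Subgroup.mem_zpowers_iff.mp (hy ⟨h, hh⟩)
      exact Subgroup.mem_zpowers_iff.mpr ⟨k, by simpa using congrArg Subtype.val hk⟩
  have hn : orderOf x = Nat.card H := by rw [← Nat.card_zpowers, hxz]
  have hm : orderOf y = Nat.card (commutator G) := by rw [← Nat.card_zpowers, hyz]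
  set n := orderOf x with hn'
  set m := orderOf y with hm'
  have hn0 : 0 < n := orderOf_pos x
  have hm0 : 0 < m := orderOf_pos y
  have hcard : Nat.card (commutator G) * Nat.card H = Nat.card G := hH.card_mul
  have hidx : (commutator G).index = Nat.card H := by
    have h3 := Subgroup.card_mul_index (commutator G)
    exact Nat.eq_of_mul_eq_mul_left Nat.card_pos (h3.trans hcard.symm)
  have hcop2 : Nat.Coprime n m := by
    rw [hn, hm, ← hidx]
    exact hcop.symm
  have hgen : Subgroup.closure ({x, y} : Set G) = ⊤ := by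
    rw [eq_top_iff, ← hH.sup_eq_top, ← hxz, ← hyz, sup_le_iff]
    constructor
    · rw [Subgroup.zpowers_le]; exact Subgroup.subset_closure (by simp)
    · rw [Subgroup.zpowers_le]; exact Subgroup.subset_closure (by simp)
  -- the conjugation exponent
  have hDn : (Subgroup.zpowers y).Normal := by rw [hyz]; infer_instance
  obtain ⟨r₀, hr₀⟩ : ∃ r₀ : ℕ, x⁻¹ * y * x = y ^ r₀ := by
    have h3 : x⁻¹ * y * x ∈ Subgroup.zpowers y := by
      have := hDn.conj_mem y (Subgroup.mem_zpowers y) x⁻¹
      simpa using this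
    rw [← mem_powers_iff_mem_zpowers] at h3
    obtain ⟨k, hk⟩ := h3
    exact ⟨k, hk.symm⟩
  have hr : x⁻¹ * y * x = y ^ (r₀ + m) := by
    rw [pow_add, pow_orderOf_eq_one, mul_one]
    exact hr₀
  set r := r₀ + m with hrdef
  have hr1 : 1 ≤ r := by omega
  -- `gcd (r - 1) m = 1`
  have hcopr : Nat.Coprime (r - 1) m := by
    set t := y ^ (r - 1) with ht
    have htc : x⁻¹ * y * x * y⁻¹ = t := by
      rw [hr, ht, pow_sub y hr1, pow_one]
    have hEn : (Subgroup.zpowers t).Normal := by
      refine ⟨fun a ha g => ?_⟩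
      obtain ⟨j, rfl⟩ := Subgroup.mem_zpowers_iff.mp ha
      obtain ⟨k, hk⟩ := Subgroup.mem_zpowers_iff.mp (hDn.conj_mem y (Subgroup.mem_zpowers y) g)
      have h4 : g * t * g⁻¹ = t ^ k := by
        rw [ht, ← conj_pow, ← hk, ← zpow_natCast, ← zpow_natCast, ← zpow_mul, ← zpow_mul, mul_comm]
      have h5 : g * t ^ j * g⁻¹ = (t ^ k) ^ j := by
        rw [← h4, conj_zpow]
      rw [h5]
      exact Subgroup.zpow_mem _ (Subgroup.zpow_mem _ (Subgroup.mem_zpowers t) _) _
    have hle : commutator G ≤ Subgroup.zpowers t := by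
      haveI := hEn
      have hc1 : Subgroup.closure ({((x : G) : G ⧸ Subgroup.zpowers t),
          ((y : G) : G ⧸ Subgroup.zpowers t)} : Set (G ⧸ Subgroup.zpowers t)) = ⊤ := by
        have := congrArg (Subgroup.map (QuotientGroup.mk' (Subgroup.zpowers t))) hgen
        rw [MonoidHom.map_closure, ← MonoidHom.range_eq_map,
          MonoidHom.range_eq_top.mpr (QuotientGroup.mk'_surjective _), Set.image_pair] at this
        exact this
      have hxy : ((x : G) : G ⧸ Subgroup.zpowers t) * ((y : G) : G ⧸ Subgroup.zpowers t) =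
          ((y : G) : G ⧸ Subgroup.zpowers t) * ((x : G) : G ⧸ Subgroup.zpowers t) := by
        rw [← QuotientGroup.mk_mul, ← QuotientGroup.mk_mul, QuotientGroup.eq]
        have h6 : (x * y)⁻¹ * (y * x) = y⁻¹ * (x⁻¹ * y * x) := by group
        have h7 : y⁻¹ * (x⁻¹ * y * x) = t := by
          have h8 : y ^ r = y * t := by rw [ht, ← pow_succ', Nat.sub_add_cancel hr1]
          rw [hr, h8]
          group
        rw [h6, h7]
        exact Subgroup.mem_zpowers t
      have hcomm := comm_of_closure_pair hc1 hxy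
      rw [commutator_def, Subgroup.commutator_le]
      intro g₁ _ g₂ _
      rw [← QuotientGroup.eq_one_iff, commutatorElement_def, QuotientGroup.mk_mul, QuotientGroup.mk_mul, QuotientGroup.mk_mul,
        QuotientGroup.mk_inv, QuotientGroup.mk_inv, hcomm (g₁ : G ⧸ Subgroup.zpowers t)]
      group
    have hyt : y ∈ Subgroup.zpowers t := hle hyD
    have hot : orderOf t = m := by
      apply le_antisymm
      · exact Nat.le_of_dvd hm0 (orderOf_dvd_of_pow_eq_one (by
          rw [ht, ← pow_mul, mul_comm, pow_mul, pow_orderOf_eq_one, one_pow]))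
      · exact Nat.le_of_dvd (orderOf_pos t) (orderOf_dvd_of_mem_zpowers hyt)
    rw [ht, orderOf_pow, ← hm', Nat.div_eq_self] at hot
    rcases hot with h0 | h0
    · omega
    · exact Nat.Coprime.symm h0
  -- conjugates of `y` by powers of `x`
  have hpowconj : ∀ k : ℕ, (x ^ k)⁻¹ * y * x ^ k = y ^ (r ^ k) := by
    intro k
    induction k with
    | zero => simp
    | succ k ih =>
      have h3 : x⁻¹ * y ^ (r ^ k) * x = (y ^ r) ^ (r ^ k) := by
        rw [← hr]
        generalize r ^ k = e
        induction e with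
        | zero => simp
        | succ e ihe =>
          rw [pow_succ, pow_succ, ← ihe]
          group
      calc (x ^ (k + 1))⁻¹ * y * x ^ (k + 1) = x⁻¹ * ((x ^ k)⁻¹ * y * x ^ k) * x := by
            rw [pow_succ]; group
        _ = _ := by rw [ih, h3, ← pow_mul, pow_succ, mul_comm]
  have hcomm_iff : ∀ k : ℕ, x ^ k * y = y * x ^ k ↔ r ^ k % m = 1 % m := by
    intro k
    have h3 : x ^ k * y = y * x ^ k ↔ y ^ (r ^ k) = y ^ 1 := by
      rw [← hpowconj k, pow_one]
      constructor
      · intro h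
        rw [mul_assoc, ← h]
        group
      · intro h
        calc x ^ k * y = x ^ k * ((x ^ k)⁻¹ * y * x ^ k) := by rw [h]
          _ = y * x ^ k := by group
    rw [h3, pow_eq_pow_iff_modEq]
    rfl
  have hu : ∀ k : ℕ, x ^ k * y = y * x ^ k ↔ ((r : ℕ) : ZMod m) ^ k = 1 := by
    intro k
    rw [hcomm_iff, ← ZMod.natCast_eq_natCast_iff']
    push_cast
    rfl
  have hrad : r ^ (n / ∏ p ∈ n.primeFactors, p) % m = 1 % m := by
    rw [← hcomm_iff, hu, ← orderOf_dvd_iff_pow_eq_one]
    apply dvd_div_rad hn0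
    · rw [orderOf_dvd_iff_pow_eq_one, ← hu, hn', pow_orderOf_eq_one]
      simp
    · intro p hp
      have hpp := Nat.prime_of_mem_primeFactors hp
      have hpd := Nat.dvd_of_mem_primeFactors hp
      rw [orderOf_dvd_iff_pow_eq_one, ← hu]
      have hw : orderOf (x ^ (n / p)) = p := orderOf_pow_orderOf_div hn0.ne' hpd
      exact hP2 _ y p (r ^ (n / p)) hpp hw (hpowconj _)
  refine ⟨n, m, r, hn0, hm0, hcopr, hcop2, hr1, hrad, ?_⟩
  refine presented_iso x y hn0 hm0 (pow_orderOf_eq_one x) (pow_orderOf_eq_one y) hr hgen ?_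
  rw [← hcard, hn, hm, mul_comm]

end Cfsg.Agent.H12.FC
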