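import Mathlib
import Cfsg.Agent.Lib.H03.NF2

/-! A faithful permutation representation of `Aut Q₈` on four points. -/

set_option autoImplicit false

namespace Cfsg.Agent.H12.FC

open QuaternionGroup Cfsg.Agent.H03.NF

abbrev Q8 := QuaternionGroup 2

/-- The cyclic subgroup of order four containing a given element of order four. -/
def lineOf : Q8 → ℕ
  | a _ => 0
  | xa i => if i.val % 2 = 0 then 1 else 2

/-- A choice of sign on the elements of order four. -/
def signOf : Q8 → ℕ
  | a i => if i.val = 1 then 0 else 1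
  | xa i => if i.val < 2 then 0 else 1

/-- The sign of the member of a triple in a given cyclic subgroup. -/
def sAt (k : ℕ) (x y z : Q8) : ℕ :=
  (if lineOf x = k then signOf x else 0) + (if lineOf y = k then signOf y else 0) +
    (if lineOf z = k then signOf z else 0)

/-- The label of a triple, which is the same for a triple and for its inverse. -/
def lab (x y z : Q8) : Fin 4 :=
  Fin.ofNat 4 (((sAt 0 x y z + sAt 1 x y z) % 2) * 2 + ((sAt 0 x y z + sAt 2 x y z) % 2))

/-- Representative of the block. -/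
def rep1 : Fin 4 → Q8
  | 0 => xa 0
  | 1 => xa 0
  | 2 => xa 2
  | 3 => xa 2

/-- Representative of the block. -/
def rep2 : Fin 4 → Q8
  | 0 => xa 1
  | 1 => xa 3
  | 2 => xa 1
  | 3 => xa 3

/-- The action on blocks. -/
def tab (u v : Q8) : Fin 4 → Fin 4 := fun i => lab (fq u v (a 1)) (fq u v (rep1 i)) (fq u v (rep2 i))

/-- Images of generators under automorphisms. -/
def isGood (u v : Q8) : Prop := u * u ≠ 1 ∧ v * v ≠ 1 ∧ v ≠ u ∧ v ≠ u⁻¹

instance isGood_dec (u v : Q8) : Decidable (isGood u v) := by
  unfold isGood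
  infer_instance

set_option maxRecDepth 100000 in
lemma tab_mul : ∀ u v u' v' : Q8, isGood u v → isGood u' v' →
    tab (fq u v u') (fq u v v') = tab u v ∘ tab u' v' := by
  decide +kernel

set_option maxRecDepth 100000 in
lemma tab_one : tab (a 1) (xa 0) = id := by
  decide +kernel

set_option maxRecDepth 100000 in
lemma tab_inj : ∀ u v : Q8, isGood u v → tab u v = id → u = a 1 ∧ v = xa 0 := by
  decide +kernel

lemma fq_eq (f : MulAut Q8) (t : Q8) : fq (f (a 1)) (f (xa 0)) t = f t := by
  cases t with
  | a i =>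
    show (f (a 1)) ^ i.val = f (a i)
    rw [← map_pow, QuaternionGroup.a_one_pow]
    congr 2
    exact ZMod.natCast_zmod_val i
  | xa i =>
    show f (xa 0) * (f (a 1)) ^ i.val = f (xa i)
    rw [← map_pow, ← map_mul, QuaternionGroup.a_one_pow, QuaternionGroup.xa_mul_a, zero_add]
    congr 2
    exact ZMod.natCast_zmod_val i

set_option maxRecDepth 100000 in
lemma good_gen : (a 1 : Q8) * a 1 ≠ 1 ∧ (xa 0 : Q8) * xa 0 ≠ 1 ∧ (xa 0 : Q8) ≠ a 1 ∧ (xa 0 : Q8) ≠ (a 1)⁻¹ := by
  decide +kernel

lemma isGood_aut (f : MulAut Q8) : isGood (f (a 1)) (f (xa 0)) := by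
  obtain ⟨h1, h2, h3, h4⟩ := good_gen
  refine ⟨?_, ?_, ?_, ?_⟩
  · rw [← map_mul]
    intro h
    exact h1 (f.injective (h.trans (map_one f).symm))
  · rw [← map_mul]
    intro h
    exact h2 (f.injective (h.trans (map_one f).symm))
  · intro h
    exact h3 (f.injective h)
  · rw [← map_inv]
    intro h
    exact h4 (f.injective h)

/-- The action of automorphisms on the four blocks. -/
def endHom : MulAut Q8 →* Function.End (Fin 4) where
  toFun f := tab (f (a 1)) (f (xa 0))
  map_one' := tab_one
  map_mul' f g := by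
    have h := tab_mul _ _ _ _ (isGood_aut f) (isGood_aut g)
    simp only [fq_eq] at h
    exact h

theorem endHom_injective : Function.Injective endHom := by
  rw [injective_iff_map_eq_one]
  intro f hf
  obtain ⟨h1, h2⟩ := tab_inj _ _ (isGood_aut f) hf
  ext t
  rw [← fq_eq f t, h1, h2]
  cases t with
  | a i =>
    show (a 1 : Q8) ^ i.val = a i
    rw [QuaternionGroup.a_one_pow]
    congr 1
    exact ZMod.natCast_zmod_val i
  | xa i =>
    show (xa 0 : Q8) * (a 1 : Q8) ^ i.val = xa i
    rw [QuaternionGroup.a_one_pow, QuaternionGroup.xa_mul_a, zero_add]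
    congr 1
    exact ZMod.natCast_zmod_val i

/-- `Aut Q₈` embeds in the symmetric group of degree four. -/
theorem exists_hom_S4 : ∃ Ψ : MulAut Q8 →* Equiv.Perm (Fin 4), Function.Injective Ψ := by
  refine ⟨endHom.toHomPerm, ?_⟩
  intro f g h
  apply endHom_injective
  funext i
  have h1 := congrArg (fun σ : Equiv.Perm (Fin 4) => σ i) h
  exact h1

set_option maxRecDepth 100000 in
/-- Central elements of `Q₈` lie in the cyclic part. -/
lemma central_Q8 : ∀ z : Q8, (∀ w : Q8, z * w = w * z) → (z = a 0 ∨ z = a 2) := by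
  decide +kernel

end Cfsg.Agent.H12.FC
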