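import Mathlib
import Cfsg.Prelude.Def_Local
import Cfsg.Agent.Lib.H12.FC1
import Cfsg.Agent.Lib.H12.FC2
import Cfsg.Agent.Lib.H12.FC3
import Cfsg.Agent.Lib.H14.UniqueSub
import Cfsg.Agent.Lib.H03.PSolv
import Cfsg.Agent.Lib.H08.PCoreL
import Cfsg.Agent.Lib.H06.KW1
import Cfsg.Agent.Lib.H06.PSolvable
import Cfsg.Agent.Lib.H06.FittingHall
import Cfsg.Agent.Lib.H01.Fitting
import Cfsg.Agent.Lib.H24.AutDihedral
import Cfsg.Agent.Lib.H05.Dih
import Cfsg.Agent.Lib.H19.PDih2

/-! The kernel of a homomorphism to `S₄` for a solvable group whose `2`-subgroups have a unique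
involution. -/

set_option autoImplicit false

namespace Cfsg.Agent.H12.FC

open QuaternionGroup Cfsg

/-- Groups mapping injectively to the cyclic part of a quaternion group are cyclic. -/
theorem cyclic_of_inj_a {T : Type*} [Group T] {N : ℕ} [NeZero N] (g : T →* QuaternionGroup N)
    (inj : Function.Injective g) (him : ∀ t, ∃ i, g t = a i) : IsCyclic T := by
  haveI : NeZero (2 * N) := ⟨by have := NeZero.ne N; omega⟩
  have hmem : ∀ t, g t ∈ Subgroup.zpowers (a 1 : QuaternionGroup N) := by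
    intro t
    obtain ⟨i, hi⟩ := him t
    rw [hi]
    have h1 : (a 1 : QuaternionGroup N) ^ i.val = a i := by
      rw [QuaternionGroup.a_one_pow]
      congr 1
      exact ZMod.natCast_zmod_val i
    rw [← h1]
    exact Subgroup.npow_mem_zpowers _ _
  let g' : T →* Subgroup.zpowers (a 1 : QuaternionGroup N) := g.codRestrict _ hmem
  apply isCyclic_of_injective g'
  intro x y h
  exact inj (congrArg Subtype.val h)

/-- The homomorphism from the quaternion group with kernel the cyclic part. -/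
def sgnQ (N : ℕ) : QuaternionGroup N →* Equiv.Perm (Fin 4) where
  toFun
    | a _ => 1
    | xa _ => Equiv.swap 0 1
  map_one' := rfl
  map_mul' x y := by
    cases x <;> cases y <;> simp [QuaternionGroup.a_mul_a, QuaternionGroup.a_mul_xa,
      QuaternionGroup.xa_mul_a, QuaternionGroup.xa_mul_xa]

theorem sgnQ_eq_one {N : ℕ} {z : QuaternionGroup N} (h : sgnQ N z = 1) : ∃ i, z = a i := by
  cases z with
  | a i => exact ⟨i, rfl⟩
  | xa i =>
    exfalso
    have h1 : (Equiv.swap (0 : Fin 4) 1) = 1 := h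
    revert h1
    decide

theorem isP_aut_congr {A B : Type*} [Group A] [Group B] (e : A ≃* B)
    (h : IsPGroup 2 (MulAut A)) : IsPGroup 2 (MulAut B) := by
  intro x
  obtain ⟨y, rfl⟩ := (MulAut.congr e).surjective x
  obtain ⟨n, hn⟩ := h y
  exact ⟨n, by rw [← map_pow, hn, map_one]⟩

section main

variable {G : Type*} [Group G] [Finite G]

theorem mk_inj_of_two (O : Subgroup G) [O.Normal] (hO : (Nat.card O).Coprime 2) (T : Subgroup G)
    (hT : IsPGroup 2 T) {t : G} (ht : t ∈ T) (h1 : ((t : G) : G ⧸ O) = 1) : t = 1 := by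
  have htO : t ∈ O := (QuotientGroup.eq_one_iff t).mp h1
  obtain ⟨k, hk⟩ := hT ⟨t, ht⟩
  have h2 : t ^ 2 ^ k = 1 := by simpa using congrArg Subtype.val hk
  have h3 : orderOf t ∣ 2 ^ k := orderOf_dvd_of_pow_eq_one h2
  have h4 : orderOf t ∣ Nat.card O := by
    have := Subgroup.orderOf_dvd_natCard O htO
    exact this
  have h5 : Nat.Coprime (Nat.card O) (2 ^ k) := Nat.Coprime.pow_right k hO
  have h6 : orderOf t = 1 := Nat.eq_one_of_dvd_coprimes h5 h4 h3
  exact orderOf_eq_one_iff.mp h6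

theorem exists_lift (O : Subgroup G) [O.Normal] (X : Subgroup (G ⧸ O)) (hX : IsPGroup 2 X) :
    ∃ T : Subgroup G, IsPGroup 2 T ∧ T.map (QuotientGroup.mk' O) = X := by
  classical
  haveI : Fact (Nat.Prime 2) := ⟨Nat.prime_two⟩
  obtain ⟨Sb, hSb⟩ := hX.exists_le_sylow
  obtain ⟨S, hS⟩ := Sylow.mapSurjective_surjective (QuotientGroup.mk'_surjective O) 2 Sb
  refine ⟨(S : Subgroup G) ⊓ X.comap (QuotientGroup.mk' O), S.isPGroup'.to_le inf_le_left, ?_⟩
  apply le_antisymm
  · rintro _ ⟨t, ht, rfl⟩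
    exact ht.2
  · intro x hx
    have h1 : x ∈ (Sb : Subgroup (G ⧸ O)) := hSb hx
    rw [← hS, Sylow.coe_mapSurjective] at h1
    obtain ⟨s, hs, rfl⟩ := h1
    exact ⟨s, ⟨hs, hx⟩, rfl⟩

theorem dich (hU : ∀ S : Subgroup G, IsPGroup 2 S → H14.UniqueP 2 S) (O : Subgroup G) [O.Normal]
    (hO : (Nat.card O).Coprime 2) (X : Subgroup (G ⧸ O)) (hX : IsPGroup 2 X) :
    IsCyclic X ∨ ∃ k, 1 ≤ k ∧ Nonempty (X ≃* QuaternionGroup (2 ^ k)) := by
  classical
  haveI : Fact (Nat.Prime 2) := ⟨Nat.prime_two⟩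
  obtain ⟨T, hT, hmap⟩ := exists_lift O X hX
  have hbij : Function.Bijective ((QuotientGroup.mk' O).subgroupMap T) := by
    constructor
    · rw [injective_iff_map_eq_one]
      rintro ⟨t, ht⟩ h
      apply Subtype.ext
      exact mk_inj_of_two O hO T hT ht (congrArg Subtype.val h)
    · exact (QuotientGroup.mk' O).subgroupMap_surjective T
  let e : T ≃* X := (MulEquiv.ofBijective _ hbij).trans (MulEquiv.subgroupCongr hmap)
  rcases H14.isCyclic_or_quaternion hT (hU T hT) with h | ⟨-, k, hk, ⟨e'⟩⟩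
  · left
    exact isCyclic_of_surjective e e.surjective
  · right
    exact ⟨k, hk, ⟨e.symm.trans e'⟩⟩

/-- The kernel of a suitable homomorphism to `S₄` has cyclic Sylow `2`-subgroups. -/
theorem exists_hom [Group.IsSolvable G] (hU : ∀ S : Subgroup G, IsPGroup 2 S → H14.UniqueP 2 S) :
    ∃ f : G →* Equiv.Perm (Fin 4), ∀ T : Subgroup G, T ≤ f.ker → IsPGroup 2 T → IsCyclic T := by
  classical
  haveI : Fact (Nat.Prime 2) := ⟨Nat.prime_two⟩
  set O := pPrimeCore 2 G with hOdef
  haveI hOn : O.Normal := H06.kw_pPrimeCore_normal 2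
  have hOc : (Nat.card O).Coprime 2 := H06.coprime_card_pPrimeCore 2
  have hbot : pPrimeCore 2 (G ⧸ O) = ⊥ := H08.pPrimeCore_quotient_eq_bot 2
  have hsolv : IsPSolvable 2 (G ⧸ O) := H06.isPSolvable_of_isSolvable 2 _
  set R := pCore 2 (G ⧸ O) with hRdef
  haveI hRn : R.Normal := H01.pCore_normal 2
  have hRp : IsPGroup 2 R := H01.pCore_isPGroup 2
  have hcent : Subgroup.centralizer (R : Set (G ⧸ O)) ≤ R :=
    H03.centralizer_pCore_le_of_isPSolvable hsolv hbot
  have hmkinj : ∀ T : Subgroup G, IsPGroup 2 T →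
      Function.Injective ((QuotientGroup.mk' O).comp T.subtype) := by
    intro T hT
    rw [injective_iff_map_eq_one]
    rintro ⟨t, ht⟩ h
    apply Subtype.ext
    exact mk_inj_of_two O hOc T hT ht h
  by_cases hQ : Nonempty (R ≃* QuaternionGroup 2)
  · -- the `S₄` branch
    obtain ⟨e⟩ := hQ
    obtain ⟨Ψ, hΨ⟩ := exists_hom_S4
    let c : G ⧸ O →* MulAut R := MulAut.conjNormal
    let f : G →* Equiv.Perm (Fin 4) :=
      Ψ.comp ((MulAut.congr e).toMonoidHom.comp (c.comp (QuotientGroup.mk' O)))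
    refine ⟨f, fun T hTk hT => ?_⟩
    have hct : ∀ t : T, c (QuotientGroup.mk' O (t : G)) = 1 := by
      intro t
      have h1 : f t = 1 := hTk t.2
      have h2 : (MulAut.congr e) (c (QuotientGroup.mk' O (t : G))) = 1 :=
        hΨ (h1.trans (map_one Ψ).symm)
      exact (MulAut.congr e).injective (h2.trans (map_one (MulAut.congr e)).symm)
    have hcomm : ∀ (t : T) (s : G ⧸ O), s ∈ R →
        s * QuotientGroup.mk' O (t : G) = QuotientGroup.mk' O (t : G) * s := by
      intro t s hs
      have h1 : c (QuotientGroup.mk' O (t : G)) ⟨s, hs⟩ = ⟨s, hs⟩ := by rw [hct t]; rfl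
      have h2 : QuotientGroup.mk' O (t : G) * s * (QuotientGroup.mk' O (t : G))⁻¹ = s :=
        congrArg Subtype.val h1
      exact (mul_inv_eq_iff_eq_mul.mp h2).symm
    have hcR : ∀ t : T, QuotientGroup.mk' O (t : G) ∈ R := by
      intro t
      apply hcent
      rw [Subgroup.mem_centralizer_iff]
      exact fun s hs => hcomm t s hs
    let g : T →* QuaternionGroup 2 := e.toMonoidHom.comp
      (((QuotientGroup.mk' O).comp T.subtype).codRestrict R hcR)
    apply cyclic_of_inj_a g
    · intro x y hxy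
      have h1 := e.injective hxy
      exact hmkinj T hT (congrArg Subtype.val h1)
    · intro t
      have h1 : ∀ w : QuaternionGroup 2, g t * w = w * g t := by
        intro w
        obtain ⟨r, rfl⟩ := e.surjective w
        show e _ * e r = e r * e _
        rw [← map_mul, ← map_mul]
        congr 1
        apply Subtype.ext
        exact (hcomm t r r.2).symm
      rcases central_Q8 (g t) h1 with h | h
      · exact ⟨0, h⟩
      · exact ⟨2, h⟩
  · -- the automorphism group of `O₂` is a `2`-group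
    have hA : IsPGroup 2 (MulAut R) := by
      rcases dich hU O hOc R hRp with hRc | ⟨k, hk, ⟨eR⟩⟩
      · haveI := hRc
        exact H05.isP_aut_cyclic hRp
      · have hk2 : 2 ≤ k := by
          by_contra hlt
          have hk1 : k = 1 := by omega
          subst hk1
          exact hQ ⟨eR⟩
        exact isP_aut_congr eR.symm (H24.isPGroup_mulAut_quaternion hk2)
    have hodd : ∀ w : G ⧸ O, Odd (orderOf w) → w = 1 := by
      intro w hw
      have h1 : w ∈ Subgroup.centralizer (R : Set (G ⧸ O)) := by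
        rw [Subgroup.mem_centralizer_iff]
        intro s hs
        exact (H19.comm_odd R hA hw hs).symm
      have h2 : w ∈ R := hcent h1
      obtain ⟨n, hn⟩ := hRp ⟨w, h2⟩
      have h3 : w ^ 2 ^ n = 1 := by simpa using congrArg Subtype.val hn
      have h4 : orderOf w ∣ 2 ^ n := orderOf_dvd_of_pow_eq_one h3
      have h5 : Nat.Coprime (orderOf w) (2 ^ n) :=
        Nat.Coprime.pow_right n (Nat.coprime_two_right.mpr hw)
      exact orderOf_eq_one_iff.mp (Nat.eq_one_of_dvd_coprimes h5 dvd_rfl h4)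
    have hP : IsPGroup 2 (G ⧸ O) := by
      intro x
      obtain ⟨k, m, hm, hkm⟩ := Nat.exists_eq_two_pow_mul_odd (orderOf_pos x).ne'
      refine ⟨k, hodd _ ?_⟩
      have h1 : orderOf (x ^ 2 ^ k) = m := by
        have h2 : 2 ^ k ∣ orderOf x := ⟨m, hkm⟩
        rw [orderOf_pow' x (by positivity), Nat.gcd_eq_right h2, hkm]
        exact Nat.mul_div_cancel_left _ (by positivity)
      rw [h1]
      exact hm
    have hTop : IsPGroup 2 (⊤ : Subgroup (G ⧸ O)) := hP.to_subgroup ⊤
    rcases dich hU O hOc ⊤ hTop with h | ⟨k, hk, ⟨eG⟩⟩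
    · haveI := h
      haveI : IsCyclic (G ⧸ O) :=
        isCyclic_of_surjective (Subgroup.topEquiv (G := G ⧸ O)).toMonoidHom
          (Subgroup.topEquiv (G := G ⧸ O)).surjective
      exact ⟨1, fun T _ hT => isCyclic_of_injective _ (hmkinj T hT)⟩
    · let e : G ⧸ O ≃* QuaternionGroup (2 ^ k) := Subgroup.topEquiv.symm.trans eG
      haveI : NeZero (2 ^ k) := ⟨by positivity⟩
      let f : G →* Equiv.Perm (Fin 4) :=
        (sgnQ (2 ^ k)).comp (e.toMonoidHom.comp (QuotientGroup.mk' O))
      refine ⟨f, fun T hTk hT => ?_⟩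
      apply cyclic_of_inj_a (N := 2 ^ k) (e.toMonoidHom.comp ((QuotientGroup.mk' O).comp T.subtype))
      · intro x y hxy
        exact hmkinj T hT (e.injective hxy)
      · intro t
        exact sgnQ_eq_one (hTk t.2)

end main

end Cfsg.Agent.H12.FC
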