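import Mathlib

/-! Additive and biadditive maps of a finite field of characteristic two in terms of automorphisms. -/

namespace Cfsg.Agent.H12.FieldMaps

open Module

variable {F : Type*} [Field F] [Finite F] [CharP F 2]

/-- Dedekind independence of automorphisms. -/
lemma linearIndependent_aut :
    LinearIndependent F (fun σ : F ≃+* F => ((σ : F →+* F) : F → F)) := by
  have h := linearIndependent_monoidHom F F
  have hinj : Function.Injective (fun σ : F ≃+* F => ((σ : F →+* F) : F →* F)) := by
    intro σ τ h
    ext x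
    exact congrArg (fun f : F →* F => f x) h
  exact h.comp _ hinj

noncomputable instance instFiniteAut : Finite (F ≃+* F) :=
  Finite.of_injective (fun σ : F ≃+* F => (σ : F → F)) (fun σ τ h => by
    ext x
    exact congrFun h x)

/-- The number of automorphisms is the degree. -/
lemma card_aut [Algebra (ZMod 2) F] : Nat.card (F ≃+* F) = finrank (ZMod 2) F := by
  haveI : FiniteDimensional (ZMod 2) F := Module.Finite.of_finite
  haveI : Fact (Nat.Prime 2) := ⟨Nat.prime_two⟩
  rw [← IsGalois.card_aut_eq_finrank (ZMod 2) F]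
  apply Nat.card_congr
  exact
    { toFun := fun σ => AlgEquiv.ofRingEquiv (f := σ) (fun r => by
        have : (σ : F →+* F).comp (algebraMap (ZMod 2) F) = algebraMap (ZMod 2) F :=
          RingHom.ext_zmod _ _
        exact congrArg (fun f : ZMod 2 →+* F => f r) this)
      invFun := fun τ => τ.toRingEquiv
      left_inv := fun σ => by ext; rfl
      right_inv := fun τ => by ext; rfl }

/-- All automorphisms, as a finset. -/
noncomputable def autS (F : Type*) [Field F] [Finite F] : Finset (F ≃+* F) :=
  @Finset.univ _ (Fintype.ofFinite _)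

lemma mem_autS (σ : F ≃+* F) : σ ∈ autS F := by
  letI := Fintype.ofFinite (F ≃+* F)
  exact Finset.mem_univ σ

/-- Additive coefficient functionals of additive endomorphisms. -/
lemma exists_coef : ∃ coef : (F ≃+* F) → ((F →+ F) →+ F),
    ∀ (f : F →+ F) (x : F), f x = ∑ σ ∈ autS F, coef σ f * σ x := by
  classical
  letI : Algebra (ZMod 2) F := ZMod.algebra F 2
  haveI : FiniteDimensional (ZMod 2) F := Module.Finite.of_finite
  letI : Fintype (F ≃+* F) := Fintype.ofFinite _
  let toV : (F →+ F) → (F →ₗ[ZMod 2] F) := fun f => f.toZModLinearMap 2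
  have htoV : ∀ f x, toV f x = f x := fun _ _ => rfl
  let b : (F ≃+* F) → (F →ₗ[ZMod 2] F) := fun σ => toV (σ : F ≃+* F).toAddEquiv.toAddMonoidHom
  have hb : ∀ σ x, b σ x = σ x := fun _ _ => rfl
  let ev : (F →ₗ[ZMod 2] F) →ₗ[F] (F → F) :=
    { toFun := fun L => L
      map_add' := fun _ _ => rfl
      map_smul' := fun _ _ => rfl }
  have hli : LinearIndependent F b := by
    apply LinearIndependent.of_comp ev
    have h := linearIndependent_aut (F := F)
    have e : ⇑ev ∘ b = fun σ : F ≃+* F => ((σ : F →+* F) : F → F) := by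
      funext σ x
      rfl
    rw [e]
    exact h
  have hcard : Fintype.card (F ≃+* F) = finrank F (F →ₗ[ZMod 2] F) := by
    rw [finrank_linearMap, finrank_self, mul_one, ← Nat.card_eq_fintype_card, card_aut]
  haveI : Nonempty (F ≃+* F) := ⟨RingEquiv.refl F⟩
  let B := basisOfLinearIndependentOfCardEqFinrank hli hcard
  have hB : ∀ σ, B σ = b σ := fun σ => by
    simp [B]
  have htoVadd : ∀ f g, toV (f + g) = toV f + toV g := fun _ _ => rfl
  have htoV0 : toV 0 = 0 := rfl
  refine ⟨fun σ =>
    { toFun := fun f => B.repr (toV f) σ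
      map_zero' := by simp [htoV0]
      map_add' := fun f g => by simp [htoVadd] }, ?_⟩
  intro f x
  have h1 := B.sum_repr (toV f)
  have h2 := congrArg (fun L : F →ₗ[ZMod 2] F => L x) h1
  simp only [LinearMap.sum_apply, LinearMap.smul_apply, hB, hb, htoV, smul_eq_mul] at h2
  exact h2.symm

/-- Additive endomorphisms are combinations of automorphisms. -/
theorem additive_expansion (f : F →+ F) :
    ∃ (s : Finset (F ≃+* F)) (c : (F ≃+* F) → F), ∀ x : F, f x = ∑ σ ∈ s, c σ * σ x := by
  obtain ⟨coef, h⟩ := exists_coef (F := F)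
  exact ⟨autS F, fun σ => coef σ f, h f⟩

/-- Biadditive maps are combinations of products of automorphisms. -/
theorem biadditive_expansion (B : F →+ F →+ F) :
    ∃ (s : Finset ((F ≃+* F) × (F ≃+* F))) (c : (F ≃+* F) × (F ≃+* F) → F),
      ∀ x y : F, B x y = ∑ p ∈ s, c p * (p.1 x * p.2 y) := by
  classical
  obtain ⟨coef, h⟩ := exists_coef (F := F)
  refine ⟨autS F ×ˢ autS F, fun p => coef p.1 ((coef p.2).comp B), ?_⟩
  intro x y
  rw [Finset.sum_product_right]
  rw [h (B x) y]
  refine Finset.sum_congr rfl fun τ _ => ?_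
  have h1 : coef τ (B x) = ((coef τ).comp B) x := rfl
  rw [h1, h ((coef τ).comp B) x, Finset.sum_mul]
  refine Finset.sum_congr rfl fun σ _ => ?_
  ring

/-- An alternating biadditive map over `𝔽₂` is `A(x,y) + A(y,x)` for a biadditive `A`. -/
lemma exists_polarisation (B : F →+ F →+ F) (hB : ∀ x, B x x = 0) :
    ∃ A : F →+ F →+ F, ∀ x y, B x y = A x y + A y x := by
  classical
  letI : Algebra (ZMod 2) F := ZMod.algebra F 2
  haveI : FiniteDimensional (ZMod 2) F := Module.Finite.of_finite
  have h2 : (2 : F) = 0 := by
    have := CharP.cast_eq_zero F 2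
    simpa using this
  have hchar : ∀ a : F, a + a = 0 := by
    intro a
    rw [← two_mul, h2, zero_mul]
  have hsymm : ∀ x y, B x y = B y x := by
    intro x y
    have h1 := hB (x + y)
    simp only [map_add, AddMonoidHom.add_apply, hB, zero_add, add_zero] at h1
    have h3 : B y x + B x y = 0 := h1
    calc B x y = (B y x + B y x) + B x y := by rw [hchar, zero_add]
      _ = B y x + (B y x + B x y) := by rw [add_assoc]
      _ = B y x := by rw [h3, add_zero]
  -- choose a basis
  let ι := Fin (finrank (ZMod 2) F)
  let b : Basis ι (ZMod 2) F := Module.finBasis (ZMod 2) F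
  let cr : ι → F →+ F := fun i =>
    ((algebraMap (ZMod 2) F).toAddMonoidHom).comp (b.coord i).toAddMonoidHom
  have hsm : ∀ (f : F →+ F) (r : ZMod 2) (u : F), f (r • u) = algebraMap (ZMod 2) F r * f u := by
    intro f r u
    have := map_smul (f.toZModLinearMap 2) r u
    rw [Algebra.smul_def] at this
    exact this
  -- expansion in coordinates of the first argument
  have hexp : ∀ (f : F →+ F) (x : F), f x = ∑ i, cr i x * f (b i) := by
    intro f x
    conv_lhs => rw [← b.sum_repr x]
    rw [map_sum]
    refine Finset.sum_congr rfl fun i _ => ?_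
    rw [hsm]
    rfl
  let w : ι → ι → F := fun i j => B (b i) (b j)
  have hB2 : ∀ x y, B x y = ∑ i, ∑ j, cr i x * cr j y * w i j := by
    intro x y
    have h1 := hexp (B.flip y) x
    simp only [AddMonoidHom.flip_apply] at h1
    rw [h1]
    refine Finset.sum_congr rfl fun i _ => ?_
    rw [hexp (B (b i)) y, Finset.mul_sum]
    refine Finset.sum_congr rfl fun j _ => ?_
    ring
  let A : F →+ F →+ F :=
    { toFun := fun x =>
        { toFun := fun y => ∑ i, ∑ j, if i < j then cr i x * cr j y * w i j else 0
          map_zero' := by simp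
          map_add' := fun y y' => by
            rw [← Finset.sum_add_distrib]
            refine Finset.sum_congr rfl fun i _ => ?_
            rw [← Finset.sum_add_distrib]
            refine Finset.sum_congr rfl fun j _ => ?_
            split_ifs
            · rw [map_add]; ring
            · simp }
      map_zero' := by
        ext y
        simp
      map_add' := fun x x' => by
        ext y
        simp only [AddMonoidHom.add_apply, AddMonoidHom.coe_mk, ZeroHom.coe_mk]
        rw [← Finset.sum_add_distrib]
        refine Finset.sum_congr rfl fun i _ => ?_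
        rw [← Finset.sum_add_distrib]
        refine Finset.sum_congr rfl fun j _ => ?_
        split_ifs
        · rw [map_add]; ring
        · simp }
  have hA : ∀ x y, A x y = ∑ i, ∑ j, if i < j then cr i x * cr j y * w i j else 0 := fun _ _ => rfl
  refine ⟨A, ?_⟩
  intro x y
  rw [hB2, hA, hA]
  have hswap : (∑ i, ∑ j, if i < j then cr i y * cr j x * w i j else 0) =
      ∑ i, ∑ j, if j < i then cr i x * cr j y * w i j else 0 := by
    rw [Finset.sum_comm]
    refine Finset.sum_congr rfl fun i _ => ?_
    refine Finset.sum_congr rfl fun j _ => ?_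
    split_ifs
    · show cr j y * cr i x * B (b j) (b i) = cr i x * cr j y * B (b i) (b j)
      rw [hsymm (b j) (b i)]
      ring
    · rfl
  rw [hswap, ← Finset.sum_add_distrib]
  refine Finset.sum_congr rfl fun i _ => ?_
  rw [← Finset.sum_add_distrib]
  refine Finset.sum_congr rfl fun j _ => ?_
  rcases lt_trichotomy i j with h | h | h
  · simp [h, not_lt_of_gt h]
  · subst h
    simp [w, hB]
  · simp [h, not_lt_of_gt h]

/-- **Quadratic maps are combinations of products of automorphisms.** -/
theorem quadratic_expansion (q : F → F)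
    (hq : ∀ x y z : F, q (x + y + z) + q (x + y) + q (x + z) + q (y + z) + q x + q y + q z = 0) :
    ∃ (s : Finset ((F ≃+* F) × (F ≃+* F))) (c : (F ≃+* F) × (F ≃+* F) → F),
      ∀ x : F, q x = ∑ p ∈ s, c p * (p.1 x * p.2 x) := by
  classical
  have h2 : (2 : F) = 0 := by
    have := CharP.cast_eq_zero F 2
    simpa using this
  have hchar : ∀ a : F, a + a = 0 := by
    intro a
    rw [← two_mul, h2, zero_mul]
  have hq0 : q 0 = 0 := by
    have := hq 0 0 0
    simp only [add_zero] at this
    have h3 : q 0 + q 0 + q 0 + q 0 + q 0 + q 0 + q 0 =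
        (q 0 + q 0) + (q 0 + q 0) + (q 0 + q 0) + q 0 := by ring
    rw [h3] at this
    simpa [hchar] using this
  -- the polarisation
  let P : F → F → F := fun x y => q (x + y) + q x + q y
  have hPadd : ∀ x y z, P (x + y) z = P x z + P y z := by
    intro x y z
    have h := hq x y z
    show q (x + y + z) + q (x + y) + q z = (q (x + z) + q x + q z) + (q (y + z) + q y + q z)
    linear_combination h + (-q (x + z) - q x - q (y + z) - q y - q z) * h2
  have hPsymm : ∀ x y, P x y = P y x := by
    intro x y
    show q (x + y) + q x + q y = q (y + x) + q y + q x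
    rw [add_comm x y]
    ring
  let Pm : F →+ F →+ F :=
    AddMonoidHom.mk' (fun x => AddMonoidHom.mk' (P x) (fun y z => by
      rw [hPsymm x (y + z), hPadd, hPsymm y x, hPsymm z x])) (fun x y => by
      ext z
      exact hPadd x y z)
  have hPm : ∀ x y, Pm x y = P x y := fun _ _ => rfl
  have hPalt : ∀ x, Pm x x = 0 := by
    intro x
    rw [hPm]
    show q (x + x) + q x + q x = 0
    rw [hchar, hq0, zero_add, hchar]
  obtain ⟨A, hA⟩ := exists_polarisation Pm hPalt
  -- `q - A(x,x)` is additive
  let rm : F →+ F := AddMonoidHom.mk' (fun x => q x + A x x) (fun x y => by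
    have h1 := hA x y
    rw [hPm] at h1
    have h1' : q (x + y) + q x + q y = A x y + A y x := h1
    simp only [map_add, AddMonoidHom.add_apply]
    linear_combination h1' + (A x y + A y x - q x - q y) * h2)
  have hrm : ∀ x, rm x = q x + A x x := fun _ => rfl
  obtain ⟨s₀, c₀, hc₀⟩ := additive_expansion rm
  -- `σ x` is the square of an additive function of `x`
  haveI : Fact (Nat.Prime 2) := ⟨Nat.prime_two⟩
  let fr : F ≃+* F := frobeniusEquiv F 2
  let τ : (F ≃+* F) → (F ≃+* F) := fun σ => σ.trans fr.symm
  have hτ : ∀ σ x, τ σ x * τ σ x = σ x := by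
    intro σ x
    have : fr (τ σ x) = σ x := by
      show fr (fr.symm (σ x)) = σ x
      exact fr.apply_symm_apply _
    rw [← this]
    show _ = frobeniusEquiv F 2 (τ σ x)
    rw [frobeniusEquiv_apply, frobenius_def, sq]
  let Br : F →+ F →+ F :=
    AddMonoidHom.mk' (fun x => AddMonoidHom.mk' (fun y => ∑ σ ∈ s₀, c₀ σ * (τ σ x * τ σ y))
      (fun y z => by
        rw [← Finset.sum_add_distrib]
        refine Finset.sum_congr rfl fun σ _ => ?_
        rw [map_add]
        ring))
      (fun x y => by
        ext z
        show ∑ σ ∈ s₀, c₀ σ * (τ σ (x + y) * τ σ z) =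
          ∑ σ ∈ s₀, c₀ σ * (τ σ x * τ σ z) + ∑ σ ∈ s₀, c₀ σ * (τ σ y * τ σ z)
        rw [← Finset.sum_add_distrib]
        refine Finset.sum_congr rfl fun σ _ => ?_
        rw [map_add]
        ring)
  have hBr : ∀ x, Br x x = rm x := by
    intro x
    rw [hc₀]
    show ∑ σ ∈ s₀, c₀ σ * (τ σ x * τ σ x) = _
    refine Finset.sum_congr rfl fun σ _ => ?_
    rw [hτ]
  obtain ⟨s, c, hs⟩ := biadditive_expansion (Br + A)
  refine ⟨s, c, fun x => ?_⟩
  rw [← hs x x]
  simp only [AddMonoidHom.add_apply]
  rw [hBr, hrm]
  linear_combination (- A x x) * h2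

end Cfsg.Agent.H12.FieldMaps
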