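import Cfsg.Prelude.Def_LieClassical
import Cfsg.Agent.Lib.Lead.GUOrder
import Cfsg.Agent.Lib.H18.Syl

/-!
# The field automorphism on `GL_n`: fixed subfield, fixed matrices, elements fixed up to scalars
-/

set_option autoImplicit false
set_option linter.unusedSectionVars false
set_option linter.style.haveILetI false

namespace Cfsg.Agent.H12.FixGL

open Matrix

section
variable {F : Type*} [Field F] [Fintype F] (σ : F ≃+* F)

/-- the fixed subfield of `σ`. -/
def fixedField : Subfield F := (σ : F →+* F).eqLocusField (RingHom.id F)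

theorem mem_fixedField {a : F} : a ∈ fixedField σ ↔ σ a = a := Iff.rfl

instance : Finite (F ≃+* F) := Finite.of_injective (fun e => (e : F → F)) DFunLike.coe_injective

theorem card_fixedField_pow : Fintype.card F = Nat.card (fixedField σ) ^ orderOf σ := by
  classical
  let H := Subgroup.zpowers σ
  letI : Fintype H := Fintype.ofFinite H
  haveI : FaithfulSMul H F := ⟨fun h => Subtype.ext (RingEquiv.ext h)⟩
  have h1 := FixedPoints.finrank_eq_card H F
  have h2 : FixedPoints.subfield H F = fixedField σ := by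
    ext a
    constructor
    · intro h
      exact h ⟨σ, Subgroup.mem_zpowers σ⟩
    · rintro (h : σ a = a) ⟨g, hg⟩
      change g a = a
      have h3 : Subgroup.zpowers σ ≤ MulAction.stabilizer (F ≃+* F) a := by
        rw [Subgroup.zpowers_le]
        exact h
      exact h3 hg
  have h4 : Fintype.card H = orderOf σ := by
    rw [← Nat.card_eq_fintype_card, Nat.card_zpowers]
  letI : Fintype (FixedPoints.subfield H F) := Fintype.ofFinite _
  have h5 := Module.card_eq_pow_finrank (K := FixedPoints.subfield H F) (V := F)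
  rw [h1, h4] at h5
  rw [h5, ← Nat.card_eq_fintype_card]
  congr 2
  rw [h2]

variable {n : ℕ}

/-- matrices fixed by `σ`. -/
def fixedGL (n : ℕ) : Subgroup (GL (Fin n) F) :=
  MonoidHom.eqLocus (Matrix.GeneralLinearGroup.map (σ : F →+* F)) (MonoidHom.id _)

theorem mem_fixedGL {g : GL (Fin n) F} :
    g ∈ fixedGL σ n ↔ (g : Matrix (Fin n) (Fin n) F).map σ = g := by
  constructor
  · intro h
    exact congrArg Units.val h
  · intro h
    exact Units.ext h

theorem map_fixed_entry {g : GL (Fin n) F} (hg : g ∈ fixedGL σ n) (i j : Fin n) :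
    σ ((g : Matrix (Fin n) (Fin n) F) i j) = (g : Matrix (Fin n) (Fin n) F) i j := by
  have h := (mem_fixedGL σ).1 hg
  exact congrFun (congrFun h i) j

/-- the inclusion `GL_n(F₀) → GL_n(F)`. -/
noncomputable def inclGL (n : ℕ) : GL (Fin n) (fixedField σ) →* GL (Fin n) F :=
  Matrix.GeneralLinearGroup.map (fixedField σ).subtype

theorem inclGL_inj : Function.Injective (inclGL σ n) := by
  intro a b h
  apply Units.ext
  ext i j
  have := congrArg (fun g : GL (Fin n) F => (g : Matrix (Fin n) (Fin n) F) i j) h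
  exact congrArg Subtype.val (Subtype.ext this)

theorem range_inclGL : (inclGL σ n).range = fixedGL σ n := by
  ext g
  constructor
  · rintro ⟨x, rfl⟩
    rw [mem_fixedGL]
    ext i j
    exact ((x : Matrix (Fin n) (Fin n) (fixedField σ)) i j).2
  · intro hg
    have hg' : g⁻¹ ∈ fixedGL σ n := (fixedGL σ n).inv_mem hg
    let A : Matrix (Fin n) (Fin n) (fixedField σ) := fun i j => ⟨(g : Matrix (Fin n) (Fin n) F) i j, map_fixed_entry σ hg i j⟩
    let B : Matrix (Fin n) (Fin n) (fixedField σ) := fun i j => ⟨(g⁻¹ : GL (Fin n) F).val i j, map_fixed_entry σ hg' i j⟩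
    have hA : A.map (fixedField σ).subtype = g.val := rfl
    have hB : B.map (fixedField σ).subtype = (g⁻¹ : GL (Fin n) F).val := rfl
    have hinj : Function.Injective (fun M : Matrix (Fin n) (Fin n) (fixedField σ) => M.map (fixedField σ).subtype) := by
      intro M N h
      ext i j
      have := congrFun (congrFun h i) j
      exact this
    have h1 : A * B = 1 := by
      apply hinj
      simp only [Matrix.map_mul, hA, hB]
      simp
    have h2 : B * A = 1 := by
      apply hinj
      simp only [Matrix.map_mul, hA, hB]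
      simp
    refine ⟨⟨A, B, h1, h2⟩, ?_⟩
    exact Units.ext hA

theorem card_fixedGL : Nat.card (fixedGL σ n) = Nat.card (GL (Fin n) (fixedField σ)) := by
  rw [← range_inclGL]
  exact (Nat.card_congr (MonoidHom.ofInjective (inclGL_inj σ)).toEquiv).symm

/-- scalars. -/
noncomputable def scalars (F : Type*) [Field F] (n : ℕ) : Subgroup (GL (Fin n) F) :=
  (Matrix.GeneralLinearGroup.scalar (Fin n) (R := F)).range

instance : (scalars F n).Normal := by
  constructor
  rintro _ ⟨u, rfl⟩ g
  refine ⟨u, ?_⟩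
  rw [← Matrix.GeneralLinearGroup.scalar_commute]
  simp

theorem scalar_inj (hn : 1 ≤ n) : Function.Injective (Matrix.GeneralLinearGroup.scalar (Fin n) (R := F)) := by
  intro u v h
  have h1 := congrArg (fun g : GL (Fin n) F => (g : Matrix (Fin n) (Fin n) F) ⟨0, hn⟩ ⟨0, hn⟩) h
  simp only [Matrix.GeneralLinearGroup.coe_scalar] at h1
  apply Units.ext
  simpa using h1

theorem card_scalars (hn : 1 ≤ n) : Nat.card (scalars F n) = Fintype.card F - 1 := by
  classical
  rw [scalars, ← Nat.card_congr (MonoidHom.ofInjective (scalar_inj hn)).toEquiv, Nat.card_eq_fintype_card,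
    Fintype.card_units]

theorem card_scalars_inf (hn : 1 ≤ n) :
    Nat.card ↥(fixedGL σ n ⊓ scalars F n) = Nat.card (fixedField σ) - 1 := by
  classical
  letI : Fintype (fixedField σ) := Fintype.ofFinite _
  let φ : (fixedField σ)ˣ →* GL (Fin n) F :=
    (Matrix.GeneralLinearGroup.scalar (Fin n) (R := F)).comp (Units.map (fixedField σ).subtype.toMonoidHom)
  have hφ : Function.Injective φ := by
    intro u v h
    have h1 := scalar_inj hn h
    apply Units.ext
    apply Subtype.ext
    exact congrArg Units.val h1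
  have hr : φ.range = fixedGL σ n ⊓ scalars F n := by
    ext g
    constructor
    · rintro ⟨u, rfl⟩
      refine ⟨?_, ⟨_, rfl⟩⟩
      change φ u ∈ fixedGL σ n
      rw [mem_fixedGL]
      ext i j
      simp only [φ, MonoidHom.coe_comp, Function.comp_apply, Matrix.GeneralLinearGroup.coe_scalar, Matrix.map_apply]
      by_cases hij : i = j
      · subst hij
        have h9 : σ (((u : fixedField σ) : F)) = ((u : fixedField σ) : F) := u.val.2
        simp [h9]
      · simp [hij]
    · rintro ⟨hg, ⟨u, rfl⟩⟩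
      have h1 : σ (u : F) = u := by
        have := map_fixed_entry σ hg ⟨0, hn⟩ ⟨0, hn⟩
        simpa using this
      have h2 : σ ((u⁻¹ : Fˣ) : F) = (u⁻¹ : Fˣ) := by
        rw [Units.val_inv_eq_inv_val, map_inv₀, h1]
      refine ⟨⟨⟨u, h1⟩, ⟨(u⁻¹ : Fˣ), h2⟩, Subtype.ext (by simp), Subtype.ext (by simp)⟩, ?_⟩
      rfl
  rw [← hr, ← Nat.card_congr (MonoidHom.ofInjective hφ).toEquiv, Nat.card_eq_fintype_card,
    Fintype.card_units, Nat.card_eq_fintype_card]

/-- the elements fixed up to scalars. -/
theorem mem_sup_iff (hn : 1 ≤ n) (g : GL (Fin n) F) :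
    (∃ c : F, c ≠ 0 ∧ (g : Matrix (Fin n) (Fin n) F).map σ = c • (g : Matrix (Fin n) (Fin n) F)) ↔
      g ∈ fixedGL σ n ⊔ scalars F n := by
  constructor
  · rintro ⟨c, hc, h⟩
    -- a nonzero entry
    obtain ⟨i, j, hij⟩ : ∃ i j, (g : Matrix (Fin n) (Fin n) F) i j ≠ 0 := by
      by_contra hall
      push Not at hall
      have h0 : (g : Matrix (Fin n) (Fin n) F) = 0 := by
        ext i j
        exact hall i j
      have h1 : (g : Matrix (Fin n) (Fin n) F) * (g⁻¹ : GL (Fin n) F).val = 1 := by simp
      rw [h0, zero_mul] at h1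
      have h2 := congrFun (congrFun h1 ⟨0, hn⟩) ⟨0, hn⟩
      simp at h2
    set u : Fˣ := Units.mk0 _ hij with hu
    have hcu : σ (u : F) = c * u := by
      have := congrFun (congrFun h i) j
      simp only [Matrix.map_apply, Matrix.smul_apply, smul_eq_mul] at this
      exact this
    have hu0 : (u : F) ≠ 0 := u.ne_zero
    have hσu : σ (u : F) ≠ 0 := by
      rw [hcu]
      exact mul_ne_zero hc hu0
    set a : GL (Fin n) F := Matrix.GeneralLinearGroup.scalar (Fin n) u⁻¹ * g with ha
    have haf : a ∈ fixedGL σ n := by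
      rw [mem_fixedGL]
      ext k l
      have h3 := congrFun (congrFun h k) l
      simp only [Matrix.map_apply, Matrix.smul_apply, smul_eq_mul] at h3
      simp only [ha, Units.val_mul, Matrix.GeneralLinearGroup.coe_scalar, Matrix.map_apply,
        Matrix.scalar_apply, Matrix.diagonal_mul]
      rw [map_mul, h3, Units.val_inv_eq_inv_val, map_inv₀, hcu]
      field_simp
    have hg : g = Matrix.GeneralLinearGroup.scalar (Fin n) u * a := by
      rw [ha, ← mul_assoc, ← map_mul, mul_inv_cancel, map_one, one_mul]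
    rw [hg, sup_comm]
    exact Subgroup.mul_mem_sup ⟨u, rfl⟩ haf
  · intro hg
    rw [sup_comm] at hg
    haveI : (scalars F n).Normal := inferInstance
    rw [← SetLike.mem_coe, Subgroup.normal_mul, Set.mem_mul] at hg
    obtain ⟨_, ⟨u, rfl⟩, a, ha, rfl⟩ := hg
    refine ⟨σ u / u, div_ne_zero (by simp) u.ne_zero, ?_⟩
    have h1 := (mem_fixedGL σ).1 ha
    ext k l
    have h3 := congrFun (congrFun h1 k) l
    simp only [Matrix.map_apply] at h3
    simp only [Units.val_mul, Matrix.GeneralLinearGroup.coe_scalar, Matrix.map_apply,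
      Matrix.scalar_apply, Matrix.diagonal_mul, Matrix.smul_apply, smul_eq_mul, map_mul, h3]
    field_simp

/-- S2636 -/
theorem card_fixed_up_to_scalar {q₀ r : ℕ} (hr : r.Prime) (hn : 1 ≤ n) (hF : Fintype.card F = q₀ ^ r)
    (hσ : orderOf σ = r) :
    Nat.card {g : GL (Fin n) F // ∃ c : F, c ≠ 0 ∧ (g : Matrix (Fin n) (Fin n) F).map σ = c • (g : Matrix (Fin n) (Fin n) F)} =
      (q₀ ^ r - 1) / (q₀ - 1) * ∏ i : Fin n, (q₀ ^ n - q₀ ^ (i : ℕ)) := by
  classical
  letI : Fintype (fixedField σ) := Fintype.ofFinite _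
  have hc0 : Nat.card (fixedField σ) = q₀ := by
    have h := card_fixedField_pow σ
    rw [hF, hσ] at h
    exact (Nat.pow_left_injective hr.ne_zero h).symm
  have hq₀ : 2 ≤ q₀ := by
    rw [← hc0]
    exact Finite.one_lt_card
  have h1 : Nat.card {g : GL (Fin n) F // ∃ c : F, c ≠ 0 ∧ (g : Matrix (Fin n) (Fin n) F).map σ = c • (g : Matrix (Fin n) (Fin n) F)} =
      Nat.card ↥(fixedGL σ n ⊔ scalars F n) :=
    Nat.card_congr (Equiv.subtypeEquivRight (mem_sup_iff σ hn))
  rw [h1]
  have h2 := H18.card_sup_mul_card_inf (fixedGL σ n) (scalars F n)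
  rw [card_scalars_inf σ hn, card_scalars hn, card_fixedGL, Matrix.card_GL_field, hF, hc0] at h2
  have hc1 : Fintype.card (fixedField σ) = q₀ := by
    rw [← Nat.card_eq_fintype_card, hc0]
  rw [hc1] at h2
  obtain ⟨t, ht⟩ : q₀ - 1 ∣ q₀ ^ r - 1 := by
    have := Nat.sub_dvd_pow_sub_pow q₀ 1 r
    simpa using this
  rw [ht, Nat.mul_div_cancel_left t (by omega)]
  rw [ht] at h2
  have hpos : 0 < q₀ - 1 := by omega
  apply Nat.eq_of_mul_eq_mul_right hpos
  rw [h2]
  ring

end

end Cfsg.Agent.H12.FixGL
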