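import Cfsg.Agent.Lib.H12.FixedGL

/-!
# Elements of `GU_n(q)` fixed up to scalars by a field automorphism
-/

set_option autoImplicit false
set_option linter.unusedSectionVars false
set_option linter.style.haveILetI false

namespace Cfsg.Agent.H12.FixGL

open Matrix

section gram
variable {F : Type*} [Field F] [Fintype F] {q n : ℕ}

/-- Gram-matrix criterion for `GU`. -/
theorem mem_GU_iff_gram (hF : Fintype.card F = q ^ 2) (g : GL (Fin n) F) :
    g ∈ Cfsg.GU n F q ↔ ∀ i j, Cfsg.hermForm n F q (fun c => (g : Matrix (Fin n) (Fin n) F) c i)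
      (fun c => (g : Matrix (Fin n) (Fin n) F) c j) = if i = j then 1 else 0 := by
  constructor
  · intro hg i j
    have h := hg (Pi.single i 1) (Pi.single j 1)
    rw [Lead.herm_single_single hF] at h
    simp only [Units.coeHom_apply, Matrix.mulVec_single_one] at h
    exact h
  · intro h v w
    simp only [Units.coeHom_apply]
    rw [Lead.mulVec_eq_sum_col, Lead.mulVec_eq_sum_col, Lead.herm_sum_left]
    simp only [Lead.herm_smul_left, Lead.herm_sum_right hF, Lead.herm_smul_right hF, h]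
    simp only [mul_ite, mul_one, mul_zero, Finset.sum_ite_eq, Finset.mem_univ, if_true]
    exact Finset.sum_congr rfl (fun i _ => mul_comm _ _)

/-- scalars `u` with `u^s = 1`. -/
noncomputable def ZU (F : Type*) [Field F] (n s : ℕ) : Subgroup (GL (Fin n) F) :=
  ((powMonoidHom s : Fˣ →* Fˣ).ker).map (Matrix.GeneralLinearGroup.scalar (Fin n))

theorem mem_ZU {s : ℕ} {g : GL (Fin n) F} :
    g ∈ ZU F n s ↔ ∃ u : Fˣ, u ^ s = 1 ∧ Matrix.GeneralLinearGroup.scalar (Fin n) u = g := by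
  simp [ZU, MonoidHom.mem_ker]

instance (s : ℕ) : (ZU F n s).Normal := by
  constructor
  intro z hz g
  rw [mem_ZU] at hz ⊢
  obtain ⟨u, hu, rfl⟩ := hz
  refine ⟨u, hu, ?_⟩
  rw [← Matrix.GeneralLinearGroup.scalar_commute]
  simp

theorem card_ZU (hn : 1 ≤ n) {s : ℕ} (hs : s ∣ Fintype.card F - 1) : Nat.card (ZU F n s) = s := by
  classical
  rw [ZU, Subgroup.card_map_of_injective (scalar_inj hn), IsCyclic.card_powMonoidHom_ker,
    Nat.card_eq_fintype_card, Fintype.card_units]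
  exact Nat.gcd_eq_right hs

theorem ZU_le_GU (hF : Fintype.card F = q ^ 2) : ZU F n (q + 1) ≤ Cfsg.GU n F q := by
  intro g hg
  obtain ⟨u, hu, rfl⟩ := mem_ZU.1 hg
  intro v w
  simp only [Units.coeHom_apply, Matrix.GeneralLinearGroup.coe_scalar]
  have h1 : ∀ v : Fin n → F, Matrix.scalar (Fin n) (u : F) *ᵥ v = (u : F) • v := by
    intro v
    ext i
    simp [Matrix.scalar_apply, Matrix.mulVec_diagonal]
  rw [h1, h1, Lead.herm_smul_left, Lead.herm_smul_right hF]
  have h2 : (u : F) * (u : F) ^ q = 1 := by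
    have := congrArg Units.val hu
    simp only [Units.val_pow_eq_pow_val, Units.val_one] at this
    rw [← this]
    ring
  rw [← mul_assoc, h2, one_mul]

end gram

section cyc
variable {E : Type*} [Field E] [Fintype E] {s : ℕ}

/-- norm-type surjectivity in a field with `s²` elements. -/
theorem exists_pow_succ_eq (hE : Fintype.card E = s ^ 2) (a : Eˣ) (ha : a ^ s = a) :
    ∃ b : Eˣ, b ^ (s + 1) = a := by
  classical
  have hs2 : 2 ≤ s := by
    by_contra h
    have h1 : s ≤ 1 := by omega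
    have h2 : Fintype.card E ≤ 1 := by
      rw [hE]
      nlinarith
    have := Fintype.one_lt_card (α := E)
    omega
  obtain ⟨w, hw⟩ := IsCyclic.exists_generator (α := Eˣ)
  obtain ⟨k, hk⟩ : ∃ k : ℕ, w ^ k = a := by
    have := (mem_powers_iff_mem_zpowers).2 (hw a)
    exact this
  have h1 : a ^ (s - 1) = 1 := by
    have h2 : a ^ (s - 1) * a = a := by
      rw [← pow_succ, Nat.sub_add_cancel (by omega), ha]
    exact mul_eq_right.1 h2
  have h3 : orderOf w = s ^ 2 - 1 := by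
    rw [orderOf_eq_card_of_forall_mem_zpowers hw, Nat.card_eq_fintype_card, Fintype.card_units, hE]
  have h4 : (s ^ 2 - 1) ∣ k * (s - 1) := by
    rw [← h3]
    apply orderOf_dvd_of_pow_eq_one
    rw [pow_mul, hk, h1]
  have h5 : s ^ 2 - 1 = (s + 1) * (s - 1) := by
    obtain ⟨t, rfl⟩ : ∃ t, s = t + 1 := ⟨s - 1, by omega⟩
    simp only [Nat.add_sub_cancel]
    have : (t + 1) ^ 2 = (t + 1 + 1) * t + 1 := by ring
    omega
  rw [h5] at h4
  have h6 : (s + 1) ∣ k := Nat.dvd_of_mul_dvd_mul_right (by omega) h4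
  obtain ⟨l, rfl⟩ := h6
  refine ⟨w ^ l, ?_⟩
  rw [← pow_mul, mul_comm]
  exact hk

end cyc

section main
variable {K : Type*} [Field K] [Fintype K] {q₀ q r n : ℕ} (σ : K ≃+* K)

/-- Power reduction on the fixed field. -/
theorem pow_reduce (hr : Odd r) (hq : q = q₀ ^ r) (hK₀ : Nat.card (fixedField σ) = q₀ ^ 2)
    (x : fixedField σ) : x ^ q = x ^ q₀ := by
  classical
  letI : Fintype (fixedField σ) := Fintype.ofFinite _
  obtain ⟨t, rfl⟩ := hr
  have h1 : Fintype.card (fixedField σ) = q₀ ^ 2 := by rw [← Nat.card_eq_fintype_card, hK₀]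
  have h2 : q = (q₀ ^ 2) ^ t * q₀ := by
    rw [hq, pow_succ, pow_mul]
  rw [h2, pow_mul, ← h1, FiniteField.pow_card_pow]

theorem gram_transfer (hr : Odd r) (hq : q = q₀ ^ r) (hK₀ : Nat.card (fixedField σ) = q₀ ^ 2)
    (u v : Fin n → fixedField σ) :
    Cfsg.hermForm n K q (fun c => (u c : K)) (fun c => (v c : K)) =
      ((Cfsg.hermForm n (fixedField σ) q₀ u v : fixedField σ) : K) := by
  simp only [Cfsg.hermForm]
  push_cast
  apply Finset.sum_congr rfl
  intro c _
  have h := pow_reduce σ hr hq hK₀ (v c)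
  have h2 := congrArg (Subtype.val) h
  push_cast at h2
  rw [h2]

theorem inclGL_mem_GU_iff (hr : Odd r) (hq : q = q₀ ^ r) (hK : Fintype.card K = q ^ 2)
    (hK₀ : Nat.card (fixedField σ) = q₀ ^ 2) (x : GL (Fin n) (fixedField σ)) :
    inclGL σ n x ∈ Cfsg.GU n K q ↔ x ∈ Cfsg.GU n (fixedField σ) q₀ := by
  classical
  letI : Fintype (fixedField σ) := Fintype.ofFinite _
  have h1 : Fintype.card (fixedField σ) = q₀ ^ 2 := by rw [← Nat.card_eq_fintype_card, hK₀]
  rw [mem_GU_iff_gram hK, mem_GU_iff_gram h1]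
  have e : ∀ i j, Cfsg.hermForm n K q (fun c => ((inclGL σ n x : GL (Fin n) K) : Matrix (Fin n) (Fin n) K) c i)
      (fun c => ((inclGL σ n x : GL (Fin n) K) : Matrix (Fin n) (Fin n) K) c j) =
      ((Cfsg.hermForm n (fixedField σ) q₀ (fun c => (x : Matrix (Fin n) (Fin n) (fixedField σ)) c i)
        (fun c => (x : Matrix (Fin n) (Fin n) (fixedField σ)) c j) : fixedField σ) : K) := by
    intro i j
    exact gram_transfer σ hr hq hK₀ _ _
  simp only [e]
  constructor
  · intro h i j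
    apply Subtype.ext
    rw [h i j]
    split_ifs <;> rfl
  · intro h i j
    rw [h i j]
    split_ifs <;> rfl

/-- `G₀`: the fixed elements of `GU`. -/
def G₀ (σ : K ≃+* K) (n q : ℕ) : Subgroup (GL (Fin n) K) := Cfsg.GU n K q ⊓ fixedGL σ n

theorem G₀_eq_map (hr : Odd r) (hq : q = q₀ ^ r) (hK : Fintype.card K = q ^ 2)
    (hK₀ : Nat.card (fixedField σ) = q₀ ^ 2) :
    G₀ σ n q = (Cfsg.GU n (fixedField σ) q₀).map (inclGL σ n) := by
  ext g
  constructor
  · rintro ⟨h1, h2⟩
    have h3 : g ∈ (inclGL σ n).range := by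
      rw [range_inclGL]
      exact h2
    obtain ⟨x, rfl⟩ := h3
    exact ⟨x, (inclGL_mem_GU_iff σ hr hq hK hK₀ x).1 h1, rfl⟩
  · rintro ⟨x, hx, rfl⟩
    refine ⟨(inclGL_mem_GU_iff σ hr hq hK hK₀ x).2 hx, ?_⟩
    change inclGL σ n x ∈ fixedGL σ n
    rw [← range_inclGL]
    exact ⟨x, rfl⟩

theorem card_G₀ (hr : Odd r) (hq : q = q₀ ^ r) (hK : Fintype.card K = q ^ 2)
    (hK₀ : Nat.card (fixedField σ) = q₀ ^ 2) :
    Nat.card (G₀ σ n q) = Nat.card (Cfsg.GU n (fixedField σ) q₀) := by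
  rw [G₀_eq_map σ hr hq hK hK₀, Subgroup.card_map_of_injective (inclGL_inj σ)]

theorem inf_ZU_eq_map (hn : 1 ≤ n) (hr : Odd r) (hq : q = q₀ ^ r) (hK₀ : Nat.card (fixedField σ) = q₀ ^ 2)
    (hK : Fintype.card K = q ^ 2) :
    G₀ σ n q ⊓ ZU K n (q + 1) = (ZU (fixedField σ) n (q₀ + 1)).map (inclGL σ n) := by
  classical
  letI : Fintype (fixedField σ) := Fintype.ofFinite _
  ext g
  constructor
  · rintro ⟨⟨h1, h2⟩, h3⟩
    obtain ⟨v, hv, rfl⟩ := mem_ZU.1 h3
    have h4 : σ (v : K) = v := by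
      have := map_fixed_entry σ h2 ⟨0, hn⟩ ⟨0, hn⟩
      simpa using this
    have h5 : σ ((v⁻¹ : Kˣ) : K) = (v⁻¹ : Kˣ) := by
      rw [Units.val_inv_eq_inv_val, map_inv₀, h4]
    let u : (fixedField σ)ˣ := ⟨⟨v, h4⟩, ⟨(v⁻¹ : Kˣ), h5⟩, Subtype.ext (by simp), Subtype.ext (by simp)⟩
    have hmap : Units.map (fixedField σ).subtype.toMonoidHom u = v := Units.ext rfl
    refine ⟨Matrix.GeneralLinearGroup.scalar (Fin n) u, ?_, ?_⟩
    · rw [SetLike.mem_coe, mem_ZU]
      refine ⟨u, ?_, rfl⟩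
      apply Units.ext
      apply Subtype.ext
      have h6 := congrArg Units.val hv
      simp only [Units.val_pow_eq_pow_val, Units.val_one] at h6
      have h7 := pow_reduce σ hr hq hK₀ (⟨v, h4⟩ : fixedField σ)
      have h8 := congrArg Subtype.val h7
      push_cast at h8
      simp only [Units.val_pow_eq_pow_val, Units.val_one]
      push_cast
      change (v : K) ^ (q₀ + 1) = 1
      rw [pow_succ, ← h8, ← pow_succ]
      exact h6
    · simp only [inclGL, Matrix.GeneralLinearGroup.map_scalar]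
      rw [← hmap]
      rfl
  · rintro ⟨z, hz, rfl⟩
    obtain ⟨u, hu, rfl⟩ := mem_ZU.1 hz
    have hz2 : inclGL σ n (Matrix.GeneralLinearGroup.scalar (Fin n) u) =
        Matrix.GeneralLinearGroup.scalar (Fin n) (Units.map (fixedField σ).subtype.toMonoidHom u) := by
      simp only [inclGL, Matrix.GeneralLinearGroup.map_scalar]
      rfl
    have hZ : inclGL σ n (Matrix.GeneralLinearGroup.scalar (Fin n) u) ∈ ZU K n (q + 1) := by
      rw [hz2, mem_ZU]
      refine ⟨_, ?_, rfl⟩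
      apply Units.ext
      have h6 := congrArg Units.val hu
      have h7 := congrArg Subtype.val h6
      simp only [Units.val_pow_eq_pow_val, Units.val_one] at h7
      push_cast at h7
      have h8 := pow_reduce σ hr hq hK₀ (u : fixedField σ)
      have h9 := congrArg Subtype.val h8
      push_cast at h9
      simp only [Units.val_pow_eq_pow_val, Units.val_one, Units.coe_map]
      change ((u : fixedField σ) : K) ^ (q + 1) = 1
      rw [pow_succ, h9, ← pow_succ]
      exact h7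
    refine ⟨⟨ZU_le_GU hK hZ, ?_⟩, hZ⟩
    change inclGL σ n _ ∈ fixedGL σ n
    rw [← range_inclGL]
    exact ⟨_, rfl⟩

theorem mem_sup_iff_GU (hn : 1 ≤ n) (hr : Odd r) (hq : q = q₀ ^ r) (hK : Fintype.card K = q ^ 2)
    (hK₀ : Nat.card (fixedField σ) = q₀ ^ 2) (g : GL (Fin n) K) :
    (g ∈ Cfsg.GU n K q ∧ ∃ c : K, c ≠ 0 ∧ (g : Matrix (Fin n) (Fin n) K).map σ = c • (g : Matrix (Fin n) (Fin n) K)) ↔
      g ∈ G₀ σ n q ⊔ ZU K n (q + 1) := by
  classical
  letI : Fintype (fixedField σ) := Fintype.ofFinite _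
  have hc₀ : Fintype.card (fixedField σ) = q₀ ^ 2 := by rw [← Nat.card_eq_fintype_card, hK₀]
  constructor
  · rintro ⟨hgU, c, hc, h⟩
    obtain ⟨i, j, hij⟩ : ∃ i j, (g : Matrix (Fin n) (Fin n) K) i j ≠ 0 := by
      by_contra hall
      push Not at hall
      have h0 : (g : Matrix (Fin n) (Fin n) K) = 0 := by
        ext i j
        exact hall i j
      have h1 : (g : Matrix (Fin n) (Fin n) K) * (g⁻¹ : GL (Fin n) K).val = 1 := by simp
      rw [h0, zero_mul] at h1
      have h2 := congrFun (congrFun h1 ⟨0, hn⟩) ⟨0, hn⟩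
      simp at h2
    set d := (g : Matrix (Fin n) (Fin n) K) i j with hd
    have hentry : ∀ k l, σ ((g : Matrix (Fin n) (Fin n) K) k l) = c * (g : Matrix (Fin n) (Fin n) K) k l := by
      intro k l
      have := congrFun (congrFun h k) l
      simp only [Matrix.map_apply, Matrix.smul_apply, smul_eq_mul] at this
      exact this
    have hcd : σ d = c * d := hentry i j
    have hcq : c ^ (q + 1) = 1 := by
      have gram := (mem_GU_iff_gram hK g).1 hgU j j
      rw [if_pos rfl] at gram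
      have h2 := congrArg σ gram
      simp only [Cfsg.hermForm, map_sum, map_mul, map_pow, map_one, hentry] at h2
      have h3 : ∑ x, c * (g : Matrix (Fin n) (Fin n) K) x j * (c * (g : Matrix (Fin n) (Fin n) K) x j) ^ q =
          c ^ (q + 1) * ∑ x, (g : Matrix (Fin n) (Fin n) K) x j * ((g : Matrix (Fin n) (Fin n) K) x j) ^ q := by
        rw [Finset.mul_sum]
        apply Finset.sum_congr rfl
        intro x _
        ring
      have gram' : ∑ x, (g : Matrix (Fin n) (Fin n) K) x j * ((g : Matrix (Fin n) (Fin n) K) x j) ^ q = 1 := gram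
      rw [h3, gram', mul_one] at h2
      exact h2
    set a := d ^ (q + 1) with ha
    have ha0 : a ≠ 0 := pow_ne_zero _ hij
    have hσa : σ a = a := by
      rw [ha, map_pow, hcd, mul_pow, hcq, one_mul]
    have haq : a ^ q = a := by
      have h1 : d ^ (q ^ 2) = d := by rw [← hK, FiniteField.pow_card]
      calc a ^ q = d ^ (q ^ 2) * d ^ q := by
            rw [ha, ← pow_mul, ← pow_add]
            congr 1
            ring
        _ = a := by rw [h1, ha, pow_succ]; ring
    let a₁ : fixedField σ := ⟨a, hσa⟩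
    have ha₁0 : a₁ ≠ 0 := fun h0 => ha0 (congrArg Subtype.val h0)
    have ha₁q : a₁ ^ q₀ = a₁ := by
      rw [← pow_reduce σ hr hq hK₀]
      apply Subtype.ext
      push_cast
      exact haq
    obtain ⟨b, hb⟩ := exists_pow_succ_eq hc₀ (Units.mk0 a₁ ha₁0) (by
      apply Units.ext
      simpa using ha₁q)
    have hb2 : ((b : fixedField σ) : K) ^ (q + 1) = a := by
      have h1 := congrArg (fun x : (fixedField σ)ˣ => (((x : fixedField σ)) : K)) hb
      simp only [Units.val_pow_eq_pow_val, Units.val_mk0] at h1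
      have h2 := pow_reduce σ hr hq hK₀ (b : fixedField σ)
      have h3 := congrArg Subtype.val h2
      push_cast at h1 h3
      rw [pow_succ, h3, ← pow_succ]
      exact h1
    set b' : K := ((b : fixedField σ) : K) with hb'
    have hb'0 : b' ≠ 0 := by
      intro h0
      have : (b : fixedField σ) = 0 := Subtype.ext h0
      exact b.ne_zero this
    have hσb : σ b' = b' := (b : fixedField σ).2
    have hd0 : d / b' ≠ 0 := div_ne_zero hij hb'0
    let e : Kˣ := Units.mk0 (d / b') hd0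
    have he1 : e ^ (q + 1) = 1 := by
      apply Units.ext
      simp only [e, Units.val_pow_eq_pow_val, Units.val_mk0, Units.val_one]
      rw [div_pow, hb2, ← ha, div_self ha0]
    have he2 : σ (e : K) = c * e := by
      simp only [e, Units.val_mk0]
      rw [map_div₀, hcd, hσb]
      ring
    set a' : GL (Fin n) K := Matrix.GeneralLinearGroup.scalar (Fin n) e⁻¹ * g with ha'
    have hZ : Matrix.GeneralLinearGroup.scalar (Fin n) e⁻¹ ∈ ZU K n (q + 1) := by
      rw [mem_ZU]
      exact ⟨e⁻¹, by rw [inv_pow, he1, inv_one], rfl⟩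
    have ha'G : a' ∈ G₀ σ n q := by
      refine ⟨(Cfsg.GU n K q).mul_mem (ZU_le_GU hK hZ) hgU, ?_⟩
      change a' ∈ fixedGL σ n
      rw [mem_fixedGL]
      ext k l
      simp only [ha', Units.val_mul, Matrix.GeneralLinearGroup.coe_scalar, Matrix.map_apply,
        Matrix.scalar_apply, Matrix.diagonal_mul]
      rw [map_mul, hentry, Units.val_inv_eq_inv_val, map_inv₀, he2]
      have : (e : K) ≠ 0 := e.ne_zero
      field_simp
    have hg : g = Matrix.GeneralLinearGroup.scalar (Fin n) e * a' := by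
      rw [ha', ← mul_assoc, ← map_mul, mul_inv_cancel, map_one, one_mul]
    rw [hg, sup_comm]
    refine Subgroup.mul_mem_sup ?_ ha'G
    rw [mem_ZU]
    exact ⟨e, he1, rfl⟩
  · intro hg
    rw [sup_comm] at hg
    rw [← SetLike.mem_coe, Subgroup.normal_mul, Set.mem_mul] at hg
    obtain ⟨z, hz, a, ha, rfl⟩ := hg
    refine ⟨(Cfsg.GU n K q).mul_mem (ZU_le_GU hK hz) ha.1, ?_⟩
    obtain ⟨u, -, rfl⟩ := mem_ZU.1 hz
    refine ⟨σ u / u, div_ne_zero (by simp) u.ne_zero, ?_⟩
    have h1 := (mem_fixedGL σ).1 ha.2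
    ext k l
    have h3 := congrFun (congrFun h1 k) l
    simp only [Matrix.map_apply] at h3
    simp only [Units.val_mul, Matrix.GeneralLinearGroup.coe_scalar, Matrix.map_apply,
      Matrix.scalar_apply, Matrix.diagonal_mul, Matrix.smul_apply, smul_eq_mul, map_mul, h3]
    field_simp

/-- S2677 -/
theorem card_GU_fixed_up_to_scalar (hr : r.Prime) (hr2 : r ≠ 2) (hn : 1 ≤ n) (hq : q = q₀ ^ r)
    (hK : Fintype.card K = q ^ 2) (hσ : orderOf σ = r) :
    (Nat.card {g : ↥(Cfsg.GU n K q) // ∃ c : K, c ≠ 0 ∧ ((g : GL (Fin n) K) : Matrix (Fin n) (Fin n) K).map σ = c • ((g : GL (Fin n) K) : Matrix (Fin n) (Fin n) K)} : ℤ) =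
      ((q + 1) / (q₀ + 1) : ℕ) * ((q₀ : ℤ) ^ (n * (n - 1) / 2) * ∏ i : Fin n, ((q₀ : ℤ) ^ ((i : ℕ) + 1) - (-1) ^ ((i : ℕ) + 1))) := by
  classical
  letI : Fintype (fixedField σ) := Fintype.ofFinite _
  have hodd : Odd r := hr.odd_of_ne_two hr2
  have hK₀ : Nat.card (fixedField σ) = q₀ ^ 2 := by
    have h := card_fixedField_pow σ
    rw [hK, hσ, hq, ← pow_mul, mul_comm r 2, pow_mul] at h
    exact (Nat.pow_left_injective hr.ne_zero h).symm
  have hc₀ : Fintype.card (fixedField σ) = q₀ ^ 2 := by rw [← Nat.card_eq_fintype_card, hK₀]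
  have hq₀ : 2 ≤ q₀ := by
    by_contra h
    have h1 : q₀ ≤ 1 := by omega
    have h2 : Fintype.card (fixedField σ) ≤ 1 := by
      rw [hc₀]
      nlinarith
    have := Fintype.one_lt_card (α := fixedField σ)
    omega
  -- the subtype is the join
  have e : {g : ↥(Cfsg.GU n K q) // ∃ c : K, c ≠ 0 ∧ ((g : GL (Fin n) K) : Matrix (Fin n) (Fin n) K).map σ = c • ((g : GL (Fin n) K) : Matrix (Fin n) (Fin n) K)} ≃
      ↥(G₀ σ n q ⊔ ZU K n (q + 1)) :=
    { toFun := fun x => ⟨x.1.1, (mem_sup_iff_GU σ hn hodd hq hK hK₀ _).1 ⟨x.1.2, x.2⟩⟩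
      invFun := fun y => ⟨⟨y.1, ((mem_sup_iff_GU σ hn hodd hq hK hK₀ _).2 y.2).1⟩,
        ((mem_sup_iff_GU σ hn hodd hq hK hK₀ _).2 y.2).2⟩
      left_inv := fun x => rfl
      right_inv := fun y => rfl }
  rw [Nat.card_congr e]
  have h2 := H18.card_sup_mul_card_inf (G₀ σ n q) (ZU K n (q + 1))
  have hdvd1 : q + 1 ∣ Fintype.card K - 1 := by
    rw [hK]
    obtain ⟨t, rfl⟩ : ∃ t, q = t + 1 := ⟨q - 1, by
      have : 0 < q := by
        rw [hq]
        positivity
      omega⟩
    refine ⟨t, ?_⟩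
    have : (t + 1) ^ 2 = (t + 1 + 1) * t + 1 := by ring
    omega
  have hdvd2 : q₀ + 1 ∣ Fintype.card (fixedField σ) - 1 := by
    rw [hc₀]
    obtain ⟨t, rfl⟩ : ∃ t, q₀ = t + 1 := ⟨q₀ - 1, by omega⟩
    refine ⟨t, ?_⟩
    have : (t + 1) ^ 2 = (t + 1 + 1) * t + 1 := by ring
    omega
  rw [card_ZU hn hdvd1, inf_ZU_eq_map σ hn hodd hq hK₀ hK, Subgroup.card_map_of_injective (inclGL_inj σ),
    card_ZU hn hdvd2, card_G₀ σ hodd hq hK hK₀, Lead.card_GU hc₀] at h2
  obtain ⟨t, ht⟩ : q₀ + 1 ∣ q + 1 := by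
    have := hodd.nat_add_dvd_pow_add_pow q₀ 1
    rwa [one_pow, ← hq] at this
  have hdiv : (q + 1) / (q₀ + 1) = t := by
    rw [ht]
    exact Nat.mul_div_cancel_left t (by omega)
  rw [hdiv]
  have hfin : Nat.card ↥(G₀ σ n q ⊔ ZU K n (q + 1)) =
      (q₀ ^ (n * (n - 1) / 2) * ∏ i ∈ Finset.range n, (if Even i then q₀ ^ (i + 1) + 1 else q₀ ^ (i + 1) - 1)) * t := by
    apply Nat.eq_of_mul_eq_mul_right (show 0 < q₀ + 1 by omega)
    rw [h2, ht]
    ring
  rw [hfin]
  have hprod : ∏ i : Fin n, ((q₀ : ℤ) ^ ((i : ℕ) + 1) - (-1) ^ ((i : ℕ) + 1)) =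
      ((∏ i ∈ Finset.range n, (if Even i then q₀ ^ (i + 1) + 1 else q₀ ^ (i + 1) - 1) : ℕ) : ℤ) := by
    rw [Fin.prod_univ_eq_prod_range (fun i => (q₀ : ℤ) ^ (i + 1) - (-1) ^ (i + 1)) n]
    push_cast
    apply Finset.prod_congr rfl
    intro i _
    by_cases he : Even i
    · rw [if_pos he, Odd.neg_one_pow he.add_one]
      push_cast
      ring
    · have h5 : Even (i + 1) := (Nat.not_even_iff_odd.1 he).add_one
      rw [if_neg he, h5.neg_one_pow, Nat.cast_sub (Nat.one_le_pow _ _ (by omega))]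
      push_cast
      ring
  rw [hprod]
  push_cast
  ring

end main

end Cfsg.Agent.H12.FixGL
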