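import Mathlib

/-! Fixed-point-free matrix representations: a universal ring, and lifting from `𝔽_p` to
`ℤ/p^k` by Schur--Zassenhaus.  The upshot: a group with a fixed-point-free representation over `𝔽_p`
has one over the algebraic closure of `ℚ`. -/

set_option autoImplicit false

namespace Cfsg.Agent.H12.FpfLift

open Matrix

/-- A fixed-point-free matrix representation over `E`, in the sense that `ρ a - 1` is invertible. -/
def FpfOver (A : Type*) [Group A] (n : ℕ) (E : Type*) [CommRing E] : Prop :=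
  ∃ φ : A →* Matrix (Fin n) (Fin n) E, ∀ a, a ≠ 1 → IsUnit ((φ a - 1).det)

theorem FpfOver.map {A : Type*} [Group A] {n : ℕ} {E E' : Type*} [CommRing E] [CommRing E']
    (f : E →+* E') (h : FpfOver A n E) : FpfOver A n E' := by
  obtain ⟨φ, hφ⟩ := h
  refine ⟨(f.mapMatrix : Matrix (Fin n) (Fin n) E →+* Matrix (Fin n) (Fin n) E').toMonoidHom.comp φ,
    fun a ha => ?_⟩
  have h1 := (hφ a ha).map f
  rw [RingHom.map_det] at h1
  have e : (((f.mapMatrix : Matrix (Fin n) (Fin n) E →+* Matrix (Fin n) (Fin n) E').toMonoidHom.comp φ) a - 1)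
      = f.mapMatrix (φ a - 1) := by
    simp [map_sub, map_one]
  rw [e]
  exact h1

/-- Index type of the generators of the universal ring. -/
abbrev Sg (A : Type*) (n : ℕ) := (A × Fin n × Fin n) ⊕ A

/-- The generic matrices. -/
noncomputable def genMat (A : Type*) (n : ℕ) (a : A) :
    Matrix (Fin n) (Fin n) (MvPolynomial (Sg A n) ℤ) :=
  Matrix.of fun i j => MvPolynomial.X (Sum.inl (a, i, j))

/-- Relations of the universal ring. -/
def relSet (A : Type*) [Group A] (n : ℕ) : Set (MvPolynomial (Sg A n) ℤ) :=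
  {r | (∃ a b i j, r = (genMat A n a * genMat A n b) i j - genMat A n (a * b) i j) ∨
       (∃ i j, r = genMat A n 1 i j - (1 : Matrix (Fin n) (Fin n) (MvPolynomial (Sg A n) ℤ)) i j) ∨
       (∃ a : A, a ≠ 1 ∧ r = MvPolynomial.X (Sum.inr a) * (genMat A n a - 1).det - 1)}

/-- The universal ring for fixed-point-free representations. -/
abbrev UR (A : Type*) [Group A] (n : ℕ) := MvPolynomial (Sg A n) ℤ ⧸ Ideal.span (relSet A n)

instance finiteType_UR (A : Type*) [Group A] [Finite A] (n : ℕ) : Algebra.FiniteType ℤ (UR A n) :=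
  Algebra.FiniteType.of_surjective (Ideal.Quotient.mkₐ ℤ (Ideal.span (relSet A n)))
    (Ideal.Quotient.mkₐ_surjective ℤ _)

/-- The universal ring carries a fixed-point-free representation. -/
theorem fpfOver_UR (A : Type*) [Group A] (n : ℕ) : FpfOver A n (UR A n) := by
  set q : MvPolynomial (Sg A n) ℤ →+* UR A n := Ideal.Quotient.mk (Ideal.span (relSet A n)) with hq
  have hrel : ∀ r ∈ relSet A n, q r = 0 := fun r hr =>
    Ideal.Quotient.eq_zero_iff_mem.mpr (Ideal.subset_span hr)
  let M : A → Matrix (Fin n) (Fin n) (UR A n) := fun a => q.mapMatrix (genMat A n a)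
  have hM1 : M 1 = 1 := by
    ext i j
    have h := hrel _ (Or.inr (Or.inl ⟨i, j, rfl⟩))
    rw [map_sub, sub_eq_zero] at h
    have e : (M 1) i j = q (genMat A n 1 i j) := rfl
    rw [e, h]
    have e2 : q ((1 : Matrix (Fin n) (Fin n) (MvPolynomial (Sg A n) ℤ)) i j)
        = q.mapMatrix (1 : Matrix (Fin n) (Fin n) (MvPolynomial (Sg A n) ℤ)) i j := rfl
    rw [e2, map_one]
  have hMm : ∀ a b, M (a * b) = M a * M b := by
    intro a b
    ext i j
    have h := hrel _ (Or.inl ⟨a, b, i, j, rfl⟩)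
    rw [map_sub, sub_eq_zero] at h
    have e : (M (a * b)) i j = q (genMat A n (a * b) i j) := rfl
    rw [e, ← h]
    have e2 : q ((genMat A n a * genMat A n b) i j) = q.mapMatrix (genMat A n a * genMat A n b) i j := rfl
    rw [e2, map_mul]
  refine ⟨⟨⟨M, hM1⟩, hMm⟩, fun a ha => ?_⟩
  have h := hrel _ (Or.inr (Or.inr ⟨a, ha, rfl⟩))
  rw [map_sub, map_mul, map_one, sub_eq_zero, RingHom.map_det] at h
  have e : q.mapMatrix (genMat A n a - 1) = M a - 1 := by
    rw [map_sub, map_one]
  rw [e] at h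
  exact IsUnit.of_mul_eq_one _ (by rw [mul_comm]; exact h)

/-- The universal property. -/
theorem exists_hom_of_fpf {A : Type*} [Group A] {n : ℕ} {E : Type*} [CommRing E]
    (h : FpfOver A n E) : Nonempty (UR A n →+* E) := by
  classical
  obtain ⟨φ, hφ⟩ := h
  let v : Sg A n → E := Sum.elim (fun x => φ x.1 x.2.1 x.2.2)
    (fun a => if h : a ≠ 1 then (((hφ a h).unit⁻¹ : Eˣ) : E) else 0)
  let g : MvPolynomial (Sg A n) ℤ →+* E := MvPolynomial.eval₂Hom (Int.castRingHom E) v
  have hX : ∀ x, g (MvPolynomial.X x) = v x := fun x => MvPolynomial.eval₂_X _ _ _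
  have hg : ∀ a, g.mapMatrix (genMat A n a) = φ a := by
    intro a
    ext i j
    exact hX _
  have hker : Ideal.span (relSet A n) ≤ RingHom.ker g := by
    rw [Ideal.span_le]
    rintro r (⟨a, b, i, j, rfl⟩ | ⟨i, j, rfl⟩ | ⟨a, ha, rfl⟩)
    · change g _ = 0
      rw [map_sub, sub_eq_zero]
      have e : g ((genMat A n a * genMat A n b) i j) = g.mapMatrix (genMat A n a * genMat A n b) i j := rfl
      have e2 : g (genMat A n (a * b) i j) = g.mapMatrix (genMat A n (a * b)) i j := rfl
      rw [e, e2, map_mul, hg, hg, hg, map_mul]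
    · change g _ = 0
      rw [map_sub, sub_eq_zero]
      have e : g ((1 : Matrix (Fin n) (Fin n) (MvPolynomial (Sg A n) ℤ)) i j)
          = g.mapMatrix (1 : Matrix (Fin n) (Fin n) (MvPolynomial (Sg A n) ℤ)) i j := rfl
      have e2 : g (genMat A n 1 i j) = g.mapMatrix (genMat A n 1) i j := rfl
      rw [e, e2, map_one, hg, map_one]
    · change g _ = 0
      rw [map_sub, map_mul, map_one, sub_eq_zero, RingHom.map_det, hX]
      have e : g.mapMatrix (genMat A n a - 1) = φ a - 1 := by
        rw [map_sub, map_one, hg]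
      rw [e]
      have e3 : v (Sum.inr a) = (((hφ a ha).unit⁻¹ : Eˣ) : E) := by
        simp [v, ha]
      rw [e3]
      exact (hφ a ha).val_inv_mul
  exact ⟨Ideal.Quotient.lift _ g (fun r hr => hker hr)⟩

end Cfsg.Agent.H12.FpfLift
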