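import Mathlib
import Cfsg.Agent.Lib.H12.FpfLift

/-! Lifting fixed-point-free representations from `𝔽_p` to `ℤ/p^(k+1)`. -/

set_option autoImplicit false

namespace Cfsg.Agent.H12.FpfLift

open Matrix

/-- A group with a fixed-point-free representation in characteristic `p` has order prime to `p`. -/
theorem not_dvd_card_of_fpf {A : Type*} [Group A] [Finite A] {p : ℕ} [Fact p.Prime] {n : ℕ}
    (hn : 0 < n) (h : FpfOver A n (ZMod p)) : ¬ p ∣ Nat.card A := by
  intro hdvd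
  obtain ⟨φ, hφ⟩ := h
  obtain ⟨a, ha⟩ := exists_prime_orderOf_dvd_card' p hdvd
  have hp : p.Prime := Fact.out
  have ha1 : a ≠ 1 := by
    intro h1
    rw [h1, orderOf_one] at ha
    exact hp.one_lt.ne ha
  haveI : Nonempty (Fin n) := ⟨⟨0, hn⟩⟩
  have h1 : (φ a - 1) ^ p = 0 := by
    have hc : Commute (φ a) 1 := Commute.one_right _
    have h0 : a ^ p = 1 := ha ▸ pow_orderOf_eq_one a
    rw [sub_pow_char_of_commute p hc, one_pow, ← map_pow, h0, map_one, sub_self]
  have h2 : ((φ a - 1).det) ^ p = 0 := by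
    rw [← Matrix.det_pow, h1, Matrix.det_zero]
  have h3 : (φ a - 1).det = 0 := pow_eq_zero_iff hp.ne_zero |>.mp h2
  exact (hφ a ha1).ne_zero h3

section Lift

variable {p : ℕ} [Fact p.Prime] (k : ℕ)

/-- The reduction map. -/
noncomputable def red : ZMod (p ^ (k + 1)) →+* ZMod p :=
  ZMod.castHom (dvd_pow_self p (Nat.succ_ne_zero k)) (ZMod p)

theorem red_natCast (m : ℕ) : red (p := p) k (m : ZMod (p ^ (k + 1))) = (m : ZMod p) := by
  simp [red]

theorem red_surjective : Function.Surjective (red (p := p) k) := by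
  intro x
  refine ⟨((x.val : ℕ) : ZMod (p ^ (k + 1))), ?_⟩
  rw [red_natCast]
  exact ZMod.natCast_zmod_val x

theorem isUnit_of_red {x : ZMod (p ^ (k + 1))} (h : IsUnit (red (p := p) k x)) : IsUnit x := by
  have hp : p.Prime := Fact.out
  haveI : NeZero (p ^ (k + 1)) := ⟨pow_ne_zero _ hp.ne_zero⟩
  have e : ((x.val : ℕ) : ZMod (p ^ (k + 1))) = x := ZMod.natCast_zmod_val x
  rw [← e, ZMod.isUnit_iff_coprime]
  apply Nat.Coprime.pow_right
  rw [← e, red_natCast] at h
  rw [Nat.coprime_comm, hp.coprime_iff_not_dvd]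
  intro hd
  have : ((x.val : ℕ) : ZMod p) = 0 := (ZMod.natCast_eq_zero_iff _ _).mpr hd
  rw [this] at h
  exact not_isUnit_zero h

theorem exists_eq_p_mul {x : ZMod (p ^ (k + 1))} (h : red (p := p) k x = 0) :
    ∃ y : ZMod (p ^ (k + 1)), x = (p : ZMod (p ^ (k + 1))) * y := by
  have hp : p.Prime := Fact.out
  haveI : NeZero (p ^ (k + 1)) := ⟨pow_ne_zero _ hp.ne_zero⟩
  have e : ((x.val : ℕ) : ZMod (p ^ (k + 1))) = x := ZMod.natCast_zmod_val x
  rw [← e, red_natCast, ZMod.natCast_eq_zero_iff] at h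
  obtain ⟨c, hc⟩ := h
  refine ⟨(c : ZMod (p ^ (k + 1))), ?_⟩
  rw [← e, hc]
  push_cast
  rfl

/-- Matrices congruent to `1` modulo `p` have `p`-power order. -/
theorem pow_eq_one_of_red {n : ℕ} (M : Matrix (Fin n) (Fin n) (ZMod (p ^ (k + 1))))
    (h : (red (p := p) k).mapMatrix M = 1) : M ^ p ^ k = 1 := by
  have hp : p.Prime := Fact.out
  -- write `M = 1 + p W`
  have hentry : ∀ i j, ∃ y, (M - 1) i j = (p : ZMod (p ^ (k + 1))) * y := by
    intro i j
    apply exists_eq_p_mul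
    have h1 : (red (p := p) k).mapMatrix (M - 1) i j = 0 := by
      rw [map_sub, h, map_one, sub_self]; rfl
    exact h1
  choose W hW using hentry
  let W' : Matrix (Fin n) (Fin n) (ZMod (p ^ (k + 1))) := Matrix.of W
  have hcast : ∀ m : ℕ, (m : Matrix (Fin n) (Fin n) (ZMod (p ^ (k + 1))))
      = (m : ZMod (p ^ (k + 1))) • (1 : Matrix (Fin n) (Fin n) (ZMod (p ^ (k + 1)))) := by
    intro m
    rw [← Algebra.algebraMap_eq_smul_one, map_natCast]
  have hM : M = 1 + (p : Matrix (Fin n) (Fin n) (ZMod (p ^ (k + 1)))) * W' := by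
    ext i j
    have h1 := hW i j
    have h2 : ((p : Matrix (Fin n) (Fin n) (ZMod (p ^ (k + 1)))) * W') i j
        = (p : ZMod (p ^ (k + 1))) * W i j := by
      rw [hcast, smul_mul_assoc, one_mul, Matrix.smul_apply]
      rfl
    rw [Matrix.add_apply, h2, ← h1]
    simp
  -- the polynomial identity
  have hdvd : ((p : ℕ) : Polynomial ℤ) ∣ (1 + (p : Polynomial ℤ) * Polynomial.X) - 1 :=
    ⟨Polynomial.X, by ring⟩
  obtain ⟨Q, hQ⟩ := dvd_sub_pow_of_dvd_sub hdvd k
  have h3 := congrArg (Polynomial.aeval W') hQ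
  have hpz : ((p : Matrix (Fin n) (Fin n) (ZMod (p ^ (k + 1))))) ^ (k + 1) = 0 := by
    rw [← Nat.cast_pow, hcast, ZMod.natCast_self, zero_smul]
  simp only [map_sub, map_pow, map_mul, map_add, map_one, Polynomial.aeval_X, map_natCast, one_pow] at h3
  rw [hpz, zero_mul] at h3
  rw [hM]
  exact sub_eq_zero.mp h3

end Lift

/-- Lifting through `ℤ/p^(k+1) → 𝔽_p`. -/
theorem fpf_lift {A : Type*} [Group A] [Finite A] {p : ℕ} [Fact p.Prime] {n : ℕ}
    (hn : 0 < n) (h : FpfOver A n (ZMod p)) (k : ℕ) : FpfOver A n (ZMod (p ^ (k + 1))) := by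
  classical
  have hp : p.Prime := Fact.out
  haveI : NeZero (p ^ (k + 1)) := ⟨pow_ne_zero _ hp.ne_zero⟩
  have hnd := not_dvd_card_of_fpf hn h
  obtain ⟨φ, hφ⟩ := h
  set R := ZMod (p ^ (k + 1)) with hR
  let r : R →+* ZMod p := red (p := p) k
  let rM : Matrix (Fin n) (Fin n) R →+* Matrix (Fin n) (Fin n) (ZMod p) := r.mapMatrix
  let G₁ := (Matrix (Fin n) (Fin n) R)ˣ
  let φ₀ : A →* (Matrix (Fin n) (Fin n) (ZMod p))ˣ := φ.toHomUnits
  let rU : G₁ →* (Matrix (Fin n) (Fin n) (ZMod p))ˣ := Units.map rM.toMonoidHom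
  let f₁ : A × G₁ →* (Matrix (Fin n) (Fin n) (ZMod p))ˣ := φ₀.comp (MonoidHom.fst A G₁)
  let f₂ : A × G₁ →* (Matrix (Fin n) (Fin n) (ZMod p))ˣ := rU.comp (MonoidHom.snd A G₁)
  let Γ : Subgroup (A × G₁) := MonoidHom.eqLocus f₁ f₂
  let π : Γ →* A := (MonoidHom.fst A G₁).comp Γ.subtype
  haveI : Finite G₁ := inferInstance
  haveI : Finite Γ := inferInstance
  have hπ : Function.Surjective π := by
    intro a
    -- lift the matrix `φ a`
    have hlift : ∀ i j, ∃ x : R, r x = φ a i j := fun i j => red_surjective k _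
    choose L hL using hlift
    let L' : Matrix (Fin n) (Fin n) R := Matrix.of L
    have hL' : rM L' = φ a := by
      ext i j
      exact hL i j
    have hdet : IsUnit L'.det := by
      apply isUnit_of_red k
      have h1 : red (p := p) k L'.det = (rM L').det := RingHom.map_det r L'
      rw [h1, hL']
      have h2 : IsUnit (φ a) := (φ₀ a).isUnit
      exact (Matrix.isUnit_iff_isUnit_det _).mp h2
    obtain ⟨g, hg⟩ := (Matrix.isUnit_iff_isUnit_det _).mpr hdet
    refine ⟨⟨(a, g), ?_⟩, rfl⟩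
    apply Units.ext
    change φ a = rM (g : Matrix (Fin n) (Fin n) R)
    rw [hg, hL']
  set N : Subgroup Γ := π.ker with hN
  have hNp : IsPGroup p N := by
    rintro ⟨x, hx⟩
    refine ⟨k, ?_⟩
    apply Subtype.ext
    apply Subtype.ext
    have hx1 : (x : A × G₁).1 = 1 := hx
    have hx2 : rU (x : A × G₁).2 = 1 := by
      have h1 : f₁ (x : A × G₁) = f₂ (x : A × G₁) := x.2
      have h2 : f₁ (x : A × G₁) = 1 := by
        change φ₀ (x : A × G₁).1 = 1
        rw [hx1, map_one]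
      rw [h2] at h1
      exact h1.symm
    have hx3 : (red (p := p) k).mapMatrix (((x : A × G₁).2 : G₁) : Matrix (Fin n) (Fin n) R) = 1 :=
      congrArg Units.val hx2
    have hx4 := pow_eq_one_of_red k _ hx3
    apply Prod.ext
    · change ((x : A × G₁).1) ^ p ^ k = 1
      rw [hx1, one_pow]
    · apply Units.ext
      change (((x : A × G₁).2 : G₁) : Matrix (Fin n) (Fin n) R) ^ p ^ k = 1
      exact hx4
  have hidx : N.index = Nat.card A := by
    rw [hN, Subgroup.index_ker, MonoidHom.range_eq_top.mpr hπ]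
    exact Nat.card_congr Subgroup.topEquiv.toEquiv
  have hcop : Nat.Coprime (Nat.card N) N.index := by
    obtain ⟨j, hj⟩ := (IsPGroup.iff_card).mp hNp
    rw [hj, hidx]
    apply Nat.Coprime.pow_left
    exact (hp.coprime_iff_not_dvd).mpr hnd
  obtain ⟨C, hC⟩ := Subgroup.exists_right_complement'_of_coprime hcop
  have hinj : Function.Injective (π.comp C.subtype) := by
    rw [injective_iff_map_eq_one]
    intro c hc
    have h1 : (c : Γ) ∈ N := hc
    have h2 : (c : Γ) ∈ N ⊓ C := ⟨h1, c.2⟩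
    rw [hC.disjoint.eq_bot] at h2
    exact Subtype.ext (Subgroup.mem_bot.mp h2)
  have hsurj : Function.Surjective (π.comp C.subtype) := by
    intro a
    obtain ⟨x, hx⟩ := hπ a
    obtain ⟨⟨n₁, c⟩, hnc⟩ := hC.2 x
    have hn1 : π (n₁ : Γ) = 1 := n₁.2
    refine ⟨c, ?_⟩
    change π (c : Γ) = a
    have h2 : ((n₁ : Γ) * (c : Γ)) = x := hnc
    rw [← hx, ← h2, map_mul, hn1, one_mul]
  let e : C ≃* A := MulEquiv.ofBijective (π.comp C.subtype) ⟨hinj, hsurj⟩
  let φ₁ : A →* G₁ := ((MonoidHom.snd A G₁).comp Γ.subtype).comp (C.subtype.comp e.symm.toMonoidHom)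
  have hφ₁ : ∀ a, rM (φ₁ a : Matrix (Fin n) (Fin n) R) = φ a := by
    intro a
    let c : Γ := (e.symm a : C)
    have hc1 : π c = a := e.apply_symm_apply a
    have hc2 : f₁ (c : A × G₁) = f₂ (c : A × G₁) := c.2
    have hc3 : (c : A × G₁).1 = a := hc1
    have h4 : φ₀ a = rU (c : A × G₁).2 := by
      rw [← hc3]
      exact hc2
    have h5 := congrArg Units.val h4
    exact h5.symm
  refine ⟨(Units.coeHom _).comp φ₁, fun a ha => ?_⟩
  apply isUnit_of_red k
  have h1 : red (p := p) k (((Units.coeHom _).comp φ₁) a - 1).det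
      = (rM (((Units.coeHom _).comp φ₁) a - 1)).det := RingHom.map_det r _
  rw [h1, map_sub, map_one]
  have h2 : rM (((Units.coeHom _).comp φ₁) a) = φ a := hφ₁ a
  rw [h2]
  exact hφ a ha

/-- Nonzero integers stay nonzero in the universal ring. -/
theorem natCast_ne_zero_UR {A : Type*} [Group A] [Finite A] {p : ℕ} [Fact p.Prime] {n : ℕ}
    (hn : 0 < n) (h : FpfOver A n (ZMod p)) {N : ℕ} (hN : N ≠ 0) : (N : UR A n) ≠ 0 := by
  have hp : p.Prime := Fact.out
  intro h0
  obtain ⟨k, m, hm, rfl⟩ := Nat.exists_eq_pow_mul_and_not_dvd hN p hp.ne_one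
  obtain ⟨f⟩ := exists_hom_of_fpf (fpf_lift hn h k)
  have h1 := congrArg f h0
  rw [map_natCast, map_zero, ZMod.natCast_eq_zero_iff] at h1
  rw [pow_succ] at h1
  have h2 := Nat.dvd_of_mul_dvd_mul_left (pow_pos hp.pos k) h1
  exact hm h2

/-- A ring of finite type over `ℤ` without integer torsion in `1` maps to `ℚ̄`. -/
theorem exists_hom_algClosure (U : Type*) [CommRing U] [Algebra.FiniteType ℤ U]
    (hU : ∀ N : ℕ, N ≠ 0 → (N : U) ≠ 0) : Nonempty (U →+* AlgebraicClosure ℚ) := by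
  classical
  have hloc : IsLocalizedModule (nonZeroDivisors ℤ) (TensorProduct.mk ℤ ℚ U 1) :=
    (isLocalizedModule_iff_isBaseChange (nonZeroDivisors ℤ) ℚ (TensorProduct.mk ℤ ℚ U 1)).mpr
      (TensorProduct.isBaseChange ℤ U ℚ)
  have hne : (TensorProduct.mk ℤ ℚ U 1) (1 : U) ≠ 0 := by
    intro h0
    obtain ⟨s, hs⟩ := (IsLocalizedModule.eq_zero_iff (nonZeroDivisors ℤ)
      (TensorProduct.mk ℤ ℚ U 1)).mp h0
    have hs0 : (s : ℤ) ≠ 0 := nonZeroDivisors.coe_ne_zero s
    have h1 : ((s : ℤ) • (1 : U)) = 0 := hs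
    obtain ⟨N, hN | hN⟩ := Int.eq_nat_or_neg (s : ℤ)
    · have hN0 : N ≠ 0 := by
        rintro rfl
        exact hs0 (by simpa using hN)
      rw [hN] at h1
      exact hU N hN0 (by simpa using h1)
    · have hN0 : N ≠ 0 := by
        rintro rfl
        exact hs0 (by simpa using hN)
      rw [hN] at h1
      exact hU N hN0 (by simpa using h1)
  haveI : Nontrivial (TensorProduct ℤ ℚ U) := by
    by_contra hnt
    rw [not_nontrivial_iff_subsingleton] at hnt
    exact hne (Subsingleton.elim _ _)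
  obtain ⟨m, hm⟩ := Ideal.exists_maximal (TensorProduct ℤ ℚ U)
  letI : Field (TensorProduct ℤ ℚ U ⧸ m) := Ideal.Quotient.field m
  haveI : Algebra.FiniteType ℚ (TensorProduct ℤ ℚ U ⧸ m) :=
    Algebra.FiniteType.of_surjective (Ideal.Quotient.mkₐ ℚ m) (Ideal.Quotient.mkₐ_surjective ℚ m)
  haveI : Module.Finite ℚ (TensorProduct ℤ ℚ U ⧸ m) :=
    finite_of_finite_type_of_isJacobsonRing ℚ (TensorProduct ℤ ℚ U ⧸ m)
  haveI : Algebra.IsAlgebraic ℚ (TensorProduct ℤ ℚ U ⧸ m) := inferInstance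
  let ι : (TensorProduct ℤ ℚ U ⧸ m) →ₐ[ℚ] AlgebraicClosure ℚ := IsAlgClosed.lift
  exact ⟨(ι : (TensorProduct ℤ ℚ U ⧸ m) →+* AlgebraicClosure ℚ).comp
      ((Ideal.Quotient.mk m).comp
        (Algebra.TensorProduct.includeRight : U →ₐ[ℤ] TensorProduct ℤ ℚ U).toRingHom)⟩

/-- A fixed-point-free representation in characteristic `p` gives one over `ℚ̄`. -/
theorem fpf_algClosure {A : Type*} [Group A] [Finite A] {p : ℕ} [Fact p.Prime] {n : ℕ}
    (hn : 0 < n) (h : FpfOver A n (ZMod p)) : FpfOver A n (AlgebraicClosure ℚ) := by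
  haveI : @Algebra.FiniteType ℤ (UR A n) _ _ (Ring.toIntAlgebra _) := by
    have e : (Ring.toIntAlgebra (UR A n)) = Ideal.Quotient.algebra ℤ := Subsingleton.elim _ _
    rw [e]
    exact finiteType_UR A n
  obtain ⟨f⟩ := exists_hom_algClosure (UR A n) (fun _ hN => natCast_ne_zero_UR hn h hN)
  exact FpfOver.map f (fpfOver_UR A n)

end Cfsg.Agent.H12.FpfLift
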