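import Cfsg.Agent.Lib.H12.Strong
import Cfsg.Agent.Lib.H15.Cyc2
import Cfsg.Agent.Lib.H01.Coprime
import Cfsg.Prelude.Def_LocalEven

/-!
Dihedral sections: `D_{2p}` is involved in `G` iff a `2`-element inverts a `p`-element.
-/

set_option autoImplicit false

namespace Cfsg.Agent.H12

open Cfsg Cfsg.Agent.H13

variable {G : Type*} [Group G] [Finite G] {p : ℕ} [Fact p.Prime]

/-- (ii) ⇒ (iii) -/
theorem exists_invert_of_normalizes {x : G} {P : Subgroup G} (hx : ∃ k : ℕ, orderOf x = 2 ^ k)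
    (hP : IsPGroup p P) (hxN : x ∈ Subgroup.normalizer (P : Set G))
    (hxC : x ∉ Subgroup.centralizer (P : Set G)) :
    ∃ x' y : G, (∃ k : ℕ, orderOf x' = 2 ^ k) ∧ (∃ k : ℕ, orderOf y = p ^ k) ∧ y ≠ 1 ∧
      x' * y * x'⁻¹ = y⁻¹ := by
  classical
  obtain ⟨k, hk⟩ := hx
  have hex : ∃ t : ℕ, x ^ (2 ^ t) ∈ Subgroup.centralizer (P : Set G) :=
    ⟨k, by rw [← hk, pow_orderOf_eq_one]; exact Subgroup.one_mem _⟩
  have ht0 : Nat.find hex ≠ 0 := by
    intro h0
    have := Nat.find_spec hex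
    rw [h0] at this
    simp only [pow_zero, pow_one] at this
    exact hxC this
  obtain ⟨s, hs⟩ := Nat.exists_eq_succ_of_ne_zero ht0
  have hs1 : x ^ (2 ^ s) ∉ Subgroup.centralizer (P : Set G) := Nat.find_min hex (by omega)
  have hs2 : x ^ (2 ^ (s + 1)) ∈ Subgroup.centralizer (P : Set G) := by
    have := Nat.find_spec hex
    rwa [hs] at this
  set x' := x ^ (2 ^ s) with hx'
  have hx'N : x' ∈ Subgroup.normalizer (P : Set G) := Subgroup.pow_mem _ hxN _
  have hx'2 : x' * x' ∈ Subgroup.centralizer (P : Set G) := by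
    have : x' * x' = x ^ (2 ^ (s + 1)) := by
      rw [hx', ← pow_add]; congr 1; ring
    rwa [this]
  rw [Subgroup.mem_centralizer_iff] at hs1
  push_neg at hs1
  obtain ⟨u, hu, hne⟩ := hs1
  have huP : u ∈ P := hu
  set v := x' * u * x'⁻¹ with hv
  have hvP : v ∈ P := (Subgroup.mem_normalizer_iff.1 hx'N u).1 huP
  refine ⟨x', u⁻¹ * v, ?_, ?_, ?_, ?_⟩
  · have h1 : orderOf x' ∣ 2 ^ k := hk ▸ orderOf_pow_dvd _
    obtain ⟨j, -, hj⟩ := (Nat.dvd_prime_pow Nat.prime_two).1 h1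
    exact ⟨j, hj⟩
  · obtain ⟨j, hj⟩ := (IsPGroup.iff_orderOf.1 hP) ⟨u⁻¹ * v, P.mul_mem (P.inv_mem huP) hvP⟩
    rw [Subgroup.orderOf_mk] at hj
    exact ⟨j, hj⟩
  · intro h1
    apply hne
    have h2 : u = v := inv_mul_eq_one.1 h1
    rw [hv] at h2
    have h3 : u * x' = x' * u * x'⁻¹ * x' := by rw [← h2]
    rw [h3]; group
  · have h4 : u * (x' * x') = (x' * x') * u := (Subgroup.mem_centralizer_iff.1 hx'2) u hu
    have h5 : x' * u * x'⁻¹ * x'⁻¹ = x'⁻¹ * u := by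
      have h6 : x' * u * x'⁻¹ * x'⁻¹ = x'⁻¹ * ((x' * x') * u) * x'⁻¹ * x'⁻¹ := by group
      rw [h6, ← h4]; group
    rw [mul_inv_rev, inv_inv]
    rw [hv] at *
    calc x' * (u⁻¹ * (x' * u * x'⁻¹)) * x'⁻¹ = x' * u⁻¹ * (x' * u * x'⁻¹ * x'⁻¹) := by group
      _ = x' * u⁻¹ * (x'⁻¹ * u) := by rw [h5]
      _ = (x' * u * x'⁻¹)⁻¹ * u := by group

/-- (iii) ⇒ (i) -/
theorem involves_dihedral_of_invert (hp : p ≠ 2) {x y : G} (hx : ∃ k : ℕ, orderOf x = 2 ^ k)
    (hy : ∃ k : ℕ, orderOf y = p ^ k) (hy1 : y ≠ 1) (hxy : x * y * x⁻¹ = y⁻¹) :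
    Involves (DihedralGroup p) G := by
  classical
  have hpp : p.Prime := Fact.out
  obtain ⟨k, hk⟩ := hx
  obtain ⟨m, hm⟩ := hy
  have hm0 : m ≠ 0 := by
    rintro rfl
    rw [pow_zero] at hm
    exact hy1 (orderOf_eq_one_iff.1 hm)
  -- an element of order p
  set a := y ^ (orderOf y / p) with ha
  have haord : orderOf a = p := orderOf_pow_orderOf_div (by rw [hm]; exact pow_ne_zero _ hpp.ne_zero)
    (by rw [hm]; exact dvd_pow_self p hm0)
  have hax : x * a * x⁻¹ = a⁻¹ := by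
    rw [ha, ← conj_pow, hxy, inv_pow]
  have hane : a⁻¹ ≠ a := by
    intro h
    have h1 : a ^ 2 = 1 := by
      rw [sq]; nth_rewrite 1 [← h]; simp
    have h2 := orderOf_dvd_of_pow_eq_one h1
    rw [haord] at h2
    exact hp ((Nat.prime_dvd_prime_iff_eq hpp Nat.prime_two).1 h2)
  have hx1 : x ≠ 1 := by
    rintro rfl
    apply hane
    rw [← hax]; simp
  have hk0 : k ≠ 0 := by
    rintro rfl
    rw [pow_zero] at hk
    exact hx1 (orderOf_eq_one_iff.1 hk)
  obtain ⟨k', rfl⟩ := Nat.exists_eq_succ_of_ne_zero hk0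
  have hx2ord : orderOf (x ^ 2) = 2 ^ k' := by
    rw [orderOf_pow' _ (by norm_num), hk]
    have : Nat.gcd (2 ^ (k' + 1)) 2 = 2 :=
      Nat.gcd_eq_right (dvd_pow_self 2 (by omega))
    rw [this, pow_succ]
    simp
  set A := Subgroup.zpowers a with hA
  set X := Subgroup.zpowers x with hX
  have hAcard : Nat.card A = p := by rw [hA, Nat.card_zpowers, haord]
  have hXcard : Nat.card X = 2 ^ (k' + 1) := by rw [hX, Nat.card_zpowers, hk]
  have hcop : (Nat.card A).Coprime (Nat.card X) := by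
    rw [hAcard, hXcard]
    exact Nat.Coprime.pow_right _ ((Nat.coprime_primes hpp Nat.prime_two).2 hp)
  have hdis : Disjoint A X := Subgroup.disjoint_of_coprime_natCard hcop
  have hxN : X ≤ Subgroup.normalizer (A : Set G) := by
    rw [hX, Subgroup.zpowers_le]
    apply mem_normalizer_of_map_conj_le
    rintro _ ⟨u, hu, rfl⟩
    obtain ⟨i, rfl⟩ := hu
    change x * a ^ i * x⁻¹ ∈ A
    rw [← conj_zpow, hax]
    exact Subgroup.zpow_mem _ (Subgroup.inv_mem _ (Subgroup.mem_zpowers a)) _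
  have hKcard : Nat.card (A ⊔ X : Subgroup G) = p * 2 ^ (k' + 1) := by
    rw [← H01.card_sup_of_le_normalizer hxN hcop, hAcard, hXcard]
  set K : Subgroup G := A ⊔ X with hK
  set R := Subgroup.zpowers (x ^ 2) with hR
  have hRX : R ≤ X := by
    rw [hR, Subgroup.zpowers_le]
    exact Subgroup.pow_mem _ (Subgroup.mem_zpowers x) _
  have hRK : R ≤ K := hRX.trans le_sup_right
  have hax2 : x ^ 2 * a = a * x ^ 2 := by
    have h1 : x * a = a⁻¹ * x := by rw [← hax]; group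
    have h2 : x * a⁻¹ = a * x := by
      have h3 : x * a⁻¹ * x⁻¹ = a := by
        have : x * a⁻¹ * x⁻¹ = (x * a * x⁻¹)⁻¹ := by group
        rw [this, hax, inv_inv]
      have h4 : x * a⁻¹ = (x * a⁻¹ * x⁻¹) * x := by group
      rw [h4, h3]
    rw [sq, mul_assoc, h1, ← mul_assoc, h2, mul_assoc]
  have hx2c : ∀ g : G, g * x ^ 2 = x ^ 2 * g → g ∈ Subgroup.normalizer (R : Set G) := by
    intro g hg
    apply mem_normalizer_of_map_conj_le
    rintro _ ⟨u, ⟨i, rfl⟩, rfl⟩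
    change g * (x ^ 2) ^ i * g⁻¹ ∈ R
    rw [← conj_zpow]
    have : g * x ^ 2 * g⁻¹ = x ^ 2 := by rw [hg]; group
    rw [this]
    exact Subgroup.zpow_mem _ (Subgroup.mem_zpowers _) _
  have hRN : K ≤ Subgroup.normalizer (R : Set G) := by
    refine sup_le ?_ ?_
    · rw [hA, Subgroup.zpowers_le]
      exact hx2c a hax2.symm
    · rw [hX, Subgroup.zpowers_le]
      exact hx2c x (by rw [sq]; group)
  haveI hRn : (R.subgroupOf K).Normal := (Subgroup.normal_subgroupOf_iff_le_normalizer hRK).2 hRN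
  have hS : Nat.card (K ⧸ R.subgroupOf K) = 2 * p := by
    have h1 := Subgroup.card_eq_card_quotient_mul_card_subgroup (R.subgroupOf K)
    have h2 : Nat.card (R.subgroupOf K) = 2 ^ k' := by
      rw [Nat.card_congr (Subgroup.subgroupOfEquivOfLe hRK).toEquiv, hR, Nat.card_zpowers, hx2ord]
    rw [h2, hKcard] at h1
    have h3 : 2 * p * 2 ^ k' = Nat.card (K ⧸ R.subgroupOf K) * 2 ^ k' := by
      rw [← h1]; ring
    exact (Nat.eq_of_mul_eq_mul_right (by positivity) h3).symm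
  let aK : K := ⟨a, (le_sup_left : A ≤ K) (Subgroup.mem_zpowers a)⟩
  let xK : K := ⟨x, (le_sup_right : X ≤ K) (Subgroup.mem_zpowers x)⟩
  let φ := QuotientGroup.mk' (R.subgroupOf K)
  have hker : ∀ u : K, φ u = 1 ↔ (u : G) ∈ R := by
    intro u
    rw [← MonoidHom.mem_ker, QuotientGroup.ker_mk', Subgroup.mem_subgroupOf]
  have hord : orderOf (φ aK) = p := by
    refine orderOf_eq_prime ?_ ?_
    · rw [← map_pow]
      have : aK ^ p = 1 := Subtype.ext (by
        change a ^ p = 1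
        rw [← haord]; exact pow_orderOf_eq_one a)
      rw [this, map_one]
    · rw [Ne, hker]
      intro h
      have h1 : a ∈ A ⊓ X := ⟨Subgroup.mem_zpowers a, hRX h⟩
      rw [hdis.eq_bot, Subgroup.mem_bot] at h1
      rw [h1, orderOf_one] at haord
      exact hpp.one_lt.ne haord
  have hxx : φ xK * φ xK = 1 := by
    rw [← map_mul, hker]
    change x * x ∈ R
    rw [← sq]
    exact Subgroup.mem_zpowers _
  have hrel : φ xK * φ aK * (φ xK)⁻¹ = (φ aK)⁻¹ := by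
    have : xK * aK * xK⁻¹ = aK⁻¹ := Subtype.ext hax
    rw [← map_mul, ← map_inv, ← map_mul, ← map_inv, this]
  have hmem : φ xK ∉ Subgroup.zpowers (φ aK) := by
    rintro ⟨i, hi⟩
    have h1 : φ ((aK ^ i)⁻¹ * xK) = 1 := by
      rw [map_mul, map_inv, map_zpow]
      change (φ aK ^ i)⁻¹ * φ xK = 1
      rw [← hi]; simp
    rw [hker] at h1
    have h2 : ((aK ^ i)⁻¹ * xK : K).1 = (a ^ i)⁻¹ * x := rfl
    rw [h2] at h1
    have h3 : (a ^ i)⁻¹ ∈ X := by
      have := X.mul_mem (hRX h1) (X.inv_mem (Subgroup.mem_zpowers x))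
      simpa using this
    have h4 : (a ^ i)⁻¹ ∈ A ⊓ X :=
      ⟨A.inv_mem (Subgroup.zpow_mem _ (Subgroup.mem_zpowers a) _), h3⟩
    rw [hdis.eq_bot, Subgroup.mem_bot] at h4
    rw [h4, one_mul] at h1
    have h5 := orderOf_dvd_of_mem_zpowers h1
    rw [hk, hx2ord] at h5
    have h6 := (Nat.pow_dvd_pow_iff_le_right (by norm_num : 1 < 2)).1 h5
    omega
  exact ⟨K, R, hRn, H15.dihedral_of (φ aK) (φ xK) p hpp.ne_zero hord hxx hrel hS hmem⟩

/-- The subgroup of rotations in a dihedral group. -/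
def rotSub (n : ℕ) : Subgroup (DihedralGroup n) where
  carrier := {g | ∃ i, g = DihedralGroup.r i}
  mul_mem' := by
    rintro _ _ ⟨i, rfl⟩ ⟨j, rfl⟩
    exact ⟨i + j, by simp⟩
  one_mem' := ⟨0, rfl⟩
  inv_mem' := by
    rintro _ ⟨i, rfl⟩
    exact ⟨-i, by simp⟩

lemma rotSub_isPGroup : IsPGroup p (rotSub p) := by
  rintro ⟨_, i, rfl⟩
  refine ⟨1, Subtype.ext ?_⟩
  change (DihedralGroup.r i : DihedralGroup p) ^ (p ^ 1) = 1
  rw [DihedralGroup.r_pow, pow_one, DihedralGroup.one_def]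
  congr 1
  simp

/-- (i) ⇒ (ii) -/
theorem normalizes_of_involves_dihedral (hp : p ≠ 2) (h : Involves (DihedralGroup p) G) :
    ∃ (x : G) (P : Subgroup G), (∃ k : ℕ, orderOf x = 2 ^ k) ∧ IsPGroup p ↥P ∧
      x ∈ Subgroup.normalizer (P : Set G) ∧ x ∉ Subgroup.centralizer (P : Set G) := by
  classical
  have hpp : p.Prime := Fact.out
  haveI : NeZero p := ⟨hpp.ne_zero⟩
  obtain ⟨K, R, hn, ⟨e⟩⟩ := h
  let π : K →* DihedralGroup p := e.toMonoidHom.comp (QuotientGroup.mk' (R.subgroupOf K))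
  have hπ : Function.Surjective π :=
    e.surjective.comp (QuotientGroup.mk'_surjective _)
  let L : Subgroup K := (rotSub p).comap π
  -- surjection of L onto rotations
  let f : L →* rotSub p := (π.comp L.subtype).codRestrict (rotSub p) (fun u => u.2)
  have hf : Function.Surjective f := by
    rintro ⟨u, hu⟩
    obtain ⟨w, rfl⟩ := hπ u
    exact ⟨⟨w, hu⟩, rfl⟩
  obtain ⟨S⟩ : Nonempty (Sylow p L) := inferInstance
  have hS := (S.mapSurjective hf).is_maximal' (Q := ⊤) (rotSub_isPGroup.to_subgroup _) le_top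
  have h1 : ∃ s ∈ (S : Subgroup L), f s = ⟨DihedralGroup.r 1, ⟨1, rfl⟩⟩ := by
    have h2 : (⟨DihedralGroup.r 1, ⟨1, rfl⟩⟩ : rotSub p) ∈ (⊤ : Subgroup (rotSub p)) := trivial
    rw [hS] at h2
    exact h2
  obtain ⟨s, hsS, hs⟩ := h1
  have hsπ : π s.1 = DihedralGroup.r 1 := congrArg Subtype.val hs
  obtain ⟨g₀, hg₀⟩ := hπ (DihedralGroup.sr 0)
  have hconj : ∀ (g u : DihedralGroup p), u ∈ rotSub p → g * u * g⁻¹ ∈ rotSub p := by
    rintro g _ ⟨i, rfl⟩
    cases g with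
    | r j => exact ⟨i, by simp⟩
    | sr j => exact ⟨-i, by simp⟩
  have hLn : ∀ g : K, g ∈ Subgroup.normalizer (L : Set K) := by
    intro g
    apply mem_normalizer_of_map_conj_le
    rintro _ ⟨u, hu, rfl⟩
    change π (g * u * g⁻¹) ∈ rotSub p
    rw [map_mul, map_mul, map_inv]
    exact hconj _ _ hu
  let A : Subgroup K := (S : Subgroup L).map L.subtype
  have hAL : A ≤ L := Subgroup.map_subtype_le _
  have hAp : IsPGroup p A := S.2.map _
  have hmax : ∀ B : Subgroup K, B ≤ L → IsPGroup p B → A ≤ B → B = A := by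
    intro B hBL hB hAB
    have h2 := S.is_maximal' (Q := B.subgroupOf L)
      (hB.comap_of_injective L.subtype L.subtype_injective) (by
        intro u hu
        rw [Subgroup.mem_subgroupOf]
        exact hAB ⟨u, hu, rfl⟩)
    refine le_antisymm ?_ hAB
    intro b hb
    have h3 : (⟨b, hBL hb⟩ : L) ∈ B.subgroupOf L := by
      rw [Subgroup.mem_subgroupOf]; exact hb
    rw [h2] at h3
    exact ⟨_, h3, rfl⟩
  obtain ⟨l, hl, hm⟩ := frattini_of_maximal hAL hAp hmax (hLn g₀)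
  set m := l⁻¹ * g₀ with hmdef
  obtain ⟨i, hi⟩ : ∃ i, π l = DihedralGroup.r i := hl
  have hπm : π m = DihedralGroup.sr i := by
    rw [hmdef, map_mul, map_inv, hi, hg₀, DihedralGroup.inv_r, DihedralGroup.r_mul_sr]
    congr 1
    ring
  obtain ⟨a, b, hb, hab⟩ := Nat.exists_eq_two_pow_mul_odd (orderOf_ne_zero_iff.2 (isOfFinOrder_of_finite m))
  have hb0 : b ≠ 0 := hb.pos.ne'
  have hud : orderOf (m ^ b) = 2 ^ a := by
    rw [orderOf_pow_of_dvd hb0 (by rw [hab]; exact Dvd.intro_left _ rfl), hab]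
    exact Nat.mul_div_cancel _ hb.pos
  have hπu : π (m ^ b) = DihedralGroup.sr i := by
    obtain ⟨c, rfl⟩ := hb
    rw [map_pow, hπm, pow_succ, pow_mul, sq, DihedralGroup.sr_mul_self]
    simp
  have hun : m ^ b ∈ Subgroup.normalizer (A : Set K) := Subgroup.pow_mem _ hm _
  refine ⟨((m ^ b : K) : G), A.map K.subtype, ⟨a, ?_⟩, hAp.map _, ?_, ?_⟩
  · rw [Subgroup.orderOf_coe, hud]
  · apply mem_normalizer_of_map_conj_le
    rintro _ ⟨_, ⟨v, hv, rfl⟩, rfl⟩
    exact ⟨(m ^ b) * v * (m ^ b)⁻¹, (Subgroup.mem_normalizer_iff.1 hun v).1 hv, rfl⟩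
  · intro hC
    have h2 : ((s : K) : G) ∈ A.map K.subtype := ⟨s, ⟨s, hsS, rfl⟩, rfl⟩
    have h3 := (Subgroup.mem_centralizer_iff.1 hC) _ h2
    have h4 : (s : K) * m ^ b = m ^ b * (s : K) := Subtype.ext h3
    have h5 := congrArg π h4
    rw [map_mul, map_mul, hsπ, hπu, DihedralGroup.r_mul_sr, DihedralGroup.sr_mul_r,
      DihedralGroup.sr.injEq] at h5
    have h6 : (2 : ZMod p) = 0 := by
      have : i + 1 - (i - 1) = 0 := by rw [← h5]; ring
      rw [← this]; ring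
    have h7 : ((2 : ℕ) : ZMod p) = 0 := by exact_mod_cast h6
    rw [ZMod.natCast_eq_zero_iff] at h7
    exact hp ((Nat.prime_dvd_prime_iff_eq hpp Nat.prime_two).1 h7)

end Cfsg.Agent.H12
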