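import Mathlib

/-!
# Semilinear maps over algebraically closed fields of characteristic `p`: a basis of fixed vectors
(Lang's theorem for `GL_n`)
-/

set_option autoImplicit false
set_option linter.unusedSectionVars false

namespace Cfsg.Agent.H12.Lang

open Polynomial

variable {K V : Type*} [Field K] [IsAlgClosed K] [AddCommGroup V] [Module K V]

section poly

/-- the recursively defined additive polynomials. -/
noncomputable def A (q : ℕ) (c : ℕ → K) : ℕ → K[X]
  | 0 => C (c 0) * X ^ q
  | (j + 1) => (A q c j) ^ q + C (c (j + 1)) * X ^ q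

theorem A_natDegree (q : ℕ) (hq : 2 ≤ q) (c : ℕ → K) (h0 : c 0 ≠ 0) (j : ℕ) :
    q ≤ (A q c j).natDegree := by
  induction j with
  | zero =>
    simp only [A]
    rw [natDegree_C_mul_X_pow _ _ h0]
  | succ j ih =>
    simp only [A]
    have h1 : (C (c (j + 1)) * X ^ q : K[X]).natDegree ≤ q := natDegree_C_mul_X_pow_le _ _
    have h2 : ((A q c j) ^ q).natDegree = q * (A q c j).natDegree := natDegree_pow _ _
    have h3 : q < q * (A q c j).natDegree := by nlinarith
    rw [natDegree_add_eq_left_of_natDegree_lt (by omega), h2]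
    nlinarith

theorem A_derivative (q : ℕ) (hqK : (q : K) = 0) (c : ℕ → K) (j : ℕ) :
    derivative (A q c j) = 0 := by
  have hq' : (C (q : K) : K[X]) = 0 := by rw [hqK, C_0]
  cases j with
  | zero =>
    simp only [A]
    rw [derivative_C_mul, derivative_X_pow, hq']
    simp
  | succ j =>
    simp only [A]
    rw [derivative_add, derivative_C_mul, derivative_X_pow, derivative_pow, hq']
    simp

theorem A_eval_zero (q : ℕ) (hq : 2 ≤ q) (c : ℕ → K) (j : ℕ) : (A q c j).eval 0 = 0 := by
  have hq0 : q ≠ 0 := by omega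
  induction j with
  | zero => simp [A, hq0]
  | succ j ih => simp [A, ih, hq0]

/-- a nonzero root of `A_s - X`. -/
theorem exists_root (q : ℕ) (hq : 2 ≤ q) (hqK : (q : K) = 0) (c : ℕ → K) (h0 : c 0 ≠ 0) (s : ℕ) :
    ∃ t : K, t ≠ 0 ∧ (A q c s).eval t = t := by
  set P : K[X] := A q c s - X with hP
  have hdeg := A_natDegree q hq c h0 s
  have hPdeg : P.natDegree = (A q c s).natDegree := by
    rw [hP]
    apply natDegree_sub_eq_left_of_natDegree_lt
    rw [natDegree_X]
    omega
  have hP0 : P.eval 0 = 0 := by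
    simp [hP, A_eval_zero q hq]
  have hdvd : (X : K[X]) ∣ P := by
    rw [X_dvd_iff, coeff_zero_eq_eval_zero, hP0]
  obtain ⟨R, hR⟩ := hdvd
  have hPne : P ≠ 0 := by
    intro h
    rw [h, natDegree_zero] at hPdeg
    omega
  have hRne : R ≠ 0 := by
    rintro rfl
    apply hPne
    rw [hR, mul_zero]
  have hRdeg : R.natDegree + 1 = P.natDegree := by
    rw [hR, natDegree_X_mul hRne]
  have hRdeg' : R.degree ≠ 0 := by
    intro h
    have : R.natDegree = 0 := natDegree_eq_of_degree_eq_some h
    omega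
  obtain ⟨t, ht⟩ := IsAlgClosed.exists_root R hRdeg'
  have hder : derivative P = -1 := by
    rw [hP, derivative_sub, A_derivative q hqK, derivative_X]
    simp
  refine ⟨t, ?_, ?_⟩
  · rintro rfl
    have h1 : derivative P = R + X * derivative R := by
      rw [hR, derivative_mul, derivative_X, one_mul]
    have h2 : (derivative P).eval 0 = 0 := by
      rw [h1]
      simp [ht.eq_zero]
    rw [hder] at h2
    simp at h2
  · have h3 : P.eval t = 0 := by
      rw [hR, eval_mul, ht.eq_zero, mul_zero]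
    rw [hP, eval_sub, eval_X, sub_eq_zero] at h3
    exact h3

end poly

section semilinear

variable (φ : V →+ V) (q : ℕ)

/-- the chain `W + ⟨b_i : i < k⟩`. -/
def T (W : Submodule K V) (v : V) : ℕ → Submodule K V
  | 0 => W
  | (k + 1) => T W v k ⊔ Submodule.span K {φ^[k] v}

theorem T_mono (W : Submodule K V) (v : V) : Monotone (T φ W v) :=
  monotone_nat_of_le_succ (fun k => le_sup_left)

theorem mem_T_iff (W : Submodule K V) (v : V) (k : ℕ) (x : V) :
    x ∈ T φ W v k ↔ ∃ w ∈ W, ∃ c : ℕ → K, x = w + ∑ i ∈ Finset.range k, c i • φ^[i] v := by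
  classical
  induction k generalizing x with
  | zero => simp [T]
  | succ k ih =>
    simp only [T]
    rw [Submodule.mem_sup]
    constructor
    · rintro ⟨y, hy, z, hz, rfl⟩
      obtain ⟨w, hw, c, rfl⟩ := (ih y).1 hy
      obtain ⟨d, rfl⟩ := Submodule.mem_span_singleton.1 hz
      refine ⟨w, hw, Function.update c k d, ?_⟩
      rw [Finset.sum_range_succ, Function.update_self, add_assoc]
      congr 2
      apply Finset.sum_congr rfl
      intro i hi
      rw [Function.update_of_ne (Finset.mem_range.1 hi).ne]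
    · rintro ⟨w, hw, c, rfl⟩
      refine ⟨w + ∑ i ∈ Finset.range k, c i • φ^[i] v, (ih _).2 ⟨w, hw, c, rfl⟩, c k • φ^[k] v,
        Submodule.smul_mem _ _ (Submodule.mem_span_singleton_self _), ?_⟩
      rw [Finset.sum_range_succ, add_assoc]

variable [FiniteDimensional K V]

/-- Lemma R: relative existence of a fixed vector. -/
theorem exists_fixed_mod (hq : 2 ≤ q) (hqK : (q : K) = 0) (hφ : ∀ (c : K) (v : V), φ (c • v) = c ^ q • φ v)
    (W : Submodule K V) (hW : W ≠ ⊤) (hW1 : ∀ x, φ x ∈ W → x ∈ W) :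
    ∃ u, u ∉ W ∧ φ u - u ∈ W := by
  classical
  obtain ⟨v, hv⟩ : ∃ v, v ∉ W := by
    by_contra h
    push Not at h
    exact hW (eq_top_iff.2 fun x _ => h x)
  have hqpos : q ≠ 0 := by omega
  have hex : ∃ r, φ^[r] v ∈ T φ W v r := by
    have hst := (monotone_stabilizes_iff_noetherian (R := K) (M := V)).2 inferInstance
      ⟨T φ W v, T_mono φ W v⟩
    obtain ⟨n, hn⟩ := hst
    refine ⟨n, ?_⟩
    have h1 : T φ W v n = T φ W v (n + 1) := hn (n + 1) (Nat.le_succ n)
    rw [h1]
    exact Submodule.mem_sup_right (Submodule.mem_span_singleton_self _)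
  set r := Nat.find hex with hr
  have hrspec := Nat.find_spec hex
  have hrmin : ∀ k < r, φ^[k] v ∉ T φ W v k := fun k hk => Nat.find_min hex hk
  rw [← hr] at hrspec
  have hr0 : r ≠ 0 := by
    intro h0
    rw [h0] at hrspec
    exact hv hrspec
  obtain ⟨s, hs⟩ := Nat.exists_eq_succ_of_ne_zero hr0
  have hb : ∀ i, φ^[i + 1] v = φ (φ^[i] v) := fun i => Function.iterate_succ_apply' _ _ _
  obtain ⟨w₀, hw₀, c, hc⟩ := (mem_T_iff φ W v r _).1 hrspec
  rw [hs] at hc
  have hsmin := hrmin s (by omega)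
  have hφsum : ∀ (d : ℕ → K) (m : ℕ),
      φ (∑ i ∈ Finset.range m, d i • φ^[i] v) = ∑ i ∈ Finset.range m, (d i) ^ q • φ^[i + 1] v := by
    intro d m
    rw [map_sum]
    apply Finset.sum_congr rfl
    intro i _
    rw [hφ, hb]
  -- `c 0 ≠ 0`
  have hc0 : c 0 ≠ 0 := by
    intro h0
    apply hsmin
    choose d hd using fun i => IsAlgClosed.exists_pow_nat_eq (c (i + 1)) (Nat.pos_of_ne_zero hqpos)
    set z := φ^[s] v - ∑ i ∈ Finset.range s, d i • φ^[i] v with hz
    have hφz : φ z = w₀ := by
      rw [hz, map_sub, hφsum, ← hb, hc, Finset.sum_range_succ']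
      simp only [h0, zero_smul, add_zero, hd, Function.iterate_succ_apply']
      abel
    have hzW : z ∈ W := hW1 z (by rw [hφz]; exact hw₀)
    rw [mem_T_iff]
    exact ⟨z, hzW, d, by rw [hz]; abel⟩
  obtain ⟨t, ht0, ht⟩ := exists_root q hq hqK c hc0 s
  set a : ℕ → K := fun j => (A q c j).eval t with ha
  have ha0 : a 0 = c 0 * t ^ q := by simp [ha, A]
  have has : ∀ j, a (j + 1) = a j ^ q + c (j + 1) * t ^ q := by
    intro j
    simp [ha, A]
  have hat : a s = t := ht
  refine ⟨∑ j ∈ Finset.range (s + 1), a j • φ^[j] v, ?_, ?_⟩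
  · intro hu
    apply hsmin
    rw [mem_T_iff]
    refine ⟨t⁻¹ • (∑ j ∈ Finset.range (s + 1), a j • φ^[j] v), Submodule.smul_mem _ _ hu,
      fun j => - (t⁻¹ * a j), ?_⟩
    rw [Finset.sum_range_succ, hat, smul_add, smul_smul, inv_mul_cancel₀ ht0, one_smul, Finset.smul_sum]
    simp only [smul_smul, neg_smul, Finset.sum_neg_distrib]
    abel
  · have key : φ (∑ j ∈ Finset.range (s + 1), a j • φ^[j] v) - ∑ j ∈ Finset.range (s + 1), a j • φ^[j] v
        = t ^ q • w₀ := by
      rw [hφsum, Finset.sum_range_succ, hat, hc, smul_add, Finset.smul_sum,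
        Finset.sum_range_succ' (fun i => t ^ q • c i • φ^[i] v),
        Finset.sum_range_succ' (fun j => a j • φ^[j] v)]
      simp only [ha0, has, add_smul, smul_smul, Function.iterate_zero, id_eq, Finset.sum_add_distrib]
      have e : ∀ i, t ^ q * c (i + 1) = c (i + 1) * t ^ q := fun i => mul_comm _ _
      simp only [e, mul_comm (t ^ q) (c 0)]
      abel
    rw [key]
    exact Submodule.smul_mem _ _ hw₀

/-- `V` is spanned by fixed vectors. -/
theorem span_fixed_eq_top (hq : 2 ≤ q) (hqK : (q : K) = 0) (hφ : ∀ (c : K) (v : V), φ (c • v) = c ^ q • φ v)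
    (hinj : Function.Injective φ) : Submodule.span K {v : V | φ v = v} = ⊤ := by
  classical
  set W := Submodule.span K {v : V | φ v = v} with hW
  have hqpos : 0 < q := by omega
  have hsurj1 : ∀ y ∈ W, ∃ z ∈ W, φ z = y := by
    intro y hy
    induction hy using Submodule.span_induction with
    | mem x hx => exact ⟨x, Submodule.subset_span hx, hx⟩
    | zero => exact ⟨0, W.zero_mem, map_zero φ⟩
    | add x y _ _ hx hy =>
      obtain ⟨a, ha, rfl⟩ := hx
      obtain ⟨b, hb, rfl⟩ := hy
      exact ⟨a + b, W.add_mem ha hb, map_add φ a b⟩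
    | smul c x _ hx =>
      obtain ⟨a, ha, rfl⟩ := hx
      obtain ⟨d, hd⟩ := IsAlgClosed.exists_pow_nat_eq c hqpos
      exact ⟨d • a, W.smul_mem _ ha, by rw [hφ, hd]⟩
  have hroot : ∀ c : K, ∃ s : K, s ^ q - s = c := by
    intro c
    have hdeg : (X ^ q - X - C c : K[X]).natDegree = q := by
      rw [sub_sub, natDegree_sub_eq_left_of_natDegree_lt, natDegree_X_pow]
      rw [natDegree_X_pow]
      refine lt_of_le_of_lt (natDegree_add_le _ _) ?_
      simp only [natDegree_X, natDegree_C]
      omega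
    obtain ⟨s, hs⟩ := IsAlgClosed.exists_root (X ^ q - X - C c : K[X]) (by
      intro h
      have : (X ^ q - X - C c : K[X]).natDegree = 0 := natDegree_eq_of_degree_eq_some h
      omega)
    refine ⟨s, ?_⟩
    simp only [IsRoot.def, eval_sub, eval_pow, eval_X, eval_C] at hs
    exact sub_eq_zero.1 hs
  have hsurj3 : ∀ y ∈ W, ∀ c : K, ∃ z ∈ W, φ z - z = c • y := by
    intro y hy
    induction hy using Submodule.span_induction with
    | mem x hx =>
      intro c
      obtain ⟨s, hs⟩ := hroot c
      refine ⟨s • x, W.smul_mem _ (Submodule.subset_span hx), ?_⟩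
      rw [hφ, show φ x = x from hx, ← sub_smul, hs]
    | zero => exact fun c => ⟨0, W.zero_mem, by simp⟩
    | add x y _ _ hx hy =>
      intro c
      obtain ⟨a, ha, ea⟩ := hx c
      obtain ⟨b, hb, eb⟩ := hy c
      refine ⟨a + b, W.add_mem ha hb, ?_⟩
      rw [smul_add, ← ea, ← eb, map_add]
      abel
    | smul d x _ hx =>
      intro c
      obtain ⟨a, ha, ea⟩ := hx (c * d)
      refine ⟨a, ha, ?_⟩
      rw [ea, smul_smul]
  have hsurj2 : ∀ y ∈ W, ∃ z ∈ W, φ z - z = y := by
    intro y hy
    obtain ⟨z, hz, e⟩ := hsurj3 y hy 1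
    exact ⟨z, hz, by rw [e, one_smul]⟩
  by_contra hne
  obtain ⟨u, hu, huW⟩ := exists_fixed_mod φ q hq hqK hφ W hne (by
    intro x hx
    obtain ⟨z, hz, e⟩ := hsurj1 _ hx
    rw [← hinj e]
    exact hz)
  obtain ⟨b, hb, e⟩ := hsurj2 _ huW
  apply hu
  have hfix : φ (u - b) = u - b := by
    rw [map_sub]
    rw [← sub_eq_zero] at e ⊢
    have : φ u - φ b - (u - b) = (φ u - u) - (φ b - b) := by abel
    rw [this]
    rw [sub_eq_zero] at e ⊢
    exact e.symm
  have h3 : u - b ∈ W := Submodule.subset_span hfix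
  have := W.add_mem h3 hb
  simpa using this

end semilinear

/-- Lang's theorem for `GL_n`. -/
theorem exists_gl {K : Type*} [Field K] [IsAlgClosed K] (p : ℕ) [hp : Fact p.Prime] [CharP K p]
    (f : ℕ) (hf : 1 ≤ f) (n : ℕ) (g : GL (Fin n) K) :
    ∃ x : GL (Fin n) K, g = x * (Matrix.GeneralLinearGroup.map (iterateFrobenius K p f) x)⁻¹ := by
  classical
  set q := p ^ f with hq
  have hq2 : 2 ≤ q := by
    calc 2 ≤ p := hp.out.two_le
      _ = p ^ 1 := (pow_one p).symm
      _ ≤ p ^ f := Nat.pow_le_pow_right hp.out.pos hf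
  have hqK : (q : K) = 0 := by
    rw [hq, Nat.cast_pow, CharP.cast_eq_zero K p, zero_pow (by omega)]
  set σ := iterateFrobenius K p f with hσ
  have hσa : ∀ a : K, σ a = a ^ q := fun a => iterateFrobenius_def p f a
  let φ : (Fin n → K) →+ (Fin n → K) :=
    { toFun := fun v => (g : Matrix (Fin n) (Fin n) K).mulVec (fun i => σ (v i))
      map_zero' := by
        have : (fun i => σ ((0 : Fin n → K) i)) = 0 := by
          ext i; simp
        rw [this, Matrix.mulVec_zero]
      map_add' := by
        intro a b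
        have : (fun i => σ ((a + b) i)) = (fun i => σ (a i)) + (fun i => σ (b i)) := by
          ext i; simp
        rw [this, Matrix.mulVec_add] }
  have hφ : ∀ (c : K) (v : Fin n → K), φ (c • v) = c ^ q • φ v := by
    intro c v
    change (g : Matrix (Fin n) (Fin n) K).mulVec (fun i => σ ((c • v) i)) = c ^ q • (g : Matrix (Fin n) (Fin n) K).mulVec (fun i => σ (v i))
    rw [← Matrix.mulVec_smul]
    congr 1
    ext i
    simp [hσa, mul_pow]
  have hinj : Function.Injective φ := by
    intro a b hab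
    have h1 : (g : Matrix (Fin n) (Fin n) K).mulVec (fun i => σ (a i)) = (g : Matrix (Fin n) (Fin n) K).mulVec (fun i => σ (b i)) := hab
    have h2 := Matrix.mulVec_injective_of_isUnit g.isUnit h1
    ext i
    exact σ.injective (congrFun h2 i)
  have hspan := span_fixed_eq_top φ q hq2 hqK hφ hinj
  -- a basis of fixed vectors
  obtain ⟨b, hb1, hb2, hb3⟩ := exists_linearIndependent K {v : Fin n → K | φ v = v}
  rw [hspan] at hb2
  let B := Module.Basis.mk hb3 (by
    rw [Subtype.range_coe]
    exact hb2.ge)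
  haveI : Fintype b := FiniteDimensional.fintypeBasisIndex B
  have hcard : Fintype.card b = n := by
    rw [← Module.finrank_eq_card_basis B, Module.finrank_fin_fun]
  let e : Fin n ≃ b := (Fintype.equivFinOfCardEq hcard).symm
  let C : Module.Basis (Fin n) K (Fin n → K) := B.reindex e.symm
  have hCfix : ∀ j, φ (C j) = C j := by
    intro j
    have h1 : C j = ((e j : b) : Fin n → K) := by
      simp [C, B]
    rw [h1]
    exact hb1 (e j).2
  let E := Pi.basisFun K (Fin n)
  let x : GL (Fin n) K := ⟨E.toMatrix C, C.toMatrix E, E.toMatrix_mul_toMatrix_flip C, C.toMatrix_mul_toMatrix_flip E⟩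
  refine ⟨x, ?_⟩
  rw [eq_mul_inv_iff_mul_eq]
  apply Units.ext
  ext i j
  have h2 : ((g * Matrix.GeneralLinearGroup.map σ x : GL (Fin n) K) : Matrix (Fin n) (Fin n) K) i j
      = ((g : Matrix (Fin n) (Fin n) K).mulVec (fun k => σ (C j k))) i := by
    simp only [Units.val_mul, Matrix.mul_apply, Matrix.mulVec, dotProduct]
    apply Finset.sum_congr rfl
    intro k _
    congr 1
  rw [h2]
  have h3 := congrFun (hCfix j) i
  change ((g : Matrix (Fin n) (Fin n) K).mulVec (fun k => σ (C j k))) i = C j i at h3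
  rw [h3]
  simp [x, E, Module.Basis.toMatrix_apply]

end Cfsg.Agent.H12.Lang
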