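import Cfsg.Agent.Lib.H12.QuadExt2

/-!
# `GU_m(q)` in orthogonal groups
-/

set_option autoImplicit false
set_option linter.unusedSectionVars false
set_option linter.style.haveILetI false

namespace Cfsg.Agent.H12.QE

open Matrix Polynomial

section
variable {F K : Type*} [Field F] [Field K] [Algebra F K] {q : ℕ}

local notation "ι" => algebraMap F K

/-- data of hyperbolic pairs -/
structure HypData (S : Setup F K q) where
  c : K
  c' : K
  D : K
  hc : c * S.σ c = -1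
  hc' : c' * S.σ c' = -1
  hne : c' ≠ c
  hD : (1 + c * S.σ c') * S.σ D = (S.X - S.σ S.X)⁻¹
  hD0 : D ≠ 0

theorem exists_hypData [Fintype F] [Fintype K] (S : Setup F K q) (hK : Fintype.card K = q ^ 2)
    (hF : Fintype.card F = q) : Nonempty (HypData S) := by
  obtain ⟨c, hc⟩ : ∃ c : K, c * S.σ c = -1 := by
    obtain ⟨c, hc⟩ := FiniteField.norm_surjective F K (-1 : F)
    refine ⟨c, ?_⟩
    have h := FiniteField.algebraMap_norm_eq_prod_pow F K c
    rw [hc, finrank_eq_two hK hF, Finset.prod_range_succ, Finset.prod_range_one] at h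
    rw [S.hσq]
    simp only [pow_zero, pow_one, Nat.card_eq_fintype_card, hF] at h
    rw [← h]
    simp
  have hX0 : S.X ≠ 0 := by
    intro h
    apply S.hX
    rw [h, map_zero]
  have hσX0 : S.σ S.X ≠ 0 := by
    intro h
    apply hX0
    have := congrArg S.σ h
    rwa [S.hσσ, map_zero] at this
  have hc0 : c ≠ 0 := by
    rintro rfl
    simp at hc
  have hσc0 : S.σ c ≠ 0 := by
    intro h
    rw [h] at hc
    simp at hc
  set c' := c * S.σ S.X / S.X with hc'
  have hσc' : S.σ c' = S.σ c * S.X / S.σ S.X := by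
    rw [hc', map_div₀, map_mul, S.hσσ]
  have h1 : c' * S.σ c' = -1 := by
    rw [hσc', hc']
    calc c * S.σ S.X / S.X * (S.σ c * S.X / S.σ S.X) = c * S.σ c := by field_simp
      _ = -1 := hc
  have hne : c' ≠ c := by
    intro h
    apply S.hX
    rw [hc'] at h
    field_simp at h
    exact h
  set d := 1 + c * S.σ c' with hd
  have hd0 : d ≠ 0 := by
    intro h
    apply hne
    have h2 : c * S.σ c' = -1 := by linear_combination h
    have h3 : S.σ c' ≠ 0 := by
      intro h4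
      rw [h4] at h1
      simp at h1
    exact (mul_right_cancel₀ h3 (h1.trans h2.symm))
  refine ⟨⟨c, c', S.σ ((S.X - S.σ S.X)⁻¹ / d), hc, h1, hne, ?_, ?_⟩⟩
  · rw [S.hσσ, ← hd]
    field_simp
  · have h5 : (S.X - S.σ S.X)⁻¹ / d ≠ 0 := div_ne_zero (inv_ne_zero S.sub_ne) hd0
    intro h6
    apply h5
    have := congrArg S.σ h6
    rwa [S.hσσ, map_zero] at this

/-- the norm-form identity for a hyperbolic block. -/
theorem HypData.block {S : Setup F K q} (H : HypData S) (p₀ r₀ p₁ r₁ : F) :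
    let z := ι p₀ * 1 + ι p₁ * S.X
    let w := H.D * (ι r₁ * 1 + ι (-r₀) * S.X)
    (z + w) * S.σ (z + w) + (H.c * z + H.c' * w) * S.σ (H.c * z + H.c' * w) = ι (p₀ * r₀ + p₁ * r₁) := by
  intro z w
  have h := mul_inv_cancel₀ S.sub_ne
  set δ := (S.X - S.σ S.X)⁻¹ with hδ
  have hσδ : S.σ δ = - δ := by
    have e1 : S.σ S.X - S.X = -(S.X - S.σ S.X) := by ring
    rw [hδ, map_inv₀, map_sub, S.hσσ, e1, inv_neg]
  have hD := H.hD
  have hD2 : (1 + H.c' * S.σ H.c) * H.D = - δ := by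
    have := congrArg S.σ hD
    rw [map_mul, map_add, map_one, map_mul, S.hσσ, S.hσσ, hσδ] at this
    linear_combination this
  simp only [z, w, map_add, map_mul, map_one, map_neg, S.hι]
  have hcc := H.hc
  have hcc' := H.hc'
  linear_combination ((ι p₀ + ι p₁ * S.X) * (ι p₀ + ι p₁ * S.σ S.X)) * hcc +
    ((H.D * (ι r₁ - ι r₀ * S.X)) * (S.σ H.D * (ι r₁ - ι r₀ * S.σ S.X))) * hcc' +
    ((ι p₀ + ι p₁ * S.X) * (ι r₁ - ι r₀ * S.σ S.X)) * hD +
    ((ι r₁ - ι r₀ * S.X) * (ι p₀ + ι p₁ * S.σ S.X)) * hD2 +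
    (ι p₀ * ι r₀ + ι p₁ * ι r₁) * h

/-- the general embedding of `GU` into the isometry group of a form. -/
theorem gu_embed_of (S : Setup F K q) {κ : Type} [Fintype κ] [DecidableEq κ] (m : ℕ)
    (R : (κ → F) ≃ₗ[F] (Fin m → K)) (Q₀ : (κ → F) → F)
    (hform : ∀ w, ∑ i, R w i * S.σ (R w i) = ι (Q₀ w)) :
    ∃ φ : ↥(Cfsg.GU m K q) →* ↥(Cfsg.isometryGroup F Q₀), Function.Injective φ := by
  have hmem : ∀ g : ↥(Cfsg.GU m K q), thetaGL R (g : GL (Fin m) K) ∈ Cfsg.isometryGroup F Q₀ := by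
    intro g u _
    show Q₀ (theta R (g : GL (Fin m) K).val *ᵥ u) = Q₀ u
    apply (algebraMap F K).injective
    rw [← hform, ← hform]
    have h := g.2 (R u) (R u)
    have h2 : Cfsg.hermForm m K q ((g : GL (Fin m) K).val *ᵥ R u) ((g : GL (Fin m) K).val *ᵥ R u) =
      Cfsg.hermForm m K q (R u) (R u) := h
    simp only [Cfsg.hermForm, ← S.hσq] at h2
    simp only [theta_spec]
    exact h2
  refine ⟨((thetaGL R).comp (Cfsg.GU m K q).subtype).codRestrict _ hmem, ?_⟩
  intro x y hxy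
  have h3 := congrArg Subtype.val hxy
  exact Subtype.ext (thetaGL_inj R h3)

/-- The `F`-linear map giving hyperbolic coordinates on `K^{ℓ+ℓ}`. -/
noncomputable def Rplus {S : Setup F K q} (H : HypData S) (ℓ : ℕ) :
    (Fin (ℓ + ℓ) ⊕ Fin (ℓ + ℓ) → F) →ₗ[F] (Fin (ℓ + ℓ) → K) where
  toFun v := Fin.addCases (motive := fun _ => K)
    (fun j => (ι (v (Sum.inl (Fin.castAdd ℓ j))) * 1 + ι (v (Sum.inl (Fin.natAdd ℓ j))) * S.X) +
      H.D * (ι (v (Sum.inr (Fin.natAdd ℓ j))) * 1 + ι (-v (Sum.inr (Fin.castAdd ℓ j))) * S.X))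
    (fun j => H.c * (ι (v (Sum.inl (Fin.castAdd ℓ j))) * 1 + ι (v (Sum.inl (Fin.natAdd ℓ j))) * S.X) +
      H.c' * (H.D * (ι (v (Sum.inr (Fin.natAdd ℓ j))) * 1 + ι (-v (Sum.inr (Fin.castAdd ℓ j))) * S.X)))
  map_add' a b := by
    ext i
    refine Fin.addCases (fun j => ?_) (fun j => ?_) i
    · simp only [Fin.addCases_left, Pi.add_apply, map_add, map_neg]
      ring
    · simp only [Fin.addCases_right, Pi.add_apply, map_add, map_neg]
      ring
  map_smul' c a := by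
    ext i
    refine Fin.addCases (fun j => ?_) (fun j => ?_) i
    · simp only [Fin.addCases_left, Pi.smul_apply, smul_eq_mul, map_mul, map_neg, RingHom.id_apply, Algebra.smul_def]
      ring
    · simp only [Fin.addCases_right, Pi.smul_apply, smul_eq_mul, map_mul, map_neg, RingHom.id_apply, Algebra.smul_def]
      ring

theorem Rplus_inj {S : Setup F K q} (H : HypData S) (ℓ : ℕ) : Function.Injective (Rplus H ℓ) := by
  rw [injective_iff_map_eq_zero]
  intro v hv
  have h1 : ∀ j, Rplus H ℓ v (Fin.castAdd ℓ j) = 0 := fun j => congrFun hv _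
  have h2 : ∀ j, Rplus H ℓ v (Fin.natAdd ℓ j) = 0 := fun j => congrFun hv _
  have key : ∀ j, (ι (v (Sum.inl (Fin.castAdd ℓ j))) * 1 + ι (v (Sum.inl (Fin.natAdd ℓ j))) * S.X) = 0 ∧
      (ι (v (Sum.inr (Fin.natAdd ℓ j))) * 1 + ι (-v (Sum.inr (Fin.castAdd ℓ j))) * S.X) = 0 := by
    intro j
    have e1 := h1 j
    have e2 := h2 j
    simp only [Rplus, LinearMap.coe_mk, AddHom.coe_mk, Fin.addCases_left, Fin.addCases_right] at e1 e2
    set z := (ι (v (Sum.inl (Fin.castAdd ℓ j))) * 1 + ι (v (Sum.inl (Fin.natAdd ℓ j))) * S.X) with hz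
    set w := (ι (v (Sum.inr (Fin.natAdd ℓ j))) * 1 + ι (-v (Sum.inr (Fin.castAdd ℓ j))) * S.X) with hw
    have h3 : (H.c' - H.c) * (H.D * w) = 0 := by linear_combination e2 - H.c * e1
    have h4 : H.c' - H.c ≠ 0 := sub_ne_zero.2 H.hne
    have h5 : w = 0 := by
      rcases mul_eq_zero.1 h3 with h6 | h6
      · exact absurd h6 h4
      · rcases mul_eq_zero.1 h6 with h7 | h7
        · exact absurd h7 H.hD0
        · exact h7
    refine ⟨?_, h5⟩
    rw [h5, mul_zero, add_zero] at e1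
    exact e1
  ext x
  rcases x with i | i
  · refine Fin.addCases (fun j => ?_) (fun j => ?_) i
    · exact (S.pair_inj _ _ (key j).1).1
    · exact (S.pair_inj _ _ (key j).1).2
  · refine Fin.addCases (fun j => ?_) (fun j => ?_) i
    · have := (S.pair_inj _ _ (key j).2).2
      simpa using this
    · exact (S.pair_inj _ _ (key j).2).1

theorem Rplus_form {S : Setup F K q} (H : HypData S) (ℓ : ℕ) (v : Fin (ℓ + ℓ) ⊕ Fin (ℓ + ℓ) → F) :
    ∑ i, Rplus H ℓ v i * S.σ (Rplus H ℓ v i) = ι (Cfsg.quadFormPlus (ℓ + ℓ) F v) := by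
  unfold Cfsg.quadFormPlus
  rw [Fin.sum_univ_add, Fin.sum_univ_add, map_add, map_sum, map_sum, ← Finset.sum_add_distrib,
    ← Finset.sum_add_distrib]
  apply Finset.sum_congr rfl
  intro j _
  have := H.block (v (Sum.inl (Fin.castAdd ℓ j))) (v (Sum.inr (Fin.castAdd ℓ j)))
    (v (Sum.inl (Fin.natAdd ℓ j))) (v (Sum.inr (Fin.natAdd ℓ j)))
  simp only [map_add, map_mul] at this
  simp only [Rplus, LinearMap.coe_mk, AddHom.coe_mk, Fin.addCases_left, Fin.addCases_right, map_mul]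
  rw [← this]
  simp only [map_add, map_mul, map_neg]

/-- `GU_{ℓ+ℓ}(q) → O⁺_{2(ℓ+ℓ)}(q)`. -/
theorem gu_embed_plus [Fintype F] [Fintype K] (hK : Fintype.card K = q ^ 2) (hF : Fintype.card F = q) (ℓ : ℕ) :
    ∃ φ : ↥(Cfsg.GU (ℓ + ℓ) K q) →* ↥(Cfsg.isometryGroup F (Cfsg.quadFormPlus (ℓ + ℓ) F)), Function.Injective φ := by
  classical
  obtain ⟨S⟩ := exists_setup (F := F) (K := K) hK hF
  obtain ⟨H⟩ := exists_hypData S hK hF
  have hcard : Nat.card (Fin (ℓ + ℓ) ⊕ Fin (ℓ + ℓ) → F) = Nat.card (Fin (ℓ + ℓ) → K) := by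
    rw [Nat.card_fun, Nat.card_fun, Nat.card_sum, Nat.card_eq_fintype_card (α := F),
      Nat.card_eq_fintype_card (α := K), hF, hK, ← pow_mul, two_mul]
  exact gu_embed_of S (ℓ + ℓ) (equivOfInj (Rplus H ℓ) (Rplus_inj H ℓ) hcard) _ (Rplus_form H ℓ)

/-- The `F`-linear map for the elliptic form on `K^{ℓ+ℓ+1}`. -/
noncomputable def Rminus {S : Setup F K q} (H : HypData S) (ℓ : ℕ) (θ : K) :
    ((Fin (ℓ + ℓ) ⊕ Fin (ℓ + ℓ)) ⊕ Fin 2 → F) →ₗ[F] (Fin (ℓ + ℓ + 1) → K) where
  toFun v := Fin.snoc (α := fun _ => K) (Rplus H ℓ (fun i => v (Sum.inl i)))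
    (ι (v (Sum.inr 0)) * 1 + ι (v (Sum.inr 1)) * (- θ))
  map_add' a b := by
    ext i
    refine Fin.lastCases ?_ (fun j => ?_) i
    · simp only [Fin.snoc_last, Pi.add_apply, map_add]
      ring
    · simp only [Fin.snoc_castSucc, Pi.add_apply]
      have : (fun i => a (Sum.inl i) + b (Sum.inl i)) = (fun i => a (Sum.inl i)) + (fun i => b (Sum.inl i)) := rfl
      rw [this, map_add]
      rfl
  map_smul' c a := by
    ext i
    refine Fin.lastCases ?_ (fun j => ?_) i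
    · simp only [Fin.snoc_last, Pi.smul_apply, smul_eq_mul, map_mul, RingHom.id_apply, Algebra.smul_def]
      ring
    · simp only [Fin.snoc_castSucc, Pi.smul_apply, RingHom.id_apply]
      have : (fun i => c • a (Sum.inl i)) = c • (fun i => a (Sum.inl i)) := rfl
      rw [this, map_smul]
      rfl

/-- `GU_{ℓ+ℓ+1}(q) → O⁻`. -/
theorem gu_embed_minus [Fintype F] [Fintype K] (hK : Fintype.card K = q ^ 2) (hF : Fintype.card F = q) (ℓ : ℕ)
    (a b : F) (hab : ∀ z₁ z₂ : F, z₁ ^ 2 + a * z₁ * z₂ + b * z₂ ^ 2 = 0 → z₁ = 0 ∧ z₂ = 0) :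
    ∃ φ : ↥(Cfsg.GU (ℓ + ℓ + 1) K q) →* ↥(Cfsg.isometryGroup F (Cfsg.quadFormMinus (ℓ + ℓ) F a b)), Function.Injective φ := by
  classical
  obtain ⟨S⟩ := exists_setup (F := F) (K := K) hK hF
  obtain ⟨H⟩ := exists_hypData S hK hF
  obtain ⟨θ, θ', hne, h1, h2, h3⟩ := exists_factor S hK hF a b hab
  have hinj : Function.Injective (Rminus H ℓ θ) := by
    rw [injective_iff_map_eq_zero]
    intro v hv
    have e1 : Rplus H ℓ (fun i => v (Sum.inl i)) = 0 := by
      ext j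
      have := congrFun hv j.castSucc
      simpa [Rminus] using this
    have e2 : ι (v (Sum.inr 0)) * 1 + ι (v (Sum.inr 1)) * (- θ) = 0 := by
      have := congrFun hv (Fin.last _)
      simpa [Rminus] using this
    have e3 := (injective_iff_map_eq_zero _).1 (Rplus_inj H ℓ) _ e1
    have hv1 : v (Sum.inr 1) = 0 := by
      by_contra h0
      have h0' : ι (v (Sum.inr 1)) ≠ 0 := by simpa using h0
      have : θ = ι (v (Sum.inr 0) / v (Sum.inr 1)) := by
        rw [map_div₀]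
        field_simp
        linear_combination - e2
      apply hne
      rw [← h3, this, S.hι]
    have hv0 : v (Sum.inr 0) = 0 := by
      rw [hv1] at e2
      simpa using e2
    ext x
    rcases x with i | i
    · exact congrFun e3 i
    · fin_cases i
      · exact hv0
      · exact hv1
  have hcard : Nat.card ((Fin (ℓ + ℓ) ⊕ Fin (ℓ + ℓ)) ⊕ Fin 2 → F) = Nat.card (Fin (ℓ + ℓ + 1) → K) := by
    rw [Nat.card_fun, Nat.card_fun, Nat.card_sum, Nat.card_sum, Nat.card_eq_fintype_card (α := F),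
      Nat.card_eq_fintype_card (α := K), hF, hK, ← pow_mul]
    simp only [Nat.card_eq_fintype_card, Fintype.card_fin]
    congr 1
    ring
  refine gu_embed_of S (ℓ + ℓ + 1) (equivOfInj (Rminus H ℓ θ) hinj hcard) _ ?_
  intro v
  simp only [equivOfInj_apply]
  rw [Fin.sum_univ_castSucc]
  have e1 : ∀ j : Fin (ℓ + ℓ), Rminus H ℓ θ v j.castSucc = Rplus H ℓ (fun i => v (Sum.inl i)) j := by
    intro j; simp [Rminus]
  have e2 : Rminus H ℓ θ v (Fin.last _) = ι (v (Sum.inr 0)) * 1 + ι (v (Sum.inr 1)) * (- θ) := by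
    simp [Rminus]
  simp only [e1, e2]
  rw [Rplus_form]
  unfold Cfsg.quadFormPlus Cfsg.quadFormMinus
  simp only [map_add, map_mul, map_neg, map_one, S.hι, map_pow, h3]
  have e3 := h1
  have e4 := h2
  linear_combination (ι (v (Sum.inr 0)) * ι (v (Sum.inr 1))) * e3 + (ι (v (Sum.inr 1)))^2 * e4

end

end Cfsg.Agent.H12.QE
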