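import Mathlib

/-!
The double cover of the alternating group, constructed inside a Clifford algebra.
-/

set_option autoImplicit false

namespace Cfsg.Agent.H12.Spin

open Equiv.Perm
open scoped commutatorElement

section Core

variable {A : Type*} [Ring A] [Algebra ℝ A] {n : ℕ}

/-- Clifford relations with a reversal. -/
structure Cl (e : Fin n → A) (rev : A →ₗ[ℝ] A) : Prop where
  sq : ∀ i, e i * e i = 1
  anti : ∀ i j, i ≠ j → e i * e j = -(e j * e i)
  ne : (1 : A) ≠ -1
  rev_e : ∀ i, rev (e i) = e i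
  rev_mul : ∀ a b, rev (a * b) = rev b * rev a
  rev_one : rev 1 = 1

variable {e : Fin n → A} {rev : A →ₗ[ℝ] A}

/-- A word in the generators. -/
def wd (e : Fin n → A) (l : List (Fin n)) : A := (l.map e).prod

@[simp] theorem wd_nil : wd e [] = 1 := rfl

@[simp] theorem wd_cons (a : Fin n) (l : List (Fin n)) : wd e (a :: l) = e a * wd e l := by
  simp [wd]

theorem wd_append (l l' : List (Fin n)) : wd e (l ++ l') = wd e l * wd e l' := by
  simp [wd]

theorem sign_mul (k : ℕ) (x y : A) : x * ((-1) ^ k * y) = (-1) ^ k * (x * y) := by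
  rw [← mul_assoc, ← mul_assoc, ((Commute.neg_one_right x).pow_right k).eq]

theorem comm_wd (hc : Cl e rev) (i : Fin n) (l : List (Fin n)) :
    e i * wd e l = (-1) ^ (l.length + l.count i) * (wd e l * e i) := by
  induction l with
  | nil => simp
  | cons a t ih =>
    rw [wd_cons]
    by_cases h : a = i
    · subst h
      have h1 : (a :: t).length + (a :: t).count a = t.length + t.count a + 2 := by
        simp only [List.length_cons, List.count_cons_self]
        omega
      have h2 : (-1 : A) ^ (t.length + t.count a + 2) = (-1) ^ (t.length + t.count a) := by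
        rw [pow_add _ _ 2]
        simp
      rw [h1, h2]
      calc e a * (e a * wd e t)
          = e a * ((-1) ^ (t.length + t.count a) * (wd e t * e a)) := by rw [ih]
        _ = (-1) ^ (t.length + t.count a) * (e a * (wd e t * e a)) := sign_mul _ _ _
        _ = (-1) ^ (t.length + t.count a) * (e a * wd e t * e a) := by rw [mul_assoc (e a)]
    · have h1 : (a :: t).length + (a :: t).count i = t.length + t.count i + 1 := by
        have h2 : (a :: t).count i = t.count i := by
          rw [List.count_cons_of_ne]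
          exact h
        rw [h2, List.length_cons]
        omega
      rw [h1, pow_succ, mul_neg_one, neg_mul]
      calc e i * (e a * wd e t)
          = (e i * e a) * wd e t := by rw [mul_assoc]
        _ = -(e a * (e i * wd e t)) := by
            rw [hc.anti i a (Ne.symm h), neg_mul, mul_assoc]
        _ = -(e a * ((-1) ^ (t.length + t.count i) * (wd e t * e i))) := by rw [ih]
        _ = -((-1) ^ (t.length + t.count i) * (e a * (wd e t * e i))) := by rw [sign_mul]
        _ = -((-1) ^ (t.length + t.count i) * (e a * wd e t * e i)) := by rw [mul_assoc (e a)]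

theorem conj_wd (hc : Cl e rev) (i : Fin n) (l : List (Fin n)) (hl : Even l.length) :
    e i * wd e l * e i = (-1) ^ (l.count i) * wd e l := by
  rw [comm_wd hc, pow_add, hl.neg_one_pow, one_mul, mul_assoc (_ ^ _), mul_assoc (wd e l),
    hc.sq, mul_one]

/-- Words with all letter counts even are `±1`. -/
theorem wd_even_counts (hc : Cl e rev) (k : ℕ) : ∀ l : List (Fin n), l.length ≤ k →
    (∀ i, Even (l.count i)) → wd e l = 1 ∨ wd e l = -1 := by
  induction k with
  | zero =>
    intro l hl _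
    have : l = [] := List.length_eq_zero_iff.mp (by omega)
    subst this
    simp
  | succ k ih =>
    intro l hl hev
    cases l with
    | nil => simp
    | cons a t =>
      have h1 : Odd (t.count a) := by
        have := hev a
        rw [List.count_cons_self] at this
        by_contra hc'
        rw [Nat.not_odd_iff_even] at hc'
        exact (Nat.not_even_iff_odd.mpr hc'.add_one) this
      have ha : a ∈ t := by
        rw [← List.count_pos_iff]
        exact h1.pos
      obtain ⟨t₁, t₂, rfl, hnot⟩ := List.eq_append_cons_of_mem ha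
      have hcount : ∀ i, Even ((t₁ ++ t₂).count i) := by
        intro i
        have h2 := hev i
        by_cases hia : a = i
        · subst hia
          simp only [List.count_cons_self, List.count_append] at h2 ⊢
          have h3 : (t₁ ++ a :: t₂).count a = t₁.count a + (t₂.count a + 1) := by
            rw [List.count_append, List.count_cons_self]
          grind
        · have h4 : (a :: (t₁ ++ a :: t₂)).count i = (t₁ ++ t₂).count i := by
            rw [List.count_cons_of_ne hia, List.count_append, List.count_append,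
              List.count_cons_of_ne hia]
          rwa [h4] at h2
      have hlen : (t₁ ++ t₂).length ≤ k := by
        simp only [List.length_cons, List.length_append] at hl ⊢
        omega
      have hc1 := comm_wd hc a t₁
      have h5 : wd e (a :: (t₁ ++ a :: t₂)) =
          (-1) ^ (t₁.length + t₁.count a) * wd e (t₁ ++ t₂) := by
        rw [wd_cons, wd_append, wd_cons, ← mul_assoc, hc1, wd_append]
        simp only [mul_assoc]
        rw [← mul_assoc (e a) (e a), hc.sq, one_mul]
      rw [h5]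
      rcases ih _ hlen hcount with h6 | h6 <;> rw [h6] <;>
      rcases neg_one_pow_eq_or A (t₁.length + t₁.count a) with h7 | h7 <;> rw [h7] <;> simp

/-- Span of even words with even counts on `F`. -/
def EvF (e : Fin n → A) (F : Finset (Fin n)) : Submodule ℝ A :=
  Submodule.span ℝ {x | ∃ l : List (Fin n), x = wd e l ∧ Even l.length ∧ ∀ i ∈ F, Even (l.count i)}

theorem conj_smul_mul (i : Fin n) (r : ℝ) (y : A) : e i * (r • y) * e i = r • (e i * y * e i) := by
  rw [mul_smul_comm, smul_mul_assoc]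

theorem proj_mem (hc : Cl e rev) (F : Finset (Fin n)) (i : Fin n) (y : A) (hy : y ∈ EvF e F) :
    (1 / 2 : ℝ) • (y + e i * y * e i) ∈ EvF e (insert i F) := by
  unfold EvF at hy
  induction hy using Submodule.span_induction with
  | mem x hx =>
    obtain ⟨l, rfl, hl, hF⟩ := hx
    rw [conj_wd hc i l hl]
    by_cases hcnt : Even (l.count i)
    · rw [hcnt.neg_one_pow, one_mul, ← two_smul ℝ (wd e l), smul_smul]
      norm_num
      apply Submodule.subset_span
      refine ⟨l, rfl, hl, ?_⟩
      intro j hj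
      rcases Finset.mem_insert.mp hj with rfl | hj
      · exact hcnt
      · exact hF j hj
    · rw [(Nat.not_even_iff_odd.mp hcnt).neg_one_pow]
      simp
  | zero => simp
  | add x y _ _ hx hy =>
    have : (1 / 2 : ℝ) • (x + y + e i * (x + y) * e i) =
        (1 / 2 : ℝ) • (x + e i * x * e i) + (1 / 2 : ℝ) • (y + e i * y * e i) := by
      rw [← smul_add]
      congr 1
      noncomm_ring
    rw [this]
    exact add_mem hx hy
  | smul r x _ hx =>
    have : (1 / 2 : ℝ) • (r • x + e i * (r • x) * e i) =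
        r • ((1 / 2 : ℝ) • (x + e i * x * e i)) := by
      rw [conj_smul_mul, smul_comm, ← smul_add]
    rw [this]
    exact Submodule.smul_mem _ _ hx

theorem central_scalar (hc : Cl e rev) {x : A} (hx : x ∈ EvF e ∅)
    (hcom : ∀ i, e i * x = x * e i) : x ∈ Submodule.span ℝ {(1 : A)} := by
  have hall : ∀ F : Finset (Fin n), x ∈ EvF e F := by
    intro F
    induction F using Finset.induction_on with
    | empty => exact hx
    | insert i F _ ih =>
      have h1 := proj_mem hc F i x ih
      have h2 : e i * x * e i = x := by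
        rw [hcom, mul_assoc, hc.sq, mul_one]
      rw [h2, ← two_smul ℝ x, smul_smul] at h1
      norm_num at h1
      exact h1
  have h1 := hall Finset.univ
  unfold EvF at h1
  refine (Submodule.span_le.mpr ?_) h1
  rintro _ ⟨l, rfl, -, hF⟩
  rcases wd_even_counts hc l.length l le_rfl (fun i => hF i (Finset.mem_univ i)) with h | h
  · rw [h]
    exact Submodule.mem_span_singleton_self _
  · rw [h]
    exact neg_mem (Submodule.mem_span_singleton_self _)

theorem EvF_mul {x y : A} (hx : x ∈ EvF e ∅) (hy : y ∈ EvF e ∅) : x * y ∈ EvF e ∅ := by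
  unfold EvF at hx
  induction hx using Submodule.span_induction with
  | mem x hx =>
    obtain ⟨l, rfl, hl, -⟩ := hx
    unfold EvF at hy
    induction hy using Submodule.span_induction with
    | mem y hy =>
      obtain ⟨l', rfl, hl', -⟩ := hy
      apply Submodule.subset_span
      refine ⟨l ++ l', (wd_append l l').symm, ?_, by simp⟩
      rw [List.length_append]
      exact hl.add hl'
    | zero => simp
    | add a b _ _ ha hb =>
      rw [mul_add]
      exact add_mem ha hb
    | smul r a _ ha =>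
      rw [mul_smul_comm]
      exact Submodule.smul_mem _ _ ha
  | zero => simp
  | add a b _ _ ha hb =>
    rw [add_mul]
    exact add_mem ha hb
  | smul r a _ ha =>
    rw [smul_mul_assoc]
    exact Submodule.smul_mem _ _ ha

theorem e_injective (hc : Cl e rev) : Function.Injective e := by
  intro i j hij
  by_contra hne
  have h1 := hc.anti i j hne
  rw [← hij, hc.sq] at h1
  exact hc.ne h1

/-- The vector `(e i - e j) / √2`. -/
noncomputable def uu (e : Fin n → A) (i j : Fin n) : A := (Real.sqrt 2)⁻¹ • (e i - e j)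

theorem diff_sq (hc : Cl e rev) {i j : Fin n} (h : i ≠ j) :
    (e i - e j) * (e i - e j) = (2 : ℝ) • (1 : A) := by
  have h1 : (e i - e j) * (e i - e j) = e i * e i - e i * e j - e j * e i + e j * e j := by
    noncomm_ring
  rw [h1, hc.sq, hc.sq, hc.anti i j h, two_smul]
  abel

theorem sqrt_inv_smul_sq (y z : A) :
    ((Real.sqrt 2)⁻¹ • y) * ((Real.sqrt 2)⁻¹ • z) = (1 / 2 : ℝ) • (y * z) := by
  rw [smul_mul_smul_comm]
  congr 1
  rw [← mul_inv, Real.mul_self_sqrt (by norm_num)]
  norm_num

theorem uu_sq (hc : Cl e rev) {i j : Fin n} (h : i ≠ j) : uu e i j * uu e i j = 1 := by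
  unfold uu
  rw [sqrt_inv_smul_sq, diff_sq hc h, smul_smul]
  norm_num

/-- The vector as a unit. -/
noncomputable def uU (hc : Cl e rev) (i j : Fin n) (h : i ≠ j) : Aˣ where
  val := uu e i j
  inv := uu e i j
  val_inv := uu_sq hc h
  inv_val := uu_sq hc h

theorem ring_conj_self {a b : A} (ha : a * a = 1) (hb : b * b = 1) (hab : b * a = -(a * b)) :
    (a - b) * a * (a - b) = (2 : ℝ) • (-b) := by
  have h1 : (a - b) * a * (a - b) = a * a * a - a * a * b - b * a * a + b * a * b := by
    noncomm_ring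
  have h2 : b * a * b = -a := by
    rw [hab, neg_mul, mul_assoc, hb, mul_one]
  have h3 : b * a * a = b := by
    rw [mul_assoc, ha, mul_one]
  rw [h1, h2, h3, ha, one_mul, one_mul, two_smul]
  abel

theorem ring_conj_other {a b c : A} (ha : a * a = 1) (hb : b * b = 1) (hab : b * a = -(a * b))
    (hca : a * c = -(c * a)) (hcb : b * c = -(c * b)) :
    (a - b) * c * (a - b) = (2 : ℝ) • (-c) := by
  have h0 : (a - b) * (a - b) = (2 : ℝ) • (1 : A) := by
    have h1 : (a - b) * (a - b) = a * a - a * b - b * a + b * b := by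
      noncomm_ring
    rw [h1, ha, hb, hab, two_smul]
    abel
  have h1 : (a - b) * c = -(c * (a - b)) := by
    rw [sub_mul, mul_sub, hca, hcb]
    abel
  rw [h1, neg_mul, mul_assoc, h0, mul_smul_comm, mul_one, smul_neg]

theorem uu_conj (hc : Cl e rev) {i j : Fin n} (h : i ≠ j) (k : Fin n) :
    uu e i j * e k * uu e i j = -e (Equiv.swap i j k) := by
  unfold uu
  have hh : ∀ y z : A, ((Real.sqrt 2)⁻¹ • y) * z * ((Real.sqrt 2)⁻¹ • y) = (1 / 2 : ℝ) • (y * z * y) := by
    intro y z
    rw [smul_mul_assoc, smul_mul_assoc, mul_smul_comm, smul_smul, ← mul_inv,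
      Real.mul_self_sqrt (by norm_num)]
    norm_num
  rw [hh]
  by_cases hki : k = i
  · subst hki
    rw [ring_conj_self (hc.sq k) (hc.sq j) (hc.anti j k (Ne.symm h)), Equiv.swap_apply_left, smul_smul]
    norm_num
  by_cases hkj : k = j
  · subst hkj
    have h1 : (e i - e k) * e k * (e i - e k) = -((e k - e i) * e k * (e k - e i)) * (-1) * (-1) * (-1) := by
      noncomm_ring
    rw [h1, ring_conj_self (hc.sq k) (hc.sq i) (hc.anti i k h), Equiv.swap_apply_right]
    simp only [mul_neg, mul_one, neg_neg, smul_neg, neg_mul, one_mul, smul_smul]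
    norm_num
  · rw [ring_conj_other (hc.sq i) (hc.sq j) (hc.anti j i (Ne.symm h)) (hc.anti i k (Ne.symm hki))
      (hc.anti j k (Ne.symm hkj)), Equiv.swap_apply_of_ne_of_ne hki hkj, smul_smul]
    norm_num

/-- `x` acts on the generators through `σ`. -/
def IsOver (e : Fin n → A) (x : Aˣ) (σ : Equiv.Perm (Fin n)) : Prop :=
  ∀ k, (x : A) * e k * ((x⁻¹ : Aˣ) : A) = e (σ k)

theorem IsOver.mul {x y : Aˣ} {σ τ : Equiv.Perm (Fin n)} (hx : IsOver e x σ) (hy : IsOver e y τ) :
    IsOver e (x * y) (σ * τ) := by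
  intro k
  have h1 : ((x * y : Aˣ) : A) * e k * (((x * y)⁻¹ : Aˣ) : A) =
      (x : A) * ((y : A) * e k * ((y⁻¹ : Aˣ) : A)) * ((x⁻¹ : Aˣ) : A) := by
    rw [mul_inv_rev, Units.val_mul, Units.val_mul]
    simp only [mul_assoc]
  rw [h1, hy k, hx (τ k)]
  rfl

theorem IsOver.inv {x : Aˣ} {σ : Equiv.Perm (Fin n)} (hx : IsOver e x σ) :
    IsOver e x⁻¹ σ⁻¹ := by
  intro k
  have h := hx (σ⁻¹ k)
  have h2 : σ (σ⁻¹ k) = k := by simp
  rw [h2] at h
  rw [← h, inv_inv]
  simp only [mul_assoc, Units.inv_mul, mul_one, Units.inv_mul_cancel_left]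

theorem IsOver.one : IsOver e (1 : Aˣ) (1 : Equiv.Perm (Fin n)) := by
  intro k
  simp

theorem IsOver.unique (hc : Cl e rev) {x : Aˣ} {σ τ : Equiv.Perm (Fin n)} (hx : IsOver e x σ)
    (hy : IsOver e x τ) : σ = τ := by
  ext k
  congr 1
  apply e_injective hc
  rw [← hx k, ← hy k]

/-- The generators of the cover. -/
def G0 (hc : Cl e rev) : Set Aˣ :=
  {x | ∃ (i j k l : Fin n) (h1 : i ≠ j) (h2 : k ≠ l), x = uU hc i j h1 * uU hc k l h2}

/-- The cover as a subgroup of the units. -/
def Gam (hc : Cl e rev) : Subgroup Aˣ := Subgroup.closure (G0 hc)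

theorem uU_val (hc : Cl e rev) {i j : Fin n} (h : i ≠ j) : ((uU hc i j h : Aˣ) : A) = uu e i j := rfl

theorem uU_inv (hc : Cl e rev) {i j : Fin n} (h : i ≠ j) :
    (((uU hc i j h)⁻¹ : Aˣ) : A) = uu e i j := rfl

theorem gen_val (hc : Cl e rev) {i j k l : Fin n} (h1 : i ≠ j) (h2 : k ≠ l) :
    ((uU hc i j h1 * uU hc k l h2 : Aˣ) : A) = uu e i j * uu e k l := rfl

theorem gen_inv (hc : Cl e rev) {i j k l : Fin n} (h1 : i ≠ j) (h2 : k ≠ l) :
    (((uU hc i j h1 * uU hc k l h2)⁻¹ : Aˣ) : A) = uu e k l * uu e i j := by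
  rw [mul_inv_rev]
  rfl

theorem gen_over (hc : Cl e rev) {i j k l : Fin n} (h1 : i ≠ j) (h2 : k ≠ l) :
    IsOver e (uU hc i j h1 * uU hc k l h2) (Equiv.swap i j * Equiv.swap k l) := by
  intro m
  rw [gen_val, gen_inv]
  have h3 : uu e i j * uu e k l * e m * (uu e k l * uu e i j) =
      uu e i j * (uu e k l * e m * uu e k l) * uu e i j := by
    simp only [mul_assoc]
  rw [h3, uu_conj hc h2, mul_neg, neg_mul, uu_conj hc h1, neg_neg]
  rfl

theorem exists_over (hc : Cl e rev) {x : Aˣ} (hx : x ∈ Gam hc) :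
    ∃ σ, IsOver e x σ ∧ σ ∈ alternatingGroup (Fin n) := by
  unfold Gam at hx
  induction hx using Subgroup.closure_induction with
  | mem x h =>
    obtain ⟨i, j, k, l, h1, h2, rfl⟩ := h
    refine ⟨_, gen_over hc h1 h2, ?_⟩
    rw [Equiv.Perm.mem_alternatingGroup, map_mul, Equiv.Perm.sign_swap h1, Equiv.Perm.sign_swap h2]
    simp
  | one => exact ⟨1, IsOver.one, one_mem _⟩
  | mul x y _ _ hx hy =>
    obtain ⟨σ, h1, h2⟩ := hx
    obtain ⟨τ, h3, h4⟩ := hy
    exact ⟨σ * τ, h1.mul h3, mul_mem h2 h4⟩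
  | inv x _ hx =>
    obtain ⟨σ, h1, h2⟩ := hx
    exact ⟨σ⁻¹, h1.inv, inv_mem h2⟩

theorem uu_mul_mem (i j k l : Fin n) : uu e i j * uu e k l ∈ EvF e ∅ := by
  unfold uu
  rw [sqrt_inv_smul_sq]
  apply Submodule.smul_mem
  have h1 : (e i - e j) * (e k - e l) = wd e [i, k] - wd e [i, l] - wd e [j, k] + wd e [j, l] := by
    simp only [wd_cons, wd_nil, mul_one]
    noncomm_ring
  rw [h1]
  have hw : ∀ a b : Fin n, wd e [a, b] ∈ EvF e ∅ := fun a b =>
    Submodule.subset_span ⟨[a, b], rfl, by simp, by simp⟩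
  exact add_mem (sub_mem (sub_mem (hw _ _) (hw _ _)) (hw _ _)) (hw _ _)

theorem ev_mem (hc : Cl e rev) {x : Aˣ} (hx : x ∈ Gam hc) :
    (x : A) ∈ EvF e ∅ ∧ ((x⁻¹ : Aˣ) : A) ∈ EvF e ∅ := by
  unfold Gam at hx
  induction hx using Subgroup.closure_induction with
  | mem x h =>
    obtain ⟨i, j, k, l, h1, h2, rfl⟩ := h
    rw [gen_val, gen_inv]
    exact ⟨uu_mul_mem _ _ _ _, uu_mul_mem _ _ _ _⟩
  | one =>
    have h1 : (1 : A) ∈ EvF e ∅ := Submodule.subset_span ⟨[], rfl, by simp, by simp⟩
    simpa using h1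
  | mul x y _ _ hx hy =>
    rw [mul_inv_rev, Units.val_mul, Units.val_mul]
    exact ⟨EvF_mul hx.1 hy.1, EvF_mul hy.2 hx.2⟩
  | inv x _ hx =>
    rw [inv_inv]
    exact ⟨hx.2, hx.1⟩

theorem rev_uu (hc : Cl e rev) (i j : Fin n) : rev (uu e i j) = uu e i j := by
  unfold uu
  rw [map_smul, map_sub, hc.rev_e, hc.rev_e]

theorem rev_prop (hc : Cl e rev) {x : Aˣ} (hx : x ∈ Gam hc) :
    (x : A) * rev (x : A) = 1 ∧ ((x⁻¹ : Aˣ) : A) * rev ((x⁻¹ : Aˣ) : A) = 1 := by
  unfold Gam at hx
  induction hx using Subgroup.closure_induction with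
  | mem x h =>
    obtain ⟨i, j, k, l, h1, h2, rfl⟩ := h
    rw [gen_val, gen_inv, hc.rev_mul, hc.rev_mul]
    simp only [rev_uu hc]
    constructor
    · rw [mul_assoc, ← mul_assoc (uu e k l), uu_sq hc h2, one_mul, uu_sq hc h1]
    · rw [mul_assoc, ← mul_assoc (uu e i j), uu_sq hc h1, one_mul, uu_sq hc h2]
  | one => simp [hc.rev_one]
  | mul x y _ _ hx hy =>
    rw [mul_inv_rev, Units.val_mul, Units.val_mul, hc.rev_mul, hc.rev_mul]
    constructor
    · rw [mul_assoc, ← mul_assoc (y : A), hy.1, one_mul, hx.1]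
    · rw [mul_assoc, ← mul_assoc ((x⁻¹ : Aˣ) : A), hx.2, one_mul, hy.2]
  | inv x _ hx =>
    rw [inv_inv]
    exact ⟨hx.2, hx.1⟩

/-- The projection to the symmetric group. -/
noncomputable def rho (hc : Cl e rev) : Gam hc →* Equiv.Perm (Fin n) where
  toFun x := (exists_over hc x.2).choose
  map_one' := IsOver.unique hc (exists_over hc (one_mem _)).choose_spec.1 IsOver.one
  map_mul' x y := IsOver.unique hc (exists_over hc (mul_mem x.2 y.2)).choose_spec.1
    ((exists_over hc x.2).choose_spec.1.mul (exists_over hc y.2).choose_spec.1)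

theorem rho_over (hc : Cl e rev) (x : Gam hc) : IsOver e (x : Aˣ) (rho hc x) :=
  (exists_over hc x.2).choose_spec.1

theorem rho_mem (hc : Cl e rev) (x : Gam hc) : rho hc x ∈ alternatingGroup (Fin n) :=
  (exists_over hc x.2).choose_spec.2

theorem range_ge (hc : Cl e rev) : alternatingGroup (Fin n) ≤ (rho hc).range := by
  intro σ hσ
  suffices hind : ∀ (m : ℕ) (l : List (Equiv.Perm (Fin n))) (_ : ∀ g, g ∈ l → Equiv.Perm.IsSwap g)
      (_ : l.length = 2 * m), l.prod ∈ (rho hc).range by
    obtain ⟨l, rfl, hl⟩ := truncSwapFactors σ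
    obtain ⟨m, hm⟩ := (prod_list_swap_mem_alternatingGroup_iff_even_length hl).1 hσ
    rw [← two_mul] at hm
    exact hind m l hl hm
  intro m
  induction m with
  | zero =>
    intro l _ hn
    simp [List.length_eq_zero_iff.1 hn, one_mem]
  | succ m ih =>
    intro l hl hn
    rw [Nat.mul_succ] at hn
    obtain ⟨a, l, rfl⟩ := l.exists_of_length_succ hn
    rw [List.length_cons, Nat.succ_inj] at hn
    obtain ⟨b, l, rfl⟩ := l.exists_of_length_succ hn
    rw [List.prod_cons, List.prod_cons, ← mul_assoc]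
    apply mul_mem
    · obtain ⟨i, j, h1, rfl⟩ := hl a (by simp)
      obtain ⟨k, r, h2, rfl⟩ := hl b (by simp)
      have hmem : uU hc i j h1 * uU hc k r h2 ∈ Gam hc :=
        Subgroup.subset_closure ⟨i, j, k, r, h1, h2, rfl⟩
      refine ⟨⟨_, hmem⟩, ?_⟩
      exact IsOver.unique hc (rho_over hc _) (gen_over hc h1 h2)
    · apply ih l
      · intro g hg
        exact hl g (by simp [hg])
      · simp only [List.length_cons] at hn
        omega

theorem ker_cases (hc : Cl e rev) (x : Gam hc) (hx : rho hc x = 1) :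
    (x : Aˣ) = 1 ∨ (x : Aˣ) = -1 := by
  have hov := rho_over hc x
  rw [hx] at hov
  have hcom : ∀ i, e i * ((x : Aˣ) : A) = ((x : Aˣ) : A) * e i := by
    intro i
    have h1 := hov i
    have h2 : (1 : Equiv.Perm (Fin n)) i = i := rfl
    rw [h2] at h1
    calc e i * ((x : Aˣ) : A)
        = ((x : Aˣ) : A) * e i * (((x : Aˣ)⁻¹ : Aˣ) : A) * ((x : Aˣ) : A) := by rw [h1]
      _ = ((x : Aˣ) : A) * e i := by simp [mul_assoc]
  have hs := central_scalar hc (ev_mem hc x.2).1 hcom
  obtain ⟨c, hc'⟩ := Submodule.mem_span_singleton.mp hs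
  have hr := (rev_prop hc x.2).1
  rw [← hc', map_smul, hc.rev_one, smul_mul_smul_comm, one_mul] at hr
  have h10 : (1 : A) ≠ 0 := by
    intro h
    apply hc.ne
    rw [h]
    simp
  have hcc : c * c = 1 := by
    by_contra hne
    have h3 : (c * c - 1) • (1 : A) = 0 := by
      rw [sub_smul, hr, one_smul, sub_self]
    rcases smul_eq_zero.mp h3 with h4 | h4
    · exact hne (by linarith)
    · exact h10 h4
  rcases mul_self_eq_one_iff.mp hcc with rfl | rfl
  · left
    apply Units.ext
    rw [← hc']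
    simp
  · right
    apply Units.ext
    rw [← hc']
    simp

theorem uu_conj_over {x : Aˣ} {σ : Equiv.Perm (Fin n)} (hx : IsOver e x σ) (a b : Fin n) :
    (x : A) * uu e a b * ((x⁻¹ : Aˣ) : A) = uu e (σ a) (σ b) := by
  unfold uu
  rw [mul_smul_comm, smul_mul_assoc, mul_sub, sub_mul, hx a, hx b]

/-- The central element of order two lies in the group, as a commutator. -/
theorem commutator_eq (hc : Cl e rev) {a b c d : Fin n} (hab : a ≠ b) (hac : a ≠ c) (had : a ≠ d)
    (hbc : b ≠ c) (hbd : b ≠ d) (hcd : c ≠ d) :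
    (uU hc a b hab * uU hc c d hcd) * (uU hc a c hac * uU hc b d hbd) *
      (uU hc a b hab * uU hc c d hcd)⁻¹ * (uU hc a c hac * uU hc b d hbd)⁻¹ = -1 := by
  set x := uU hc a b hab * uU hc c d hcd with hx
  set y := uU hc a c hac * uU hc b d hbd with hy
  have hov : IsOver e x (Equiv.swap a b * Equiv.swap c d) := gen_over hc hab hcd
  have h1 : (x : A) * ((y : A)) * ((x⁻¹ : Aˣ) : A) = -(y : A) := by
    have h2 : (y : A) = uu e a c * uu e b d := rfl
    rw [h2]
    have h3 : (x : A) * (uu e a c * uu e b d) * ((x⁻¹ : Aˣ) : A) =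
        ((x : A) * uu e a c * ((x⁻¹ : Aˣ) : A)) * ((x : A) * uu e b d * ((x⁻¹ : Aˣ) : A)) := by
      simp only [mul_assoc, Units.inv_mul_cancel_left]
    rw [h3, uu_conj_over hov, uu_conj_over hov]
    have e1 : (Equiv.swap a b * Equiv.swap c d) a = b := by
      simp [Equiv.swap_apply_of_ne_of_ne hac had]
    have e2 : (Equiv.swap a b * Equiv.swap c d) c = d := by
      simp [Equiv.swap_apply_of_ne_of_ne had.symm hbd.symm]
    have e3 : (Equiv.swap a b * Equiv.swap c d) b = a := by
      simp [Equiv.swap_apply_of_ne_of_ne hbc hbd]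
    have e4 : (Equiv.swap a b * Equiv.swap c d) d = c := by
      simp [Equiv.swap_apply_of_ne_of_ne hac.symm hbc.symm]
    rw [e1, e2, e3, e4]
    unfold uu
    rw [sqrt_inv_smul_sq, sqrt_inv_smul_sq, ← smul_neg]
    congr 1
    have h5 : (e b - e d) * (e a - e c) = e b * e a - e b * e c - e d * e a + e d * e c := by
      noncomm_ring
    have h6 : (e a - e c) * (e b - e d) = e a * e b - e a * e d - e c * e b + e c * e d := by
      noncomm_ring
    rw [h5, h6, hc.anti b a hab.symm, hc.anti b c hbc, hc.anti d a had.symm, hc.anti d c hcd.symm]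
    abel
  apply Units.ext
  have h7 : ((x * y * x⁻¹ * y⁻¹ : Aˣ) : A) = ((x : A) * (y : A) * ((x⁻¹ : Aˣ) : A)) * ((y⁻¹ : Aˣ) : A) := rfl
  rw [h7, h1]
  simp

end Core

/-- The abstract construction gives the double cover. -/
theorem core_main {A : Type} [Ring A] [Algebra ℝ A] {n : ℕ} {e : Fin n → A} {rev : A →ₗ[ℝ] A}
    (hc : Cl e rev) (hn : 4 ≤ n) :
    ∃ (Γ : Type) (_ : Group Γ) (_ : Finite Γ) (z : Γ) (hz : z ∈ Subgroup.center Γ), orderOf z = 2 ∧
      z ∈ commutator Γ ∧ ∃ _ : (Subgroup.zpowers z).Normal,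
        Nonempty (Γ ⧸ Subgroup.zpowers z ≃* alternatingGroup (Fin n)) := by
  classical
  let a : Fin n := ⟨0, by omega⟩
  let b : Fin n := ⟨1, by omega⟩
  let c : Fin n := ⟨2, by omega⟩
  let d : Fin n := ⟨3, by omega⟩
  have hab : a ≠ b := by simp [a, b, Fin.ext_iff]
  have hac : a ≠ c := by simp [a, c, Fin.ext_iff]
  have had : a ≠ d := by simp [a, d, Fin.ext_iff]
  have hbc : b ≠ c := by simp [b, c, Fin.ext_iff]
  have hbd : b ≠ d := by simp [b, d, Fin.ext_iff]
  have hcd : c ≠ d := by simp [c, d, Fin.ext_iff]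
  have hx₀ : uU hc a b hab * uU hc c d hcd ∈ Gam hc :=
    Subgroup.subset_closure ⟨a, b, c, d, hab, hcd, rfl⟩
  have hy₀ : uU hc a c hac * uU hc b d hbd ∈ Gam hc :=
    Subgroup.subset_closure ⟨a, c, b, d, hac, hbd, rfl⟩
  have hcomm := commutator_eq hc hab hac had hbc hbd hcd
  have hmem : (-1 : Aˣ) ∈ Gam hc := by
    rw [← hcomm]
    exact mul_mem (mul_mem (mul_mem hx₀ hy₀) (inv_mem hx₀)) (inv_mem hy₀)
  let z : Gam hc := ⟨-1, hmem⟩
  have hz2 : z * z = 1 := by
    apply Subtype.ext
    show (-1 : Aˣ) * (-1) = 1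
    simp
  have hz1 : z ≠ 1 := by
    intro h
    have h1 : ((-1 : Aˣ) : A) = ((1 : Aˣ) : A) := congrArg (fun w : Gam hc => (((w : Aˣ)) : A)) h
    apply hc.ne
    simpa using h1.symm
  have hrhoz : rho hc z = 1 := by
    apply IsOver.unique hc (rho_over hc z)
    intro k
    show ((-1 : Aˣ) : A) * e k * (((-1 : Aˣ)⁻¹ : Aˣ) : A) = e k
    simp
  let ρ' : Gam hc →* alternatingGroup (Fin n) := (rho hc).codRestrict _ (rho_mem hc)
  have hsurj : Function.Surjective ρ' := by
    rintro ⟨σ, hσ⟩
    obtain ⟨x, hx⟩ := range_ge hc hσ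
    exact ⟨x, Subtype.ext hx⟩
  have hker : ρ'.ker = Subgroup.zpowers z := by
    apply le_antisymm
    · intro x hx
      have h1 : rho hc x = 1 := by
        have := congrArg Subtype.val (MonoidHom.mem_ker.mp hx)
        exact this
      rcases ker_cases hc x h1 with h2 | h2
      · have : x = 1 := Subtype.ext h2
        rw [this]
        exact one_mem _
      · have : x = z := Subtype.ext h2
        rw [this]
        exact Subgroup.mem_zpowers z
    · rw [Subgroup.zpowers_le]
      rw [MonoidHom.mem_ker]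
      exact Subtype.ext hrhoz
  haveI hnorm : (Subgroup.zpowers z).Normal := hker ▸ inferInstance
  have hcen : z ∈ Subgroup.center (Gam hc) := by
    rw [Subgroup.mem_center_iff]
    intro g
    apply Subtype.ext
    apply Units.ext
    show ((g : Aˣ) : A) * ((-1 : Aˣ) : A) = ((-1 : Aˣ) : A) * ((g : Aˣ) : A)
    simp
  have hfin : Finite (Gam hc) := by
    haveI : Finite (Subgroup.zpowers z) := by
      have h1 : z ^ 2 = 1 := by rw [pow_two, hz2]
      have hp : 0 < 2 := by norm_num
      have hft : IsOfFinOrder z := isOfFinOrder_iff_pow_eq_one.mpr ⟨2, hp, h1⟩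
      exact (finite_zpowers.mpr hft).to_subtype
    haveI : Finite (Gam hc ⧸ Subgroup.zpowers z) := by
      have e1 : Gam hc ⧸ ρ'.ker ≃* alternatingGroup (Fin n) :=
        QuotientGroup.quotientKerEquivOfSurjective ρ' hsurj
      have e2 : Gam hc ⧸ Subgroup.zpowers z ≃* alternatingGroup (Fin n) :=
        (QuotientGroup.quotientMulEquivOfEq hker.symm).trans e1
      exact Finite.of_equiv _ e2.symm.toEquiv
    exact Finite.of_subgroup_quotient (Subgroup.zpowers z)
  refine ⟨Gam hc, inferInstance, hfin, z, hcen, ?_, ?_, hnorm, ?_⟩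
  · apply orderOf_eq_prime (by rw [pow_two]; exact hz2) hz1
  · rw [commutator_def]
    have h1 : z = ⁅(⟨_, hx₀⟩ : Gam hc), (⟨_, hy₀⟩ : Gam hc)⁆ := by
      apply Subtype.ext
      rw [commutatorElement_def]
      exact hcomm.symm
    rw [h1]
    exact Subgroup.commutator_mem_commutator (Subgroup.mem_top _) (Subgroup.mem_top _)
  · exact ⟨(QuotientGroup.quotientMulEquivOfEq hker.symm).trans
      (QuotientGroup.quotientKerEquivOfSurjective ρ' hsurj)⟩

/-- The quadratic form `∑ x_i²`. -/
noncomputable def Qf (n : ℕ) : QuadraticForm ℝ (Fin n → ℝ) :=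
  QuadraticMap.weightedSumSquares ℝ (fun _ : Fin n => (1 : ℝ))

theorem Qf_apply (n : ℕ) (v : Fin n → ℝ) : Qf n v = ∑ k, v k * v k := by
  unfold Qf
  rw [QuadraticMap.weightedSumSquares_apply]
  simp

theorem cl_inst (n : ℕ) :
    Cl (fun i : Fin n => CliffordAlgebra.ι (Qf n) (Pi.single i (1 : ℝ)))
      (CliffordAlgebra.reverse (Q := Qf n)) := by
  refine ⟨?_, ?_, ?_, ?_, ?_, ?_⟩
  · intro i
    rw [CliffordAlgebra.ι_sq_scalar, Qf_apply]
    have h1 : ∑ k, (Pi.single i (1 : ℝ) : Fin n → ℝ) k * (Pi.single i (1 : ℝ) : Fin n → ℝ) k = 1 := by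
      rw [Finset.sum_eq_single i]
      · simp
      · intro b _ hb
        simp [Pi.single_apply, hb]
      · simp
    rw [h1, map_one]
  · intro i j hij
    have h1 := CliffordAlgebra.ι_mul_ι_add_swap (Q := Qf n) (Pi.single i (1 : ℝ)) (Pi.single j (1 : ℝ))
    have h2 : QuadraticMap.polar (Qf n) (Pi.single i (1 : ℝ)) (Pi.single j (1 : ℝ)) = 0 := by
      unfold QuadraticMap.polar
      rw [Qf_apply, Qf_apply, Qf_apply, ← Finset.sum_sub_distrib, ← Finset.sum_sub_distrib]
      apply Finset.sum_eq_zero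
      intro k _
      have h3 : (Pi.single i (1 : ℝ) : Fin n → ℝ) k * (Pi.single j (1 : ℝ) : Fin n → ℝ) k = 0 := by
        by_cases hk : k = i
        · subst hk
          simp [Pi.single_apply, hij]
        · simp [Pi.single_apply, hk]
      simp only [Pi.add_apply]
      linear_combination 2 * h3
    rw [h2, map_zero] at h1
    exact eq_neg_of_add_eq_zero_left h1
  · intro h
    letI : Invertible (2 : ℝ) := invertibleOfNonzero two_ne_zero
    haveI : Nontrivial (CliffordAlgebra (Qf n)) := inferInstance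
    have h1 : (2 : ℝ) • (1 : CliffordAlgebra (Qf n)) = 0 := by
      rw [two_smul]
      nth_rewrite 1 [h]
      simp
    rcases smul_eq_zero.mp h1 with h2 | h2
    · norm_num at h2
    · exact one_ne_zero h2
  · intro i
    exact CliffordAlgebra.reverse_ι _
  · intro a b
    exact CliffordAlgebra.reverse.map_mul a b
  · exact CliffordAlgebra.reverse.map_one

theorem main (n : ℕ) (hn : 4 ≤ n) :
    ∃ (Γ : Type) (_ : Group Γ) (_ : Finite Γ) (z : Γ) (hz : z ∈ Subgroup.center Γ), orderOf z = 2 ∧
      z ∈ commutator Γ ∧ ∃ _ : (Subgroup.zpowers z).Normal,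
        Nonempty (Γ ⧸ Subgroup.zpowers z ≃* alternatingGroup (Fin n)) :=
  core_main (cl_inst n) hn

end Cfsg.Agent.H12.Spin
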