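import Cfsg.Agent.Lib.H12.PReduced2
import Cfsg.Agent.Lib.H12.Kieler
import Cfsg.Agent.Lib.H18.Syl
import Cfsg.Agent.Lib.H13.Basic

/-! Abelian strongly closed subgroups control strong fusion. -/

set_option autoImplicit false
set_option linter.unusedSectionVars false

namespace Cfsg.Agent.H12

open Cfsg

variable {G : Type*} [Group G] [Finite G] {p : ℕ} [hp : Fact p.Prime]

theorem exists_conj_into_sylow {K : Type*} [Group K] [Finite K] (P : Sylow p K)
    (Y C : Subgroup K) [Y.Normal] [C.Normal] (hel : ∀ y ∈ Y, ∃ k : ℕ, y ^ (p ^ k) ∈ C)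
    (W : Subgroup K) (hWY : W ≤ Y) (hWp : IsPGroup p W) :
    ∃ c ∈ C, ∀ w ∈ W, c * w * c⁻¹ ∈ (P : Subgroup K) := by
  have hW' : IsPGroup p (W.subgroupOf Y) := hWp.comap_of_injective Y.subtype Y.subtype_injective
  obtain ⟨P₃, hP₃⟩ := hW'.exists_le_sylow
  obtain ⟨t, ht⟩ := H13.sylow_conj (H18.sylowOfNormal P Y) P₃
  have hdec := exists_sylow_mul_of_elementwise P Y C hel ((t⁻¹ : Y) : K) (t⁻¹ : Y).2
  obtain ⟨a, ha, c, hc, e⟩ := hdec
  refine ⟨c, hc.1, fun w hw => ?_⟩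
  have h1 : (⟨w, hWY hw⟩ : Y) ∈ (P₃ : Subgroup Y) := hP₃ hw
  rw [ht, H13.mem_map_conj] at h1
  have h2 : ((t : K)⁻¹ * w * t) ∈ (P : Subgroup K) := h1
  have e2 : (t : K)⁻¹ = a * c := by simpa using e
  have e3 : (t : K) = c⁻¹ * a⁻¹ := by
    have := congrArg (·⁻¹) e2
    simpa using this
  rw [e2, e3] at h2
  have h3 := (P : Subgroup K).mul_mem ((P : Subgroup K).mul_mem ((P : Subgroup K).inv_mem ha.1) h2) ha.1
  have e4 : a⁻¹ * (a * c * w * (c⁻¹ * a⁻¹)) * a = c * w * c⁻¹ := by group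
  rwa [e4] at h3

section Stab
variable (R Q : Subgroup G)

/-- The subgroup of `N(Q)` acting trivially on `R` and on `Q/R`. -/
def stabGroup (hRc : ∀ a ∈ R, ∀ b ∈ R, a * b = b * a) : Subgroup G where
  carrier := {x | x ∈ Subgroup.normalizer (Q : Set G) ∧ (∀ r ∈ R, x * r = r * x) ∧
    ∀ q ∈ Q, x * q * x⁻¹ * q⁻¹ ∈ R}
  one_mem' := ⟨one_mem _, fun r _ => by simp, fun q _ => by simp⟩
  mul_mem' := by
    rintro x₁ x₂ ⟨h1, h2, h3⟩ ⟨h1', h2', h3'⟩
    refine ⟨mul_mem h1 h1', fun r hr => ?_, fun q hq => ?_⟩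
    · rw [mul_assoc, h2' r hr, ← mul_assoc, h2 r hr, mul_assoc]
    · have h4 := h3' q hq
      have h5 := h3 q hq
      have e : x₁ * x₂ * q * (x₁ * x₂)⁻¹ * q⁻¹ =
          (x₁ * (x₂ * q * x₂⁻¹ * q⁻¹) * x₁⁻¹) * (x₁ * q * x₁⁻¹ * q⁻¹) := by group
      rw [e, h2 _ h4]
      have e2 : x₂ * q * x₂⁻¹ * q⁻¹ * x₁ * x₁⁻¹ = x₂ * q * x₂⁻¹ * q⁻¹ := by group
      rw [e2]
      exact R.mul_mem h4 h5
  inv_mem' := by
    rintro x ⟨h1, h2, h3⟩
    refine ⟨inv_mem h1, fun r hr => ?_, fun q hq => ?_⟩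
    · have := h2 r hr
      rw [inv_mul_eq_iff_eq_mul, ← mul_assoc, this]
      group
    · have hq' : x⁻¹ * q * x ∈ Q := by
        have := (Subgroup.mem_normalizer_iff.1 (inv_mem h1) q).1 hq
        simpa using this
      have h4 := R.inv_mem (h3 _ hq')
      have e : x⁻¹ * q * x⁻¹⁻¹ * q⁻¹ = (x * (x⁻¹ * q * x) * x⁻¹ * (x⁻¹ * q * x)⁻¹)⁻¹ := by group
      rw [e]
      exact h4

variable {R Q} {hRc : ∀ a ∈ R, ∀ b ∈ R, a * b = b * a}

theorem mem_stabGroup {x : G} : x ∈ stabGroup R Q hRc ↔ x ∈ Subgroup.normalizer (Q : Set G) ∧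
    (∀ r ∈ R, x * r = r * x) ∧ ∀ q ∈ Q, x * q * x⁻¹ * q⁻¹ ∈ R := Iff.rfl

theorem stabGroup_pow (hR : IsPGroup p R) {x : G} (hx : x ∈ stabGroup R Q hRc) :
    ∃ k : ℕ, x ^ (p ^ k) ∈ Subgroup.centralizer (Q : Set G) := by
  obtain ⟨k, hk⟩ := IsPGroup.iff_card.1 hR
  refine ⟨k, ?_⟩
  rw [Subgroup.mem_centralizer_iff]
  intro q hq
  obtain ⟨-, h2, h3⟩ := hx
  set r := x * q * x⁻¹ * q⁻¹ with hr
  have hrR : r ∈ R := h3 q hq
  have hpow : ∀ n : ℕ, x ^ n * q * (x ^ n)⁻¹ = r ^ n * q := by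
    intro n
    induction n with
    | zero => simp
    | succ n ih =>
      have hrn : x * r ^ n = r ^ n * x := (show Commute x r from h2 r hrR).pow_right n
      calc x ^ (n + 1) * q * (x ^ (n + 1))⁻¹ = x * (x ^ n * q * (x ^ n)⁻¹) * x⁻¹ := by
            rw [pow_succ']; group
        _ = x * (r ^ n * q) * x⁻¹ := by rw [ih]
        _ = (x * r ^ n) * q * x⁻¹ := by group
        _ = (r ^ n * x) * q * x⁻¹ := by rw [hrn]
        _ = r ^ n * (x * q * x⁻¹) := by group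
        _ = r ^ n * (r * q) := by rw [hr]; group
        _ = r ^ (n + 1) * q := by rw [pow_succ]; group
  have h1 := hpow (p ^ k)
  have h4 : r ^ (p ^ k) = 1 := by
    have : (⟨r, hrR⟩ : R) ^ (p ^ k) = 1 := by
      rw [← hk]; exact pow_card_eq_one'
    simpa using congrArg Subtype.val this
  rw [h4, one_mul, mul_inv_eq_iff_eq_mul] at h1
  exact h1.symm

end Stab

section Main
variable {S A : Subgroup G} (hAc : ∀ a ∈ A, ∀ b ∈ A, a * b = b * a)
  (hAS : A ≤ S) (hsc : ∀ x ∈ A, ∀ g : G, g * x * g⁻¹ ∈ S → g * x * g⁻¹ ∈ A) (hSp : IsPGroup p S)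

include hAS hsc in
theorem strong_normal {s a : G} (hs : s ∈ S) (ha : a ∈ A) : s * a * s⁻¹ ∈ A :=
  hsc a ha s (S.mul_mem (S.mul_mem hs (hAS ha)) (S.inv_mem hs))

include hAc hAS hsc hSp in
/-- The extension step. -/
theorem ext_step {Q : Subgroup G} (hQS : Q ≤ S) (y : G) (hQ' : Q.map (MulAut.conj y).toMonoidHom ≤ S)
    (hsyl : ∃ P : Sylow p ↥(Subgroup.normalizer ((Q.map (MulAut.conj y).toMonoidHom : Subgroup G) : Set G)),
      ∀ x ∈ (P : Subgroup ↥(Subgroup.normalizer ((Q.map (MulAut.conj y).toMonoidHom : Subgroup G) : Set G))),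
        (x : G) ∈ S) :
    ∃ c ∈ Subgroup.centralizer ((Q.map (MulAut.conj y).toMonoidHom : Subgroup G) : Set G),
      (Q ⊔ (A ⊓ Subgroup.normalizer (Q : Set G))).map (MulAut.conj (c * y)).toMonoidHom ≤ S := by
  set Q' := Q.map (MulAut.conj y).toMonoidHom with hQ'd
  set M := Subgroup.normalizer (Q' : Set G) with hM
  obtain ⟨P, hP⟩ := hsyl
  set R := A ⊓ Q' with hR
  have hRc : ∀ a ∈ R, ∀ b ∈ R, a * b = b * a := fun a ha b hb => hAc a ha.1 b hb.1
  have hRp : IsPGroup p R := hSp.to_le (inf_le_right.trans hQ')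
  -- `M` normalizes `R`
  have hMR : ∀ n ∈ M, ∀ r ∈ R, n * r * n⁻¹ ∈ R := by
    intro n hn r hr
    have h1 : n * r * n⁻¹ ∈ Q' := (Subgroup.mem_normalizer_iff.1 hn r).1 hr.2
    exact ⟨hsc r hr.1 n (hQ' h1), h1⟩
  have hMR' : M ≤ Subgroup.normalizer (R : Set G) := by
    intro n hn
    apply H13.mem_normalizer_of_map_conj_le
    rintro _ ⟨r, hr, rfl⟩
    exact hMR n hn r hr
  set Y := stabGroup R Q' hRc with hY
  have hYM : Y ≤ M := fun x hx => hx.1
  -- normality of `Y`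
  have hMY : M ≤ Subgroup.normalizer (Y : Set G) := by
    intro n hn
    apply H13.mem_normalizer_of_map_conj_le
    rintro _ ⟨x, hx, rfl⟩
    obtain ⟨h1, h2, h3⟩ := hx
    change n * x * n⁻¹ ∈ Y
    refine ⟨M.mul_mem (M.mul_mem hn h1) (M.inv_mem hn), fun r hr => ?_, fun q hq => ?_⟩
    · have hr' : n⁻¹ * r * n⁻¹⁻¹ ∈ R := hMR _ (inv_mem hn) r hr
      have h4 := h2 _ hr'
      simp only [inv_inv] at h4
      calc n * x * n⁻¹ * r = n * (x * (n⁻¹ * r * n)) * n⁻¹ := by group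
        _ = n * ((n⁻¹ * r * n) * x) * n⁻¹ := by rw [h4]
        _ = _ := by group
    · have hq' : n⁻¹ * q * n⁻¹⁻¹ ∈ Q' := (Subgroup.mem_normalizer_iff.1 (inv_mem hn) q).1 hq
      have h4 := h3 _ hq'
      have h5 := hMR n hn _ h4
      have e : n * (x * (n⁻¹ * q * n⁻¹⁻¹) * x⁻¹ * (n⁻¹ * q * n⁻¹⁻¹)⁻¹) * n⁻¹ =
          n * x * n⁻¹ * q * (n * x * n⁻¹)⁻¹ * q⁻¹ := by group
      rwa [e] at h5
  have hMC : M ≤ Subgroup.normalizer ((Subgroup.centralizer (Q' : Set G) : Subgroup G) : Set G) :=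
    fun n hn => centralizer_normalized hn
  haveI hYn : (Y.subgroupOf M).Normal := (Subgroup.normal_subgroupOf_iff_le_normalizer hYM).2 hMY
  have hCM : Subgroup.centralizer (Q' : Set G) ≤ M := Subgroup.centralizer_le_normalizer _
  haveI hCn : ((Subgroup.centralizer (Q' : Set G)).subgroupOf M).Normal :=
    (Subgroup.normal_subgroupOf_iff_le_normalizer hCM).2 hMC
  -- the subgroup `W`
  set W := (A ⊓ Subgroup.normalizer (Q : Set G)).map (MulAut.conj y).toMonoidHom with hW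
  have hWp : IsPGroup p W := (hSp.to_le (inf_le_left.trans hAS)).map _
  have hback : ∀ r ∈ R, y⁻¹ * r * y ∈ A ⊓ Q := by
    intro r hr
    have h1 : y⁻¹ * r * y ∈ Q := H13.mem_map_conj.1 hr.2
    refine ⟨?_, h1⟩
    have := hsc r hr.1 y⁻¹ (by simpa using hQS h1)
    simpa using this
  have hWY : W ≤ Y := by
    rintro _ ⟨a, ⟨haA, haN⟩, rfl⟩
    change y * a * y⁻¹ ∈ Y
    refine ⟨?_, fun r hr => ?_, fun q hq => ?_⟩
    · have := H13.conj_mem_map_conj (g := y) haN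
      rw [H13.map_conj_normalizer] at this
      exact this
    · have h1 := hback r hr
      have h2 := hAc a haA _ h1.1
      calc y * a * y⁻¹ * r = y * (a * (y⁻¹ * r * y)) * y⁻¹ := by group
        _ = y * ((y⁻¹ * r * y) * a) * y⁻¹ := by rw [h2]
        _ = _ := by group
    · have hq1 : y⁻¹ * q * y ∈ Q := H13.mem_map_conj.1 hq
      set q₁ := y⁻¹ * q * y with hq₁
      have hu : a * q₁ * a⁻¹ * q₁⁻¹ ∈ A ⊓ Q := by
        constructor
        · have h3 := strong_normal hAS hsc (hQS hq1) (A.inv_mem haA)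
          have e : a * q₁ * a⁻¹ * q₁⁻¹ = a * (q₁ * a⁻¹ * q₁⁻¹) := by group
          rw [e]
          exact A.mul_mem haA h3
        · exact Q.mul_mem ((Subgroup.mem_normalizer_iff.1 haN _).1 hq1) (Q.inv_mem hq1)
      have e : y * (a * q₁ * a⁻¹ * q₁⁻¹) * y⁻¹ = y * a * y⁻¹ * q * (y * a * y⁻¹)⁻¹ * q⁻¹ := by
        rw [hq₁]; group
      rw [← e]
      have h4 : y * (a * q₁ * a⁻¹ * q₁⁻¹) * y⁻¹ ∈ Q' := H13.conj_mem_map_conj hu.2
      exact ⟨hsc _ hu.1 y (hQ' h4), h4⟩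
  -- the conjugation
  obtain ⟨c, hc, hcW⟩ := exists_conj_into_sylow (p := p) P (Y.subgroupOf M)
    ((Subgroup.centralizer (Q' : Set G)).subgroupOf M)
    (by
      intro x hx
      obtain ⟨k, hk⟩ := stabGroup_pow (hRc := hRc) hRp hx
      exact ⟨k, by
        rw [Subgroup.mem_subgroupOf]
        simpa using hk⟩)
    (W.subgroupOf M)
    (by
      intro x hx
      exact hWY hx)
    (hWp.comap_of_injective M.subtype M.subtype_injective)
  refine ⟨c, hc, ?_⟩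
  rw [← H13.map_conj_mul, Subgroup.map_sup, Subgroup.map_sup, sup_le_iff]
  constructor
  · rintro _ ⟨q, hq, rfl⟩
    have h1 : q * (c : G) = (c : G) * q := Subgroup.mem_centralizer_iff.1 hc q hq
    have e : (MulAut.conj (c : G)).toMonoidHom q = q := by
      simp only [MulEquiv.coe_toMonoidHom, MulAut.conj_apply]
      rw [← h1]; group
    rw [e]
    exact hQ' hq
  · rintro _ ⟨w, hw, rfl⟩
    exact hP _ (hcW ⟨w, hYM (hWY hw)⟩ hw)

include hSp hAS in
theorem exists_tame_conj [Nonempty (Sylow p G)] (S₀ : Sylow p G) (hS₀ : (S₀ : Subgroup G) = S) {Q' : Subgroup G} (hQ' : Q' ≤ S) :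
    ∃ x : G, Q'.map (MulAut.conj x).toMonoidHom ≤ S ∧
      ∃ P : Sylow p ↥(Subgroup.normalizer ((Q'.map (MulAut.conj x).toMonoidHom : Subgroup G) : Set G)),
      ∀ z ∈ (P : Subgroup ↥(Subgroup.normalizer ((Q'.map (MulAut.conj x).toMonoidHom : Subgroup G) : Set G))),
        (z : G) ∈ S := by
  set M := Subgroup.normalizer (Q' : Set G) with hM
  obtain ⟨P₀⟩ : Nonempty (Sylow p M) := inferInstance
  have hP₁ : IsPGroup p ((P₀ : Subgroup M).map M.subtype) := P₀.2.map _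
  obtain ⟨T, hT⟩ := hP₁.exists_le_sylow
  obtain ⟨x, hx⟩ := H13.sylow_conj T S₀
  have hle : ((P₀ : Subgroup M).map M.subtype).map (MulAut.conj x).toMonoidHom ≤ S := by
    rw [← hS₀, hx]
    exact Subgroup.map_mono hT
  have hQM : Q' ≤ M := Subgroup.le_normalizer
  haveI hQn : (Q'.subgroupOf M).Normal := (Subgroup.normal_subgroupOf_iff_le_normalizer hQM).2 le_rfl
  have hQP : Q'.subgroupOf M ≤ (P₀ : Subgroup M) :=
    H13.sylow_normal_of_normal_le (N := Q'.subgroupOf M)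
      ((hSp.to_le hQ').comap_of_injective M.subtype M.subtype_injective) P₀
  refine ⟨x, ?_, ?_⟩
  · rintro _ ⟨q, hq, rfl⟩
    exact hle ⟨q, ⟨⟨q, hQM hq⟩, hQP hq, rfl⟩, rfl⟩
  · have hN : Subgroup.normalizer ((Q'.map (MulAut.conj x).toMonoidHom : Subgroup G) : Set G) =
        M.map (MulAut.conj x).toMonoidHom := (H13.map_conj_normalizer x Q').symm
    rw [hN]
    have hsurj := (MulAut.conj x).toMonoidHom.subgroupMap_surjective M
    refine ⟨Sylow.mapSurjective hsurj P₀, ?_⟩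
    rintro _ ⟨z, hz, rfl⟩
    exact hle ⟨_, ⟨z, hz, rfl⟩, rfl⟩

include hAc hAS hsc hSp in
/-- The main theorem. -/
theorem strong_control (S₀ : Sylow p G) (hS₀ : (S₀ : Subgroup G) = S) :
    ∀ (n : ℕ) (Q : Subgroup G) (g : G), Nat.card G - Nat.card Q = n → Q ≤ S →
      Q.map (MulAut.conj g).toMonoidHom ≤ S →
      ∃ h ∈ Subgroup.normalizer (A : Set G), ∀ q ∈ Q, g * q * g⁻¹ = h * q * h⁻¹ := by
  intro n
  induction n using Nat.strong_induction_on with
  | _ n ih =>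
  -- the case with a tame target
  have H1 : ∀ (Q₀ : Subgroup G) (y : G), Nat.card G - Nat.card Q₀ = n → Q₀ ≤ S →
      Q₀.map (MulAut.conj y).toMonoidHom ≤ S →
      (∃ P : Sylow p ↥(Subgroup.normalizer ((Q₀.map (MulAut.conj y).toMonoidHom : Subgroup G) : Set G)),
        ∀ z ∈ (P : Subgroup ↥(Subgroup.normalizer ((Q₀.map (MulAut.conj y).toMonoidHom : Subgroup G) : Set G))),
        (z : G) ∈ S) →
      ∃ h ∈ Subgroup.normalizer (A : Set G), ∀ q ∈ Q₀, y * q * y⁻¹ = h * q * h⁻¹ := by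
    intro Q₀ y hn hQ₀ hy hsyl
    by_cases hAQ : A ≤ Q₀
    · refine ⟨y, ?_, fun _ _ => rfl⟩
      apply H13.mem_normalizer_of_map_conj_le
      rintro _ ⟨a, ha, rfl⟩
      exact hsc a ha y (hy ⟨a, hAQ ha, rfl⟩)
    · obtain ⟨c, hc, hcS⟩ := ext_step hAc hAS hsc hSp hQ₀ y hy hsyl
      set Q₁ := Q₀ ⊔ (A ⊓ Subgroup.normalizer (Q₀ : Set G)) with hQ₁
      have hQ₁S : Q₁ ≤ S := sup_le hQ₀ (inf_le_left.trans hAS)
      -- `Q₀ < Q₁`
      have hlt : Q₀ < Q₁ := by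
        have hnm : Q₀ ≤ Subgroup.normalizer (A : Set G) := fun s hs => by
          apply H13.mem_normalizer_of_map_conj_le
          rintro _ ⟨a, ha, rfl⟩
          exact strong_normal hAS hsc (hQ₀ hs) ha
        have hTS : Q₀ ⊔ A ≤ S := sup_le hQ₀ hAS
        have hD1 : Q₀ ≤ Subgroup.normalizer ((A ⊓ Q₀ : Subgroup G) : Set G) := fun s hs => by
          apply H13.mem_normalizer_of_map_conj_le
          rintro _ ⟨a, ha, rfl⟩
          exact ⟨strong_normal hAS hsc (hQ₀ hs) ha.1, Q₀.mul_mem (Q₀.mul_mem hs ha.2) (Q₀.inv_mem hs)⟩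
        have hD2 : A ≤ Subgroup.normalizer ((A ⊓ Q₀ : Subgroup G) : Set G) := fun s hs => by
          apply H13.mem_normalizer_of_map_conj_le
          rintro _ ⟨a, ha, rfl⟩
          have e : (MulAut.conj s).toMonoidHom a = a := by
            simp only [MulEquiv.coe_toMonoidHom, MulAut.conj_apply]
            rw [hAc s hs a ha.1]; group
          rw [e]; exact ha
        obtain ⟨a, ha, haD, hat⟩ := exists_fixed_coset (hSp.to_le hTS)
          (inf_le_left : A ⊓ Q₀ ≤ A) le_sup_right (sup_le hD1 hD2)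
          (sup_le hnm Subgroup.le_normalizer)
          (fun h => hAQ (by rw [← h]; exact inf_le_right))
        have haN : a ∈ Subgroup.normalizer (Q₀ : Set G) := by
          apply H13.mem_normalizer_of_map_conj_le
          rintro _ ⟨q, hq, rfl⟩
          change a * q * a⁻¹ ∈ Q₀
          have h1 := (hat q⁻¹ (Subgroup.mem_sup_left (Q₀.inv_mem hq))).2
          have h2 := Q₀.mul_mem hq h1
          have e : q * (q⁻¹ * a * q⁻¹⁻¹ * a⁻¹) = a * q * a⁻¹ := by group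
          rwa [e] at h2
        refine lt_of_le_of_ne le_sup_left fun he => haD ⟨ha, ?_⟩
        rw [he]
        exact Subgroup.mem_sup_right ⟨ha, haN⟩
      have hcard : Nat.card Q₀ < Nat.card Q₁ := by
        by_contra hc
        exact hlt.ne (Subgroup.eq_of_le_of_card_ge hlt.le (not_lt.1 hc))
      have hcardle : Nat.card Q₁ ≤ Nat.card G := Subgroup.card_le_card_group Q₁
      obtain ⟨h, hh, he⟩ := ih (Nat.card G - Nat.card Q₁) (by omega) Q₁ (c * y) rfl hQ₁S hcS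
      refine ⟨h, hh, fun q hq => ?_⟩
      rw [← he q (Subgroup.mem_sup_left hq)]
      have h1 : y * q * y⁻¹ * c = c * (y * q * y⁻¹) :=
        Subgroup.mem_centralizer_iff.1 hc _ ⟨q, hq, rfl⟩
      calc y * q * y⁻¹ = c * (y * q * y⁻¹) * c⁻¹ := by rw [← h1]; group
        _ = _ := by group
  intro Q g hn hQ hg
  obtain ⟨x, hx, hsyl⟩ := exists_tame_conj hAS hSp S₀ hS₀ hg
  have hcardQ' : Nat.card (Q.map (MulAut.conj g).toMonoidHom) = Nat.card Q := H13.card_map_conj g Q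
  obtain ⟨h₂, hh₂, e₂⟩ := H1 _ x (by rw [hcardQ']; exact hn) hg hx hsyl
  rw [H13.map_conj_mul] at hx hsyl
  obtain ⟨h₁, hh₁, e₁⟩ := H1 Q (x * g) hn hQ hx hsyl
  refine ⟨h₂⁻¹ * h₁, mul_mem (inv_mem hh₂) hh₁, fun q hq => ?_⟩
  have h1 := e₁ q hq
  have h2 := e₂ (g * q * g⁻¹) ⟨q, hq, rfl⟩
  have h3 : h₂ * (g * q * g⁻¹) * h₂⁻¹ = h₁ * q * h₁⁻¹ := by
    rw [← h2, ← h1]; group
  calc g * q * g⁻¹ = h₂⁻¹ * (h₂ * (g * q * g⁻¹) * h₂⁻¹) * h₂ := by group
    _ = h₂⁻¹ * (h₁ * q * h₁⁻¹) * h₂ := by rw [h3]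
    _ = _ := by group

end Main

end Cfsg.Agent.H12
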