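import Mathlib

/-! Cocycle sums over cosets: a hands-on transfer, with the block decomposition used for the
Wielandt--Yoshida theorems. -/

namespace Cfsg.Agent.H12.Yoshida

open Function Finset

section Cycle

/-- Products over a set invariant under a permutation decompose along the cycles. -/
lemma prod_cycle {α F : Type*} [DecidableEq α] [CommMonoid F] [Finite α] (π : Equiv.Perm α)
    (f : α → F) (a : F) (s : Finset α) (hinv : ∀ ω ∈ s, π ω ∈ s)
    (h : ∀ ω ∈ s, ∏ i ∈ range (minimalPeriod π ω), f (π^[i] ω) = a ^ minimalPeriod π ω) :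
    ∏ ω ∈ s, f ω = a ^ s.card := by
  classical
  induction s using Finset.strongInduction with
  | H s ih =>
    rcases s.eq_empty_or_nonempty with rfl | ⟨ω, hω⟩
    · simp
    set n := minimalPeriod π ω with hn
    have hord : π ^ orderOf π = 1 := pow_orderOf_eq_one π
    have hper : IsPeriodicPt π (orderOf π) ω := by
      show π^[orderOf π] ω = ω
      rw [← Equiv.Perm.coe_pow, hord]
      rfl
    have hnpos : 0 < n := hper.minimalPeriod_pos (orderOf_pos π)
    set S := (range n).image (fun i => π^[i] ω) with hS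
    have hiter : ∀ i, π^[i] ω ∈ s := by
      intro i
      induction i with
      | zero => exact hω
      | succ i hi =>
        rw [iterate_succ_apply']
        exact hinv _ hi
    have hSs : S ⊆ s := by
      intro y hy
      rw [hS, mem_image] at hy
      obtain ⟨i, -, rfl⟩ := hy
      exact hiter i
    have hinj : Set.InjOn (fun i => π^[i] ω) (range n : Set ℕ) := by
      intro i hi j hj hij
      have := iterate_injOn_Iio_minimalPeriod (f := π) (x := ω)
      apply this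
      · simpa using hi
      · simpa using hj
      · exact hij
    have hcard : S.card = n := by
      rw [hS, card_image_of_injOn hinj, card_range]
    have hprodS : ∏ y ∈ S, f y = a ^ n := by
      rw [hS, prod_image hinj]
      exact h ω hω
    have hsub : s \ S ⊂ s := by
      refine ⟨sdiff_subset, fun hh => ?_⟩
      have h0 : ω ∈ s \ S := hh hω
      rw [mem_sdiff] at h0
      apply h0.2
      rw [hS, mem_image]
      exact ⟨0, mem_range.mpr hnpos, rfl⟩
    have hinv' : ∀ y ∈ s \ S, π y ∈ s \ S := by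
      intro y hy
      rw [mem_sdiff] at hy ⊢
      refine ⟨hinv y hy.1, fun hmem => hy.2 ?_⟩
      rw [hS, mem_image] at hmem ⊢
      obtain ⟨i, hi, hiy⟩ := hmem
      rw [mem_range] at hi
      rcases i with _ | j
      · refine ⟨n - 1, mem_range.mpr (by omega), ?_⟩
        apply π.injective
        have h1 : π (π^[n - 1] ω) = π^[n] ω := by
          rw [← iterate_succ_apply' (⇑π) (n - 1) ω]
          congr 1
          omega
        rw [h1, hn, iterate_minimalPeriod]
        exact hiy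
      · refine ⟨j, mem_range.mpr (by omega), ?_⟩
        apply π.injective
        rw [← iterate_succ_apply' (⇑π) j ω]
        exact hiy
    have hih := ih (s \ S) hsub hinv' (fun y hy => h y (mem_sdiff.mp hy).1)
    rw [← prod_sdiff hSs, hih, hprodS, ← pow_add]
    congr 1
    rw [card_sdiff_of_subset hSs, hcard]
    have := card_le_card hSs
    omega

end Cycle

section Orbits

variable {G α F : Type*} [Group G] [MulAction G α] [Finite α] [CommMonoid F]

open Classical in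
/-- Orbit of a subgroup, as a finset. -/
noncomputable def orbF (X : Subgroup G) (ω : α) : Finset α :=
  haveI := Fintype.ofFinite α
  univ.filter (fun y => ∃ g ∈ X, g • ω = y)

lemma mem_orbF {X : Subgroup G} {ω y : α} : y ∈ orbF X ω ↔ ∃ g ∈ X, g • ω = y := by
  classical
  simp [orbF]

lemma self_mem_orbF (X : Subgroup G) (ω : α) : ω ∈ orbF X ω :=
  mem_orbF.mpr ⟨1, X.one_mem, one_smul _ _⟩

lemma orbF_smul_mem {X : Subgroup G} {ω y : α} {g : G} (hg : g ∈ X) (hy : y ∈ orbF X ω) :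
    g • y ∈ orbF X ω := by
  rw [mem_orbF] at hy ⊢
  obtain ⟨h, hh, rfl⟩ := hy
  exact ⟨g * h, X.mul_mem hg hh, mul_smul _ _ _⟩

lemma orbF_eq_of_mem {X : Subgroup G} {ω y : α} (hy : y ∈ orbF X ω) : orbF X y = orbF X ω := by
  rw [mem_orbF] at hy
  obtain ⟨h, hh, rfl⟩ := hy
  ext u
  simp only [mem_orbF]
  constructor
  · rintro ⟨g, hg, rfl⟩
    exact ⟨g * h, X.mul_mem hg hh, mul_smul _ _ _⟩
  · rintro ⟨g, hg, rfl⟩
    refine ⟨g * h⁻¹, X.mul_mem hg (X.inv_mem hh), ?_⟩
    rw [mul_smul, inv_smul_smul]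

/-- Products over a set invariant under a subgroup decompose along the orbits. -/
lemma prod_orbits (X : Subgroup G) (f : α → F) (s : Finset α)
    (hinv : ∀ g ∈ X, ∀ ω ∈ s, g • ω ∈ s)
    (h : ∀ ω ∈ s, ∏ y ∈ orbF X ω, f y = 1) : ∏ ω ∈ s, f ω = 1 := by
  classical
  induction s using Finset.strongInduction with
  | H s ih =>
    rcases s.eq_empty_or_nonempty with rfl | ⟨ω, hω⟩
    · simp
    have hOs : orbF X ω ⊆ s := by
      intro y hy
      obtain ⟨g, hg, rfl⟩ := mem_orbF.mp hy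
      exact hinv g hg ω hω
    have hsub : s \ orbF X ω ⊂ s := by
      refine ⟨sdiff_subset, fun hh => ?_⟩
      have h0 := hh hω
      rw [mem_sdiff] at h0
      exact h0.2 (self_mem_orbF X ω)
    have hinv' : ∀ g ∈ X, ∀ y ∈ s \ orbF X ω, g • y ∈ s \ orbF X ω := by
      intro g hg y hy
      rw [mem_sdiff] at hy ⊢
      refine ⟨hinv g hg y hy.1, fun hmem => hy.2 ?_⟩
      have := orbF_smul_mem (X.inv_mem hg) hmem
      rwa [inv_smul_smul] at this
    have hih := ih _ hsub hinv' (fun y hy => h y (mem_sdiff.mp hy).1)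
    rw [← prod_sdiff hOs, hih, h ω hω, mul_one]

end Orbits

section Cocycle

variable {G : Type*} [Group G] (P : Subgroup G) {E : Type*} [CommGroup E] (Λ : G → E)

/-- Representatives of the left cosets. -/
noncomputable def tv (ω : G ⧸ P) : G := ω.out

lemma tv_mk (ω : G ⧸ P) : ((tv P ω : G) : G ⧸ P) = ω := QuotientGroup.out_eq' ω

lemma tv_mem (x : G) (ω : G ⧸ P) : (tv P (x • ω))⁻¹ * x * tv P ω ∈ P := by
  have h0 : ((x * tv P ω : G) : G ⧸ P) = x • ω := by
    conv_rhs => rw [← tv_mk P ω]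
    rfl
  have h1 : ((tv P (x • ω) : G) : G ⧸ P) = ((x * tv P ω : G) : G ⧸ P) := by
    rw [tv_mk, h0]
  have h2 := QuotientGroup.eq.mp h1
  rwa [← mul_assoc] at h2

/-- The cocycle. -/
noncomputable def cc (x : G) (ω : G ⧸ P) : E := Λ ((tv P (x • ω))⁻¹ * x * tv P ω)

/-- Sum of the cocycle over a finite set. -/
noncomputable def TT (O : Finset (G ⧸ P)) (x : G) : E := ∏ ω ∈ O, cc P Λ x ω

variable {P Λ}

lemma cc_mul (hΛ : ∀ a ∈ P, ∀ b ∈ P, Λ (a * b) = Λ a * Λ b) (x y : G) (ω : G ⧸ P) :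
    cc P Λ (x * y) ω = cc P Λ x (y • ω) * cc P Λ y ω := by
  unfold cc
  rw [← hΛ _ (tv_mem P x _) _ (tv_mem P y _), mul_smul]
  congr 1
  group

lemma one_of_mult (hΛ : ∀ a ∈ P, ∀ b ∈ P, Λ (a * b) = Λ a * Λ b) : Λ 1 = 1 := by
  have := hΛ 1 P.one_mem 1 P.one_mem
  rw [mul_one] at this
  exact left_eq_mul.mp this

lemma pow_of_mult (hΛ : ∀ a ∈ P, ∀ b ∈ P, Λ (a * b) = Λ a * Λ b) {x : G} (hx : x ∈ P) (n : ℕ) :
    Λ (x ^ n) = Λ x ^ n := by
  induction n with
  | zero => simpa using one_of_mult hΛ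
  | succ n ih => rw [pow_succ, pow_succ, hΛ _ (P.pow_mem hx n) _ hx, ih]

lemma cc_one (hΛ : ∀ a ∈ P, ∀ b ∈ P, Λ (a * b) = Λ a * Λ b) (ω : G ⧸ P) :
    cc P Λ (1 : G) ω = 1 := by
  unfold cc
  rw [one_smul, mul_one, inv_mul_cancel]
  exact one_of_mult hΛ

lemma cc_pow (hΛ : ∀ a ∈ P, ∀ b ∈ P, Λ (a * b) = Λ a * Λ b) (x : G) (ω : G ⧸ P) (n : ℕ) :
    ∏ i ∈ range n, cc P Λ x (x ^ i • ω) = cc P Λ (x ^ n) ω := by
  induction n with
  | zero => simp [cc_one hΛ]
  | succ n ih =>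
    rw [prod_range_succ, ih, pow_succ', cc_mul hΛ, mul_comm]

lemma toPerm_iterate (x : G) (ω : G ⧸ P) (i : ℕ) :
    (MulAction.toPerm x : Equiv.Perm (G ⧸ P))^[i] ω = x ^ i • ω := by
  induction i with
  | zero => simp
  | succ i ih =>
    rw [iterate_succ_apply', ih, pow_succ', mul_smul]
    rfl

/-- `cc` at a point fixed by `x`. -/
lemma cc_of_fix {x : G} {ω : G ⧸ P} (h : x • ω = ω) :
    cc P Λ x ω = Λ ((tv P ω)⁻¹ * x * tv P ω) := by
  unfold cc
  rw [h]

lemma conj_mem_of_fix {x : G} {ω : G ⧸ P} (h : x • ω = ω) : (tv P ω)⁻¹ * x * tv P ω ∈ P := by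
  have := tv_mem P x ω
  rwa [h] at this

lemma smul_eq_of_conj_mem {x : G} {ω : G ⧸ P} (h : (tv P ω)⁻¹ * x * tv P ω ∈ P) : x • ω = ω := by
  have h0 : ((x * tv P ω : G) : G ⧸ P) = x • ω := by
    conv_rhs => rw [← tv_mk P ω]
    rfl
  rw [← h0]
  conv_rhs => rw [← tv_mk P ω]
  apply QuotientGroup.eq.mpr
  have : (x * tv P ω)⁻¹ * tv P ω = ((tv P ω)⁻¹ * x * tv P ω)⁻¹ := by group
  rw [this]
  exact P.inv_mem h

/-- A product is unchanged under a permutation from an invariance group. -/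
lemma prod_smul_eq {X : Subgroup G} {O : Finset (G ⧸ P)} (hO : ∀ y ∈ X, ∀ ω ∈ O, y • ω ∈ O)
    {y : G} (hy : y ∈ X) (f : G ⧸ P → E) : ∏ ω ∈ O, f (y • ω) = ∏ ω ∈ O, f ω := by
  apply prod_nbij' (fun ω => y • ω) (fun ω => y⁻¹ • ω)
  · intro ω hω
    exact hO y hy ω hω
  · intro ω hω
    exact hO _ (X.inv_mem hy) ω hω
  · intro ω _
    exact inv_smul_smul _ _
  · intro ω _
    exact smul_inv_smul _ _
  · intro ω _
    rfl

lemma TT_mul (hΛ : ∀ a ∈ P, ∀ b ∈ P, Λ (a * b) = Λ a * Λ b) {X : Subgroup G}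
    {O : Finset (G ⧸ P)} (hO : ∀ y ∈ X, ∀ ω ∈ O, y • ω ∈ O) (x : G) {y : G} (hy : y ∈ X) :
    TT P Λ O (x * y) = TT P Λ O x * TT P Λ O y := by
  unfold TT
  simp_rw [cc_mul hΛ]
  rw [prod_mul_distrib, prod_smul_eq hO hy (cc P Λ x)]

/-- Shifting the cocycle along a group element. -/
lemma TT_shift (hΛ : ∀ a ∈ P, ∀ b ∈ P, Λ (a * b) = Λ a * Λ b) {X : Subgroup G}
    {O : Finset (G ⧸ P)} (hO : ∀ y ∈ X, ∀ ω ∈ O, y • ω ∈ O) (x g : G) (hxg : g⁻¹ * x * g ∈ X) :
    ∏ ω ∈ O, cc P Λ x (g • ω) = TT P Λ O (g⁻¹ * x * g) := by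
  set x' := g⁻¹ * x * g with hx'
  have h1 : ∀ ω, cc P Λ x (g • ω) = cc P Λ g (x' • ω) * cc P Λ x' ω * (cc P Λ g ω)⁻¹ := by
    intro ω
    have h2 : x * g = g * x' := by rw [hx']; group
    have h3 := cc_mul hΛ x g ω
    rw [h2, cc_mul hΛ g x' ω] at h3
    rw [h3]
    simp
  simp_rw [h1]
  rw [prod_mul_distrib, prod_mul_distrib, prod_inv_distrib, prod_smul_eq hO hxg (cc P Λ g)]
  unfold TT
  rw [mul_comm (∏ ω ∈ O, cc P Λ g ω), mul_assoc, mul_inv_cancel, mul_one]

/-- Block decomposition. -/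
lemma TT_block [Finite (G ⧸ P)] (hΛ : ∀ a ∈ P, ∀ b ∈ P, Λ (a * b) = Λ a * Λ b) {Y M : Subgroup G}
    (hMY : M ≤ Y) (hMn : ∀ y ∈ Y, ∀ m ∈ M, y * m * y⁻¹ ∈ M) {p : ℕ} {z : G} (hzY : z ∈ Y)
    (hcov : ∀ y ∈ Y, ∃ i < p, (z ^ i)⁻¹ * y ∈ M)
    (hpow : ∀ i < p, ∀ j < p, (z ^ j)⁻¹ * z ^ i ∈ M → i = j)
    {ω₁ : G ⧸ P} (hstab : ∀ y ∈ Y, y • ω₁ = ω₁ → y ∈ M) {x : G} (hx : x ∈ M) :
    TT P Λ (orbF Y ω₁) x = ∏ i ∈ range p, TT P Λ (orbF M ω₁) ((z ^ i)⁻¹ * x * z ^ i) := by
  classical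
  have hO₀ : ∀ y ∈ M, ∀ ω ∈ orbF M ω₁, y • ω ∈ orbF M ω₁ := fun y hy ω hω => orbF_smul_mem hy hω
  have hconj : ∀ i : ℕ, (z ^ i)⁻¹ * x * z ^ i ∈ M := by
    intro i
    have h1 := hMn _ (Y.inv_mem (Y.pow_mem hzY i)) x hx
    rwa [inv_inv] at h1
  have h1 : ∀ i ∈ range p, TT P Λ (orbF M ω₁) ((z ^ i)⁻¹ * x * z ^ i) =
      ∏ ω ∈ orbF M ω₁, cc P Λ x (z ^ i • ω) := by
    intro i _
    exact (TT_shift hΛ hO₀ x (z ^ i) (hconj i)).symm
  rw [prod_congr rfl h1, ← prod_product' (s := range p) (t := orbF M ω₁)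
    (f := fun i ω => cc P Λ x (z ^ i • ω))]
  symm
  apply prod_nbij (fun q : ℕ × (G ⧸ P) => z ^ q.1 • q.2)
  · rintro ⟨i, ω⟩ hq
    rw [mem_product] at hq
    obtain ⟨m, hm, rfl⟩ := mem_orbF.mp hq.2
    refine mem_orbF.mpr ⟨z ^ i * m, Y.mul_mem (Y.pow_mem hzY i) (hMY hm), mul_smul _ _ _⟩
  · rintro ⟨i, ω⟩ hq ⟨j, ω'⟩ hq' heq
    rw [mem_coe, mem_product, mem_range] at hq hq'
    obtain ⟨m, hm, rfl⟩ := mem_orbF.mp hq.2
    obtain ⟨m', hm', rfl⟩ := mem_orbF.mp hq'.2
    simp only [smul_smul] at heq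
    have hst : (z ^ j * m')⁻¹ * (z ^ i * m) ∈ M := by
      apply hstab
      · exact Y.mul_mem (Y.inv_mem (Y.mul_mem (Y.pow_mem hzY j) (hMY hm')))
          (Y.mul_mem (Y.pow_mem hzY i) (hMY hm))
      · rw [mul_smul, heq, inv_smul_smul]
    have h2 : (z ^ j)⁻¹ * z ^ i ∈ M := by
      have h3 : (z ^ j)⁻¹ * z ^ i = m' * ((z ^ j * m')⁻¹ * (z ^ i * m)) * m⁻¹ := by group
      rw [h3]
      exact M.mul_mem (M.mul_mem hm' hst) (M.inv_mem hm)
    have hij := hpow i hq.1 j hq'.1 h2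
    subst hij
    have h4 : m • ω₁ = m' • ω₁ := by
      have := congrArg (fun u => (z ^ i)⁻¹ • u) heq
      simpa [mul_smul] using this
    simp only [Prod.mk.injEq, true_and]
    exact h4
  · intro ω hω
    obtain ⟨y, hy, rfl⟩ := mem_orbF.mp (mem_coe.mp hω)
    obtain ⟨i, hi, him⟩ := hcov y hy
    refine ⟨(i, ((z ^ i)⁻¹ * y) • ω₁), ?_, ?_⟩
    · rw [mem_coe, mem_product, mem_range]
      exact ⟨hi, mem_orbF.mpr ⟨_, him, rfl⟩⟩
    · simp [smul_smul]
  · intro q _
    rfl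

end Cocycle

section Index

variable {Q : Type*} [Group Q] [Finite Q] {p : ℕ} [hp : Fact p.Prime]

/-- A proper subgroup of a `p`-group lies in a normal subgroup of index `p`. -/
lemma exists_normal_index_above (hQ : IsPGroup p Q) (S : Subgroup Q) (hS : S ≠ ⊤) :
    ∃ M : Subgroup Q, S ≤ M ∧ M.Normal ∧ M.index = p := by
  classical
  obtain h | ⟨M, hM, hSM⟩ := eq_top_or_exists_le_coatom S
  · exact absurd h hS
  haveI hnil : Group.IsNilpotent Q := hQ.isNilpotent
  haveI hN : M.Normal :=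
    Subgroup.NormalizerCondition.normal_of_coatom M normalizerCondition_of_isNilpotent hM
  refine ⟨M, hSM, hN, ?_⟩
  obtain ⟨k, hk⟩ := hQ.index M
  have hk0 : k ≠ 0 := by
    rintro rfl
    rw [pow_zero, Subgroup.index_eq_one] at hk
    exact hM.1 hk
  have hcard : Nat.card (Q ⧸ M) = p ^ k := hk
  obtain ⟨K, hK⟩ := Sylow.exists_subgroup_card_pow_prime (G := Q ⧸ M) p (n := 1) (by
    rw [hcard, pow_one]
    exact dvd_pow_self p hk0)
  rw [pow_one] at hK
  have hMK : M ≤ K.comap (QuotientGroup.mk' M) := by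
    intro x hx
    show (QuotientGroup.mk' M x) ∈ K
    have hx1 : QuotientGroup.mk' M x = 1 := (QuotientGroup.eq_one_iff x).mpr hx
    rw [hx1]
    exact K.one_mem
  have hne : K.comap (QuotientGroup.mk' M) ≠ M := by
    intro h
    have hK1 : K = ⊥ := by
      rw [eq_bot_iff]
      intro y hy
      obtain ⟨x, rfl⟩ := QuotientGroup.mk'_surjective M y
      have hx : x ∈ K.comap (QuotientGroup.mk' M) := hy
      rw [h] at hx
      exact (QuotientGroup.eq_one_iff x).mpr hx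
    rw [hK1] at hK
    simp only [Subgroup.card_bot] at hK
    exact hp.out.one_lt.ne hK
  have hlt : M < K.comap (QuotientGroup.mk' M) := lt_of_le_of_ne hMK hne.symm
  have htop := hM.2 _ hlt
  have hKtop : K = ⊤ := by
    rw [eq_top_iff]
    intro y _
    obtain ⟨x, rfl⟩ := QuotientGroup.mk'_surjective M y
    have : x ∈ K.comap (QuotientGroup.mk' M) := by
      rw [htop]
      trivial
    exact this
  rw [hKtop, Subgroup.card_top, hcard] at hK
  have : k = 1 := by
    have h1 : p ^ k = p ^ 1 := by rw [hK, pow_one]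
    exact Nat.pow_right_injective hp.out.two_le h1
  rw [hk, this, pow_one]

end Index

section Cover

variable {G : Type*} [Group G] {p : ℕ} [hp : Fact p.Prime]

/-- Cosets of a normal subgroup of prime index. -/
lemma cover_of_index {Y M : Subgroup G} (hMn : ∀ y ∈ Y, ∀ m ∈ M, y * m * y⁻¹ ∈ M)
    (hi : (M.subgroupOf Y).index = p) {z : G} (hzY : z ∈ Y) (hzM : z ∉ M) :
    (∀ y ∈ Y, ∃ i < p, (z ^ i)⁻¹ * y ∈ M) ∧
      (∀ i < p, ∀ j < p, (z ^ j)⁻¹ * z ^ i ∈ M → i = j) := by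
  classical
  haveI hN : (M.subgroupOf Y).Normal := by
    constructor
    intro n hn g
    rw [Subgroup.mem_subgroupOf] at hn ⊢
    exact hMn g g.2 n hn
  have hcard : Nat.card (↥Y ⧸ M.subgroupOf Y) = p := hi
  haveI : Finite (↥Y ⧸ M.subgroupOf Y) := by
    apply Nat.finite_of_card_ne_zero
    rw [hcard]
    exact hp.out.ne_zero
  set zb : ↥Y ⧸ M.subgroupOf Y := ((⟨z, hzY⟩ : ↥Y) : ↥Y ⧸ M.subgroupOf Y) with hzb
  have hzb1 : zb ≠ 1 := by
    intro h
    apply hzM
    have := (QuotientGroup.eq_one_iff _).mp h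
    rwa [Subgroup.mem_subgroupOf] at this
  have hord : orderOf zb = p := by
    have h1 : zb ^ p = 1 := by
      rw [← hcard]
      exact pow_card_eq_one'
    exact orderOf_eq_prime h1 hzb1
  constructor
  · intro y hy
    have hmem : ((⟨y, hy⟩ : ↥Y) : ↥Y ⧸ M.subgroupOf Y) ∈ Subgroup.zpowers zb := by
      exact mem_zpowers_of_prime_card hcard hzb1
    rw [← mem_powers_iff_mem_zpowers] at hmem
    obtain ⟨n, hn⟩ := hmem
    refine ⟨n % p, Nat.mod_lt _ hp.out.pos, ?_⟩
    have h2 : zb ^ (n % p) = ((⟨y, hy⟩ : ↥Y) : ↥Y ⧸ M.subgroupOf Y) := by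
      rw [← hn]
      simp only
      rw [← hord, pow_mod_orderOf]
    have h3 := QuotientGroup.eq.mp (show (((⟨z, hzY⟩ : ↥Y) ^ (n % p) : ↥Y) : ↥Y ⧸ M.subgroupOf Y) =
      ((⟨y, hy⟩ : ↥Y) : ↥Y ⧸ M.subgroupOf Y) from by
        rw [QuotientGroup.mk_pow]
        exact h2)
    rw [Subgroup.mem_subgroupOf] at h3
    simpa using h3
  · intro i hi j hj hij
    have h1 : zb ^ j = zb ^ i := by
      have h2 : (((⟨z, hzY⟩ : ↥Y) ^ j : ↥Y) : ↥Y ⧸ M.subgroupOf Y) =
          (((⟨z, hzY⟩ : ↥Y) ^ i : ↥Y) : ↥Y ⧸ M.subgroupOf Y) := by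
        apply QuotientGroup.eq.mpr
        rw [Subgroup.mem_subgroupOf]
        simpa using hij
      rw [QuotientGroup.mk_pow, QuotientGroup.mk_pow] at h2
      exact h2
    have h3 := pow_injOn_Iio_orderOf (x := zb)
    rw [hord] at h3
    exact (h3 hj hi h1).symm

end Cover

section ThmA

variable {G : Type*} [Group G] [Finite G] {p : ℕ} [hp : Fact p.Prime] {P W : Subgroup G}

/-- The local hypothesis in the Wielandt--Yoshida analysis. -/
def CondH (p : ℕ) (P W : Subgroup G) : Prop :=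
  ∀ x ∈ P, ∀ M : Subgroup G, M ≤ Subgroup.zpowers x ⊔ W →
    (∀ y ∈ Subgroup.zpowers x ⊔ W, ∀ m ∈ M, y * m * y⁻¹ ∈ M) → x ∈ M →
    (M.subgroupOf (Subgroup.zpowers x ⊔ W)).index = p → ∀ z ∈ W, z ∉ M →
    ∀ ν : G → Multiplicative (ZMod p), (∀ a ∈ M, ∀ b ∈ M, ν (a * b) = ν a * ν b) →
      ∏ i ∈ range p, ν ((z ^ i)⁻¹ * x * z ^ i) = 1

/-- The full cocycle sum is a homomorphism. -/
noncomputable def VV [Fintype (G ⧸ P)] {E : Type*} [CommGroup E] {Λ : G → E}
    (hΛ : ∀ a ∈ P, ∀ b ∈ P, Λ (a * b) = Λ a * Λ b) : G →* E where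
  toFun x := TT P Λ univ x
  map_one' := by
    unfold TT
    exact prod_eq_one (fun ω _ => cc_one hΛ ω)
  map_mul' x y := TT_mul hΛ (X := ⊤) (fun _ _ _ _ => mem_univ _) x (Subgroup.mem_top y)

theorem thmA (hPp : IsPGroup p P) (hidx : ¬ p ∣ P.index) (hWP : W ≤ P)
    (hwn : ∀ g : G, (∀ w ∈ W, g⁻¹ * w * g ∈ P) → g ∈ Subgroup.normalizer (W : Set G))
    (hPN : P ≤ Subgroup.normalizer (W : Set G)) (H : CondH p P W)
    (Λ : G → Multiplicative (ZMod p)) (hΛ : ∀ a ∈ P, ∀ b ∈ P, Λ (a * b) = Λ a * Λ b)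
    (hA : ∀ a ∈ P, a ∈ ⁅Subgroup.normalizer (W : Set G), Subgroup.normalizer (W : Set G)⁆ → Λ a = 1) :
    ∀ x ∈ P, x ∈ commutator G → Λ x = 1 := by
  classical
  haveI : Fintype (G ⧸ P) := Fintype.ofFinite _
  suffices hmain : ∀ n : ℕ, ∀ x : G, orderOf x = n → x ∈ P → x ∈ commutator G → Λ x = 1 from
    fun x hxP hxC => hmain _ x rfl hxP hxC
  intro n
  induction n using Nat.strong_induction_on with
  | _ n ih =>
  intro x hxn hxP hxC
  -- normalisation facts
  have hconjW : ∀ y ∈ P, ∀ w ∈ W, y⁻¹ * w * y ∈ W := by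
    intro y hy w hw
    have h1 := (Subgroup.mem_normalizer_iff.mp (hPN (P.inv_mem hy)) w).mp hw
    rwa [inv_inv] at h1
  set F : Finset (G ⧸ P) := univ.filter (fun ω => ∀ w ∈ W, w • ω = ω) with hF
  have hFinv : ∀ y ∈ P, ∀ ω, ω ∈ F → y • ω ∈ F := by
    intro y hy ω hω
    rw [hF, mem_filter] at hω ⊢
    refine ⟨mem_univ _, fun w hw => ?_⟩
    have h1 := hω.2 _ (hconjW y hy w hw)
    calc w • y • ω = y • (y⁻¹ * w * y) • ω := by
          simp only [smul_smul]
          congr 1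
          group
      _ = y • ω := by rw [h1]
  have hFcinv : ∀ y ∈ P, ∀ ω, ω ∈ Fᶜ → y • ω ∈ Fᶜ := by
    intro y hy ω hω
    rw [mem_compl] at hω ⊢
    intro h1
    apply hω
    have := hFinv _ (P.inv_mem hy) _ h1
    rwa [inv_smul_smul] at this
  -- the `F` part
  have hFpart : TT P Λ F x = Λ x ^ F.card := by
    refine prod_cycle (MulAction.toPerm x) (cc P Λ x) (Λ x) F (fun ω hω => hFinv x hxP ω hω) ?_
    intro ω hω
    set k := minimalPeriod (MulAction.toPerm x : Equiv.Perm (G ⧸ P)) ω with hk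
    have hper : x ^ k • ω = ω := by
      rw [← toPerm_iterate, hk, iterate_minimalPeriod]
    simp_rw [toPerm_iterate]
    rw [cc_pow hΛ, cc_of_fix hper]
    set t := tv P ω with ht
    have htN : t ∈ Subgroup.normalizer (W : Set G) := by
      apply hwn
      intro w hw
      have h1 := ((mem_filter.mp hω).2 w hw)
      exact conj_mem_of_fix h1
    have hxN : x ^ k ∈ Subgroup.normalizer (W : Set G) := hPN (P.pow_mem hxP k)
    have huP : t⁻¹ * x ^ k * t ∈ P := conj_mem_of_fix hper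
    have hcomm : t⁻¹ * x ^ k * t * (x ^ k)⁻¹ ∈ P := P.mul_mem huP (P.inv_mem (P.pow_mem hxP k))
    have hcomm2 : t⁻¹ * x ^ k * t * (x ^ k)⁻¹ ∈
        ⁅Subgroup.normalizer (W : Set G), Subgroup.normalizer (W : Set G)⁆ := by
      have := Subgroup.commutator_mem_commutator (Subgroup.inv_mem _ htN) hxN
      simpa [commutatorElement_def] using this
    have h3 : t⁻¹ * x ^ k * t = (t⁻¹ * x ^ k * t * (x ^ k)⁻¹) * x ^ k := by group
    rw [h3, hΛ _ hcomm _ (P.pow_mem hxP k), hA _ hcomm hcomm2, one_mul, pow_of_mult hΛ hxP]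
  -- the complement
  have hcpart : TT P Λ Fᶜ x = 1 := by
    set Y := Subgroup.zpowers x ⊔ W with hY
    have hYP : Y ≤ P := by
      rw [hY, sup_le_iff]
      refine ⟨?_, hWP⟩
      rw [Subgroup.zpowers_le]
      exact hxP
    have hxY : x ∈ Y := (le_sup_left : Subgroup.zpowers x ≤ Y) (Subgroup.mem_zpowers x)
    have hWY : W ≤ Y := le_sup_right
    refine prod_orbits Y (cc P Λ x) Fᶜ (fun g hg ω hω => hFcinv g (hYP hg) ω hω) ?_
    intro ω hω
    by_cases hfix : ∃ ω₁ ∈ orbF Y ω, x • ω₁ = ω₁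
    · obtain ⟨ω₁, hω₁, hx₁⟩ := hfix
      rw [← orbF_eq_of_mem hω₁]
      have hω₁F : ω₁ ∉ F := by
        obtain ⟨g, hg, rfl⟩ := mem_orbF.mp hω₁
        exact mem_compl.mp (hFcinv g (hYP hg) ω hω)
      obtain ⟨w₀, hw₀, hw₀'⟩ : ∃ w ∈ W, w • ω₁ ≠ ω₁ := by
        by_contra hcon
        push Not at hcon
        exact hω₁F (mem_filter.mpr ⟨mem_univ _, hcon⟩)
      have hYp : IsPGroup p ↥Y := hPp.to_le hYP
      set S : Subgroup ↥Y := (MulAction.stabilizer G ω₁).subgroupOf Y with hS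
      have hSne : S ≠ ⊤ := by
        intro h
        have h1 : (⟨w₀, hWY hw₀⟩ : ↥Y) ∈ S := by rw [h]; trivial
        exact hw₀' h1
      obtain ⟨M', hSM', hM'n, hM'i⟩ := exists_normal_index_above hYp S hSne
      set M : Subgroup G := M'.map Y.subtype with hM
      have hMY : M ≤ Y := by
        rintro _ ⟨y, -, rfl⟩
        exact y.2
      have hMsub : M.subgroupOf Y = M' :=
        Subgroup.comap_map_eq_self_of_injective Y.subtype_injective M'
      have hmemM : ∀ y (hy : y ∈ Y), y ∈ M ↔ (⟨y, hy⟩ : ↥Y) ∈ M' := by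
        intro y hy
        rw [← hMsub, Subgroup.mem_subgroupOf]
      have hMn : ∀ y ∈ Y, ∀ m ∈ M, y * m * y⁻¹ ∈ M := by
        intro y hy m hm
        have hmY := hMY hm
        rw [hmemM _ (Y.mul_mem (Y.mul_mem hy hmY) (Y.inv_mem hy))]
        have := hM'n.conj_mem ⟨m, hmY⟩ ((hmemM m hmY).mp hm) ⟨y, hy⟩
        exact this
      have hxM : x ∈ M := by
        rw [hmemM x hxY]
        apply hSM'
        exact hx₁
      have hstab : ∀ y ∈ Y, y • ω₁ = ω₁ → y ∈ M := by
        intro y hy hyfix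
        rw [hmemM y hy]
        apply hSM'
        exact hyfix
      have hidxM : (M.subgroupOf Y).index = p := by rw [hMsub, hM'i]
      obtain ⟨z, hzW, hzM⟩ : ∃ z ∈ W, z ∉ M := by
        by_contra hcon
        push Not at hcon
        have hYM : Y ≤ M := by
          rw [hY, sup_le_iff]
          refine ⟨?_, hcon⟩
          rw [Subgroup.zpowers_le]
          exact hxM
        have : M' = ⊤ := by
          rw [eq_top_iff]
          rintro ⟨y, hy⟩ _
          exact (hmemM y hy).mp (hYM hy)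
        rw [this, Subgroup.index_top] at hM'i
        exact hp.out.one_lt.ne hM'i
      obtain ⟨hcov, hpow⟩ := cover_of_index hMn hidxM (hWY hzW) hzM
      have hblock := TT_block (Λ := Λ) (P := P) hΛ hMY hMn (hWY hzW) hcov hpow hstab hxM
      have hν : ∀ a ∈ M, ∀ b ∈ M, TT P Λ (orbF M ω₁) (a * b) =
          TT P Λ (orbF M ω₁) a * TT P Λ (orbF M ω₁) b := by
        intro a _ b hb
        exact TT_mul hΛ (X := M) (fun y hy ω hω => orbF_smul_mem hy hω) a hb
      have hfin := H x hxP M hMY hMn hxM hidxM z hzW hzM (TT P Λ (orbF M ω₁)) hν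
      unfold TT at hblock hfin
      rw [hblock, hfin]
    · push Not at hfix
      have := prod_cycle (MulAction.toPerm x) (cc P Λ x) (1 : Multiplicative (ZMod p)) (orbF Y ω)
        (fun ω' hω' => orbF_smul_mem hxY hω') ?_
      · rw [one_pow] at this
        exact this
      intro ω' hω'
      set k := minimalPeriod (MulAction.toPerm x : Equiv.Perm (G ⧸ P)) ω' with hk
      have hper : x ^ k • ω' = ω' := by
        rw [← toPerm_iterate, hk, iterate_minimalPeriod]
      simp_rw [toPerm_iterate]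
      rw [cc_pow hΛ, cc_of_fix hper, one_pow]
      have hk1 : k ≠ 1 := by
        intro h1
        apply hfix ω' hω'
        rw [h1, pow_one] at hper
        exact hper
      have hdvd : k ∣ orderOf x := by
        apply IsPeriodicPt.minimalPeriod_dvd
        show (MulAction.toPerm x : Equiv.Perm (G ⧸ P))^[orderOf x] ω' = ω'
        rw [toPerm_iterate, pow_orderOf_eq_one, one_smul]
      have hk0 : k ≠ 0 := by
        intro h0
        rw [h0, zero_dvd_iff] at hdvd
        exact (orderOf_pos x).ne' hdvd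
      set t := tv P ω' with ht
      have huP : t⁻¹ * x ^ k * t ∈ P := conj_mem_of_fix hper
      have huC : t⁻¹ * x ^ k * t ∈ commutator G := by
        have h1 : commutator G ≤ commutator G := le_rfl
        have hx : x ^ k ∈ commutator G := Subgroup.pow_mem _ hxC k
        have := (inferInstance : (commutator G).Normal).conj_mem _ hx t⁻¹
        rwa [inv_inv] at this
      have hord : orderOf (t⁻¹ * x ^ k * t) = orderOf (x ^ k) := by
        have h1 : t⁻¹ * x ^ k * t = (MulAut.conj t⁻¹) (x ^ k) := by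
          simp [MulAut.conj_apply]
        rw [h1, MulEquiv.orderOf_eq]
      have hlt : orderOf (t⁻¹ * x ^ k * t) < n := by
        rw [hord, orderOf_pow_of_dvd hk0 hdvd, ← hxn]
        apply Nat.div_lt_self (orderOf_pos x)
        omega
      exact ih _ hlt _ rfl huP huC
  -- conclusion
  have hVx : VV (P := P) hΛ x = 1 := Abelianization.commutator_subset_ker (VV (P := P) hΛ) hxC
  have hsplit : TT P Λ univ x = TT P Λ F x * TT P Λ Fᶜ x := by
    unfold TT
    rw [prod_mul_prod_compl]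
  have hpow1 : Λ x ^ F.card = 1 := by
    rw [← hFpart]
    have h2 : TT P Λ univ x = 1 := hVx
    rw [hsplit, hcpart, mul_one] at h2
    exact h2
  have hpow2 : Λ x ^ p = 1 := by
    have : ∀ a : Multiplicative (ZMod p), a ^ p = 1 := by
      intro a
      apply Multiplicative.toAdd.injective
      rw [toAdd_pow, toAdd_one, nsmul_eq_mul, CharP.cast_eq_zero, zero_mul]
    exact this _
  have hcardF : ¬ p ∣ F.card := by
    haveI hWp : IsPGroup p ↥W := hPp.to_le hWP
    have h1 := hWp.card_modEq_card_fixedPoints (G ⧸ P)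
    have h2 : Nat.card (MulAction.fixedPoints ↥W (G ⧸ P)) = F.card := by
      apply Nat.subtype_card F
      intro ω
      rw [hF, mem_filter]
      constructor
      · intro h
        rw [MulAction.mem_fixedPoints]
        rintro ⟨w, hw⟩
        exact h.2 w hw
      · intro h
        rw [MulAction.mem_fixedPoints] at h
        exact ⟨mem_univ _, fun w hw => h ⟨w, hw⟩⟩
    rw [h2] at h1
    intro hdvd
    apply hidx
    have h3 : p ∣ Nat.card (G ⧸ P) := (Nat.modEq_zero_iff_dvd.mp (h1.trans (Nat.modEq_zero_iff_dvd.mpr hdvd)))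
    exact h3
  have hgcd : Nat.gcd F.card p = 1 := by
    rw [Nat.gcd_comm]
    exact (Nat.Prime.coprime_iff_not_dvd hp.out).mpr hcardF
  have := pow_gcd_eq_one.mpr ⟨hpow1, hpow2⟩
  rwa [hgcd, pow_one] at this

end ThmA

section ThmB

variable {G : Type*} [Group G] [Finite G] {p : ℕ} [hp : Fact p.Prime] {P W : Subgroup G}

/-- In an abelian `p`-group, an element killed by all homomorphisms to `ℤ/p` is trivial. -/
lemma eq_one_of_forall_hom {K : Type*} [Group K] [Finite K] (hK : IsPGroup p K)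
    (h : ∀ (η : K →* Multiplicative (ZMod p)) (k : K), η k = 1) (k : K) : k = 1 := by
  classical
  by_contra hk
  haveI : Nontrivial K := ⟨⟨k, 1, hk⟩⟩
  have hbot : (⊥ : Subgroup K) ≠ ⊤ := bot_ne_top
  obtain ⟨M, -, hMn, hMi⟩ := exists_normal_index_above hK ⊥ hbot
  have hcard : Nat.card (K ⧸ M) = p := hMi
  have hcard2 : Nat.card (Multiplicative (ZMod p)) = p := by
    rw [Nat.card_congr Multiplicative.toAdd]
    exact Nat.card_zmod p
  let e : (K ⧸ M) ≃* Multiplicative (ZMod p) := mulEquivOfPrimeCardEq hcard hcard2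
  have htop : M = ⊤ := by
    rw [eq_top_iff]
    intro x _
    have h1 := h (e.toMonoidHom.comp (QuotientGroup.mk' M)) x
    have h2 : QuotientGroup.mk' M x = 1 := by
      apply e.injective
      rw [map_one]
      exact h1
    exact (QuotientGroup.eq_one_iff x).mp h2
  rw [htop, Subgroup.index_top] at hMi
  exact hp.out.one_lt.ne hMi

theorem thmB_core {E : Type*} [CommGroup E] [Finite E] (hE : IsPGroup p E) (hidx : ¬ p ∣ P.index)
    (q : G → E) (hq : ∀ a ∈ P, ∀ b ∈ P, q (a * b) = q a * q b)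
    (hall : ∀ Λ : G → Multiplicative (ZMod p), (∀ a ∈ P, ∀ b ∈ P, Λ (a * b) = Λ a * Λ b) →
      (∀ a ∈ P, q a = 1 → a ∈ commutator G → Λ a = 1) → ∀ x ∈ P, x ∈ commutator G → Λ x = 1) :
    ∀ x ∈ P, x ∈ commutator G → q x = 1 := by
  classical
  haveI : Fintype (G ⧸ P) := Fintype.ofFinite _
  set K : Subgroup E := Subgroup.closure (q '' {x | x ∈ P ∧ x ∈ commutator G}) with hK
  have hqK : ∀ x ∈ P, x ∈ commutator G → q x ∈ K := fun x hxP hxC =>
    Subgroup.subset_closure ⟨x, ⟨hxP, hxC⟩, rfl⟩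
  set π : E →* E ⧸ K := QuotientGroup.mk' K with hπ
  set V : G →* E := VV (P := P) hq with hV
  have hVapply : ∀ x, V x = ∏ ω : G ⧸ P, cc P q x ω := fun x => rfl
  set d := Fintype.card (G ⧸ P) with hd
  have hcycle : ∀ x ∈ P, π (V x) = π (q x) ^ d := by
    intro x hxP
    rw [hVapply, map_prod]
    have := prod_cycle (MulAction.toPerm x) (fun ω => π (cc P q x ω)) (π (q x)) univ
      (fun _ _ => mem_univ _) ?_
    · rw [this]
      rfl
    intro ω _
    set k := minimalPeriod (MulAction.toPerm x : Equiv.Perm (G ⧸ P)) ω with hk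
    have hper : x ^ k • ω = ω := by
      rw [← toPerm_iterate, hk, iterate_minimalPeriod]
    simp_rw [toPerm_iterate]
    rw [← map_prod, cc_pow hq, cc_of_fix hper]
    set t := tv P ω with ht
    have huP : t⁻¹ * x ^ k * t ∈ P := conj_mem_of_fix hper
    have hcomm : t⁻¹ * x ^ k * t * (x ^ k)⁻¹ ∈ P := P.mul_mem huP (P.inv_mem (P.pow_mem hxP k))
    have hcomm2 : t⁻¹ * x ^ k * t * (x ^ k)⁻¹ ∈ commutator G := by
      have := Subgroup.commutator_mem_commutator (Subgroup.mem_top t⁻¹) (Subgroup.mem_top (x ^ k))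
      simpa [commutatorElement_def, commutator] using this
    have h3 : t⁻¹ * x ^ k * t = (t⁻¹ * x ^ k * t * (x ^ k)⁻¹) * x ^ k := by group
    rw [h3, hq _ hcomm _ (P.pow_mem hxP k), map_mul, pow_of_mult hq hxP, map_pow]
    have h4 : π (q (t⁻¹ * x ^ k * t * (x ^ k)⁻¹)) = 1 :=
      (QuotientGroup.eq_one_iff _).mpr (hqK _ hcomm hcomm2)
    rw [h4, one_mul]
  -- Bezout
  have hcop : Nat.Coprime d (Nat.card E) := by
    obtain ⟨c, hc⟩ := IsPGroup.iff_card.mp hE
    rw [hc]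
    apply Nat.Coprime.pow_right
    rw [Nat.coprime_comm, Nat.Prime.coprime_iff_not_dvd hp.out]
    intro h
    apply hidx
    have : P.index = d := by
      rw [hd, ← Nat.card_eq_fintype_card]
      rfl
    rwa [this]
  set a : ℤ := Nat.gcdA d (Nat.card E) with ha
  set b : ℤ := Nat.gcdB d (Nat.card E) with hb
  have hbez : (1 : ℤ) = d * a + Nat.card E * b := by
    have := Nat.gcd_eq_gcd_ab d (Nat.card E)
    rw [hcop] at this
    simpa using this
  set W₁ : G →* E := (zpowGroupHom a).comp V with hW₁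
  have hW₁apply : ∀ x, W₁ x = V x ^ a := fun x => rfl
  have hπW : ∀ x ∈ P, π (W₁ x) = π (q x) := by
    intro x hxP
    rw [hW₁apply, map_zpow, hcycle x hxP, ← zpow_natCast, ← zpow_mul]
    have h1 : (d : ℤ) * a = 1 - Nat.card E * b := by
      rw [hbez]; ring
    rw [h1, zpow_sub, zpow_one, zpow_mul, zpow_natCast, ← map_pow, pow_card_eq_one', map_one,
      one_zpow, inv_one, mul_one]
  have hW₁C : ∀ x ∈ commutator G, W₁ x = 1 := fun x hx =>
    Abelianization.commutator_subset_ker W₁ hx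
  have hδK : ∀ x ∈ P, q x * (W₁ x)⁻¹ ∈ K := by
    intro x hxP
    apply (QuotientGroup.eq_one_iff _).mp
    show π (q x * (W₁ x)⁻¹) = 1
    rw [map_mul, map_inv, hπW x hxP, mul_inv_cancel]
  -- every homomorphism on `K` is trivial
  have hη : ∀ η : ↥K →* Multiplicative (ZMod p), ∀ k : ↥K, η k = 1 := by
    intro η
    let Λ : G → Multiplicative (ZMod p) := fun y =>
      if h : y ∈ P then η ⟨q y * (W₁ y)⁻¹, hδK y h⟩ else 1
    have hΛP : ∀ y (h : y ∈ P), Λ y = η ⟨q y * (W₁ y)⁻¹, hδK y h⟩ := by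
      intro y h
      simp only [Λ, dif_pos h]
    have hΛ : ∀ a ∈ P, ∀ b ∈ P, Λ (a * b) = Λ a * Λ b := by
      intro u hu v hv
      rw [hΛP _ (P.mul_mem hu hv), hΛP _ hu, hΛP _ hv, ← map_mul]
      congr 1
      apply Subtype.ext
      show q (u * v) * (W₁ (u * v))⁻¹ = q u * (W₁ u)⁻¹ * (q v * (W₁ v)⁻¹)
      rw [hq u hu v hv, map_mul, mul_inv, mul_mul_mul_comm]
    have hΛA : ∀ a ∈ P, q a = 1 → a ∈ commutator G → Λ a = 1 := by
      intro u hu hqu huC
      rw [hΛP _ hu]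
      have : (⟨q u * (W₁ u)⁻¹, hδK u hu⟩ : ↥K) = 1 := by
        apply Subtype.ext
        show q u * (W₁ u)⁻¹ = 1
        rw [hqu, hW₁C u huC, inv_one, one_mul]
      rw [this, map_one]
    have hres := hall Λ hΛ hΛA
    have hgen : K ≤ η.ker.map K.subtype := by
      refine (Subgroup.closure_le _).mpr ?_
      rintro _ ⟨x, ⟨hxP, hxC⟩, rfl⟩
      have h1 := hres x hxP hxC
      rw [hΛP _ hxP] at h1
      have h2 : q x * (W₁ x)⁻¹ = q x := by rw [hW₁C x hxC, inv_one, mul_one]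
      refine ⟨⟨q x, hqK x hxP hxC⟩, ?_, rfl⟩
      have h3 : (⟨q x, hqK x hxP hxC⟩ : ↥K) = ⟨q x * (W₁ x)⁻¹, hδK x hxP⟩ := by
        apply Subtype.ext
        exact h2.symm
      show η ⟨q x, hqK x hxP hxC⟩ = 1
      rw [h3]
      exact h1
    intro k
    obtain ⟨k', hk', hkk⟩ := hgen k.2
    have : k' = k := Subtype.ext hkk
    rw [← this]
    exact hk'
  have hKp : IsPGroup p ↥K := IsPGroup.to_subgroup hE K
  intro x hxP hxC
  have := eq_one_of_forall_hom hKp hη ⟨q x, hqK x hxP hxC⟩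
  exact congrArg Subtype.val this

/-- The quotient by a subgroup containing all commutators is commutative. -/
noncomputable abbrev commQuot {Q : Type*} [Group Q] (A : Subgroup Q) [A.Normal]
    (h : ∀ a b : Q, a * b * a⁻¹ * b⁻¹ ∈ A) : CommGroup (Q ⧸ A) :=
  { (inferInstance : Group (Q ⧸ A)) with
    mul_comm := by
      intro x y
      induction x using QuotientGroup.induction_on with
      | H a =>
      induction y using QuotientGroup.induction_on with
      | H b =>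
      rw [← QuotientGroup.mk_mul, ← QuotientGroup.mk_mul]
      apply QuotientGroup.eq.mpr
      have : (a * b)⁻¹ * (b * a) = b⁻¹ * a⁻¹ * b⁻¹⁻¹ * a⁻¹⁻¹ := by group
      rw [this]
      exact h _ _ }

/-- **The main theorem of the section.** -/
theorem main (hPp : IsPGroup p P) (hidx : ¬ p ∣ P.index) (hWP : W ≤ P)
    (hwn : ∀ g : G, (∀ w ∈ W, g⁻¹ * w * g ∈ P) → g ∈ Subgroup.normalizer (W : Set G))
    (hPN : P ≤ Subgroup.normalizer (W : Set G)) (H : CondH p P W) :
    P ⊓ commutator G = P ⊓ ⁅Subgroup.normalizer (W : Set G), Subgroup.normalizer (W : Set G)⁆ := by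
  classical
  set N := Subgroup.normalizer (W : Set G) with hN
  have hNC : ⁅N, N⁆ ≤ commutator G := Subgroup.commutator_mono le_top le_top
  apply le_antisymm
  · set A' : Subgroup ↥P := (P ⊓ ⁅N, N⁆).subgroupOf P with hA'
    have hcomm : ∀ a b : ↥P, a * b * a⁻¹ * b⁻¹ ∈ A' := by
      rintro ⟨a, ha⟩ ⟨b, hb⟩
      rw [hA', Subgroup.mem_subgroupOf]
      refine ⟨?_, ?_⟩
      · exact P.mul_mem (P.mul_mem (P.mul_mem ha hb) (P.inv_mem ha)) (P.inv_mem hb)
      · exact Subgroup.commutator_mem_commutator (hPN ha) (hPN hb)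
    haveI hA'n : A'.Normal := by
      constructor
      intro n hn g
      have h1 := hcomm g n
      have : g * n * g⁻¹ = g * n * g⁻¹ * n⁻¹ * n := by group
      rw [this]
      exact A'.mul_mem h1 hn
    letI : CommGroup (↥P ⧸ A') := commQuot A' hcomm
    haveI : Finite ↥P := inferInstance
    have hE : IsPGroup p (↥P ⧸ A') := hPp.to_quotient A'
    let q : G → ↥P ⧸ A' := fun y => if h : y ∈ P then ((⟨y, h⟩ : ↥P) : ↥P ⧸ A') else 1
    have hqP : ∀ y (h : y ∈ P), q y = ((⟨y, h⟩ : ↥P) : ↥P ⧸ A') := by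
      intro y h
      simp only [q, dif_pos h]
    have hq : ∀ a ∈ P, ∀ b ∈ P, q (a * b) = q a * q b := by
      intro a ha b hb
      rw [hqP _ (P.mul_mem ha hb), hqP _ ha, hqP _ hb]
      rfl
    have hres := thmB_core hE hidx q hq (by
      intro Λ hΛ hΛA
      apply thmA hPp hidx hWP hwn hPN H Λ hΛ
      intro a ha haN
      apply hΛA a ha _ (hNC haN)
      rw [hqP a ha]
      apply (QuotientGroup.eq_one_iff _).mpr
      rw [hA', Subgroup.mem_subgroupOf]
      exact ⟨ha, haN⟩)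
    rintro x ⟨hxP, hxC⟩
    have h1 := hres x hxP hxC
    rw [hqP x hxP] at h1
    have h2 := (QuotientGroup.eq_one_iff _).mp h1
    rw [hA', Subgroup.mem_subgroupOf] at h2
    exact h2
  · rintro x ⟨hxP, hxN⟩
    exact ⟨hxP, hNC hxN⟩

end ThmB

end Cfsg.Agent.H12.Yoshida
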