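import Mathlib
import Cfsg.Agent.Lib.H12.Yoshida

/-! The polynomial identities for the shift on sequences over `ℤ/p`, and the wreath quotient. -/

namespace Cfsg.Agent.H12.Yoshida

open Finset Polynomial

section Shift

variable {p : ℕ} [hp : Fact p.Prime]

/-- The shift on sequences. -/
def Sh : Module.End (ZMod p) (ℕ → ZMod p) where
  toFun a := fun j => a (j + 1)
  map_add' _ _ := rfl
  map_smul' _ _ := rfl

lemma Sh_apply (a : ℕ → ZMod p) (j : ℕ) : (Sh : Module.End (ZMod p) (ℕ → ZMod p)) a j = a (j + 1) :=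
  rfl

lemma Sh_pow_apply (k : ℕ) (a : ℕ → ZMod p) (j : ℕ) :
    ((Sh : Module.End (ZMod p) (ℕ → ZMod p)) ^ k) a j = a (j + k) := by
  induction k generalizing a j with
  | zero => rfl
  | succ k ih =>
    rw [pow_succ]
    show (Sh ^ k) (Sh a) j = a (j + (k + 1))
    rw [ih, Sh_apply]
    congr 1

/-- `(X - 1)^(p-1) = 1 + X + ... + X^(p-1)` over `ℤ/p`. -/
lemma poly_identity : ((X : (ZMod p)[X]) - 1) ^ (p - 1) = ∑ i ∈ range p, X ^ i := by
  have hne : (X : (ZMod p)[X]) - 1 ≠ 0 := X_sub_C_ne_zero (1 : ZMod p) |> fun h => by simpa using h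
  apply mul_left_cancel₀ hne
  rw [mul_geom_sum, ← pow_succ', Nat.sub_add_cancel hp.out.one_le, sub_pow_char, one_pow]

lemma shift_identity (c : ℕ → ℕ → ZMod p)
    (hs : ∀ k j, c (k + 1) j = c k (j + 1) - c k j) :
    c (p - 1) 0 = ∑ i ∈ range p, c 0 i := by
  have h1 : ∀ k, c k = (((Sh : Module.End (ZMod p) (ℕ → ZMod p)) - 1) ^ k) (c 0) := by
    intro k
    induction k with
    | zero => rfl
    | succ k ih =>
      rw [pow_succ', Module.End.mul_apply, ← ih]
      funext j
      rw [hs]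
      rfl
  have h2 : ((Sh : Module.End (ZMod p) (ℕ → ZMod p)) - 1) ^ (p - 1) =
      ∑ i ∈ range p, (Sh : Module.End (ZMod p) (ℕ → ZMod p)) ^ i := by
    have := congrArg (aeval (Sh : Module.End (ZMod p) (ℕ → ZMod p))) (poly_identity (p := p))
    simpa using this
  rw [h1 (p - 1), h2, LinearMap.sum_apply, Finset.sum_apply]
  apply Finset.sum_congr rfl
  intro i _
  rw [Sh_pow_apply, zero_add]

/-- The periodic delta. -/
def dlt (j : ℕ) : ZMod p := if p ∣ j then 1 else 0

/-- Expansion of a periodic sequence along shifted deltas. -/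
lemma expand_periodic (w : ℕ → ZMod p) (hw : ∀ j, w (j + p) = w j) (j : ℕ) :
    ∑ i ∈ range p, w i * dlt (j + (p - i)) = w j := by
  classical
  have hper : ∀ k j, w (j + k * p) = w j := by
    intro k j
    induction k with
    | zero => simp
    | succ k ih =>
      rw [Nat.succ_mul, ← add_assoc, hw, ih]
  have hpos := hp.out.pos
  have hjm : j % p < p := Nat.mod_lt _ hpos
  rw [Finset.sum_eq_single (j % p)]
  · have h1 : dlt (p := p) (j + (p - j % p)) = 1 := by
      unfold dlt
      rw [if_pos]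
      have h2 : j + (p - j % p) = (j - j % p) + p := by
        have := Nat.mod_le j p
        omega
      rw [h2]
      apply (Nat.dvd_add_right (Nat.dvd_sub_mod j)).mpr dvd_rfl |> fun h => h
    rw [h1, mul_one]
    have h3 : j = j % p + (j / p) * p := by
      rw [mul_comm]
      exact (Nat.mod_add_div j p).symm
    conv_rhs => rw [h3]
    rw [hper]
  · intro i hi hne
    rw [mem_range] at hi
    have h1 : dlt (p := p) (j + (p - i)) = 0 := by
      unfold dlt
      rw [if_neg]
      · intro hdvd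
        apply hne
        have h2 : (j + (p - i)) % p = 0 := Nat.mod_eq_zero_of_dvd hdvd
        have h3 : (j + (p - i) + i) % p = j % p := by
          have : j + (p - i) + i = j + p := by omega
          rw [this]
          simp
        rw [Nat.add_mod, h2, zero_add, Nat.mod_mod, Nat.mod_eq_of_lt hi] at h3
        exact h3
    rw [h1, mul_zero]
  · intro h
    exact absurd (mem_range.mpr hjm) h

/-- A shift-invariant space of periodic sequences containing a sequence of non-zero mean contains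
all periodic sequences. -/
lemma all_periodic (I : Submodule (ZMod p) (ℕ → ZMod p))
    (hI : ∀ b ∈ I, (Sh : Module.End (ZMod p) (ℕ → ZMod p)) b ∈ I)
    (a : ℕ → ZMod p) (ha : a ∈ I) (haper : ∀ j, a (j + p) = a j)
    (hsum : ∑ i ∈ range p, a i ≠ 0) (w : ℕ → ZMod p) (hw : ∀ j, w (j + p) = w j) : w ∈ I := by
  classical
  have hpow : ∀ k, ∀ b ∈ I, ((Sh : Module.End (ZMod p) (ℕ → ZMod p)) ^ k) b ∈ I := by
    intro k
    induction k with
    | zero => intro b hb; simpa using hb
    | succ k ih =>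
      intro b hb
      rw [pow_succ, Module.End.mul_apply]
      exact ih _ (hI b hb)
  have hpoly : ∀ g : (ZMod p)[X], ∀ b ∈ I, (aeval (Sh : Module.End (ZMod p) (ℕ → ZMod p)) g) b ∈ I := by
    intro g
    induction g using Polynomial.induction_on' with
    | add f g hf hg =>
      intro b hb
      rw [map_add, LinearMap.add_apply]
      exact I.add_mem (hf b hb) (hg b hb)
    | monomial n c =>
      intro b hb
      rw [aeval_monomial, Module.algebraMap_end_eq_smul_id, Module.End.mul_apply]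
      exact I.smul_mem _ (hpow n b hb)
  set f : (ZMod p)[X] := ∑ i ∈ range p, C (a i) * X ^ (p - i) with hf
  set y := aeval (Sh : Module.End (ZMod p) (ℕ → ZMod p)) f with hy
  have hyapply : ∀ (u : ℕ → ZMod p) (j : ℕ), y u j = ∑ i ∈ range p, a i * u (j + (p - i)) := by
    intro u j
    rw [hy, hf, map_sum, LinearMap.sum_apply, Finset.sum_apply]
    apply Finset.sum_congr rfl
    intro i _
    rw [map_mul, aeval_C, map_pow, aeval_X, Module.algebraMap_end_eq_smul_id, Module.End.mul_apply]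
    show a i • (((Sh : Module.End (ZMod p) (ℕ → ZMod p)) ^ (p - i)) u j) = _
    rw [Sh_pow_apply, smul_eq_mul]
  have hdper : ∀ j, dlt (p := p) (j + p) = dlt j := by
    intro j
    unfold dlt
    simp
  have hyd : y dlt = a := by
    funext j
    rw [hyapply]
    exact expand_periodic a haper j
  -- `y ^ p` on `dlt`
  have hfp : f ^ p = ∑ i ∈ range p, C (a i) * (X ^ p) ^ (p - i) := by
    rw [hf, sum_pow_char]
    apply Finset.sum_congr rfl
    intro i _
    rw [mul_pow, ← C_pow, ZMod.pow_card, ← pow_mul, ← pow_mul, mul_comm (p - i) p]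
  have hdltk : ∀ k j, (((Sh : Module.End (ZMod p) (ℕ → ZMod p)) ^ p) ^ k) dlt j = dlt j := by
    intro k j
    rw [← pow_mul, Sh_pow_apply]
    have : ∀ m j, dlt (p := p) (j + m * p) = dlt j := by
      intro m j
      induction m with
      | zero => simp
      | succ m ih => rw [Nat.succ_mul, ← add_assoc, hdper, ih]
    rw [mul_comm]
    exact this k j
  have hyp : (y ^ p) dlt = (∑ i ∈ range p, a i) • dlt := by
    have h1 : y ^ p = aeval (Sh : Module.End (ZMod p) (ℕ → ZMod p)) (f ^ p) := by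
      rw [map_pow]
    rw [h1, hfp, map_sum, LinearMap.sum_apply]
    funext j
    rw [Finset.sum_apply, Pi.smul_apply, smul_eq_mul, Finset.sum_mul]
    apply Finset.sum_congr rfl
    intro i _
    rw [map_mul, aeval_C, map_pow, map_pow, aeval_X, Module.algebraMap_end_eq_smul_id,
      Module.End.mul_apply]
    show a i • ((((Sh : Module.End (ZMod p) (ℕ → ZMod p)) ^ p) ^ (p - i)) dlt j) = _
    rw [hdltk, smul_eq_mul]
  have hp1 : y ^ p = y ^ (p - 1) * y := by
    rw [← pow_succ, Nat.sub_add_cancel hp.out.one_le]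
  have hdI : (dlt : ℕ → ZMod p) ∈ I := by
    have h1 : (y ^ p) dlt ∈ I := by
      rw [hp1, Module.End.mul_apply, hyd, ← map_pow]
      exact hpoly _ _ ha
    rw [hyp] at h1
    exact (I.smul_mem_iff hsum).mp h1
  have hwI : w = ∑ i ∈ range p, w i • ((Sh : Module.End (ZMod p) (ℕ → ZMod p)) ^ (p - i)) dlt := by
    funext j
    rw [Finset.sum_apply, ← expand_periodic w hw j]
    apply Finset.sum_congr rfl
    intro i _
    rw [Pi.smul_apply, Sh_pow_apply, smul_eq_mul]
  rw [hwI]
  exact I.sum_mem (fun i _ => I.smul_mem _ (hpow _ _ hdI))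

end Shift

section Wreath

variable {p : ℕ} [hp : Fact p.Prime] {Γ : Type*} [Group Γ] [Finite Γ]

lemma card_sylow_perm (Q : Sylow p (Equiv.Perm (Fin (p ^ 2)))) :
    Nat.card (Q : Subgroup (Equiv.Perm (Fin (p ^ 2)))) = p ^ (p + 1) := by
  rw [Sylow.card_eq_multiplicity, Nat.card_eq_fintype_card, Fintype.card_perm, Fintype.card_fin,
    Nat.factorization_def _ hp.out]
  congr 1
  have hpos := hp.out.pos
  have hlog : Nat.log p (p ^ 2) < 3 := by
    rw [Nat.log_pow hp.out.one_lt]
    norm_num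
  rw [padicValNat_factorial hlog]
  have h1 : Finset.Ico 1 3 = {1, 2} := by decide
  rw [h1, Finset.sum_pair (by norm_num), pow_one, pow_two, Nat.mul_div_cancel _ hpos,
    Nat.div_self (by positivity)]

/-- **The wreath quotient.** -/
theorem wreath (hΓ : IsPGroup p Γ) (M : Subgroup Γ) (hMn : M.Normal) (hi : M.index = p) {z : Γ}
    (ν : Γ → Multiplicative (ZMod p)) (hν : ∀ a ∈ M, ∀ b ∈ M, ν (a * b) = ν a * ν b)
    {x : Γ} (hx : x ∈ M) (hne : ∏ i ∈ range p, ν ((z ^ i)⁻¹ * x * z ^ i) ≠ 1) :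
    ∃ (Q : Sylow p (Equiv.Perm (Fin (p ^ 2))))
      (f : Γ →* ↥(Q : Subgroup (Equiv.Perm (Fin (p ^ 2))))), Function.Surjective f := by
  classical
  have hν1 : ν 1 = 1 := one_of_mult hν
  have hνinv : ∀ a ∈ M, ν a⁻¹ = (ν a)⁻¹ := by
    intro a ha
    have := hν a ha a⁻¹ (M.inv_mem ha)
    rw [mul_inv_cancel, hν1] at this
    exact eq_inv_of_mul_eq_one_right this.symm
  have hconj : ∀ (g y : Γ), y ∈ M → g⁻¹ * y * g ∈ M := by
    intro g y hy
    have := hMn.conj_mem y hy g⁻¹
    rwa [inv_inv] at this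
  have hνconj : ∀ m ∈ M, ∀ a ∈ M, ν (m⁻¹ * a * m) = ν a := by
    intro m hm a ha
    rw [hν _ (M.mul_mem (M.inv_mem hm) ha) _ hm, hν _ (M.inv_mem hm) _ ha, hνinv m hm]
    rw [mul_comm (ν m)⁻¹, mul_assoc, inv_mul_cancel, mul_one]
  have hzp : z ^ p ∈ M := by
    have := Subgroup.pow_index_mem M z
    rwa [hi] at this
  -- the sequences attached to elements of `M`
  let n : Γ → ℕ → ZMod p := fun y j => Multiplicative.toAdd (ν ((z ^ j)⁻¹ * y * z ^ j))
  have hnper : ∀ y ∈ M, ∀ j, n y (j + p) = n y j := by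
    intro y hy j
    show Multiplicative.toAdd (ν ((z ^ (j + p))⁻¹ * y * z ^ (j + p))) =
      Multiplicative.toAdd (ν ((z ^ j)⁻¹ * y * z ^ j))
    have h1 : (z ^ (j + p))⁻¹ * y * z ^ (j + p) = (z ^ p)⁻¹ * ((z ^ j)⁻¹ * y * z ^ j) * z ^ p := by
      rw [pow_add]
      group
    rw [h1, hνconj _ hzp _ (hconj _ _ hy)]
  have hnmul : ∀ y ∈ M, ∀ y' ∈ M, n (y * y') = n y + n y' := by
    intro y hy y' hy'
    funext j
    show Multiplicative.toAdd (ν ((z ^ j)⁻¹ * (y * y') * z ^ j)) =
      Multiplicative.toAdd (ν ((z ^ j)⁻¹ * y * z ^ j)) +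
        Multiplicative.toAdd (ν ((z ^ j)⁻¹ * y' * z ^ j))
    have h1 : (z ^ j)⁻¹ * (y * y') * z ^ j = ((z ^ j)⁻¹ * y * z ^ j) * ((z ^ j)⁻¹ * y' * z ^ j) := by
      group
    rw [h1, hν _ (hconj _ _ hy) _ (hconj _ _ hy'), toAdd_mul]
  have hnone : n 1 = 0 := by
    funext j
    show Multiplicative.toAdd (ν ((z ^ j)⁻¹ * 1 * z ^ j)) = 0
    have : (z ^ j)⁻¹ * 1 * z ^ j = 1 := by group
    rw [this, hν1]
    rfl
  have hnpow : ∀ y ∈ M, ∀ k : ℕ, n (y ^ k) = (k : ZMod p) • n y := by
    intro y hy k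
    induction k with
    | zero => simp [hnone]
    | succ k ih =>
      rw [pow_succ, hnmul _ (M.pow_mem hy k) _ hy, ih]
      push_cast
      rw [add_smul, one_smul]
  have hnshift : ∀ y, (Sh : Module.End (ZMod p) (ℕ → ZMod p)) (n y) = n (z⁻¹ * y * z) := by
    intro y
    funext j
    show Multiplicative.toAdd (ν ((z ^ (j + 1))⁻¹ * y * z ^ (j + 1))) =
      Multiplicative.toAdd (ν ((z ^ j)⁻¹ * (z⁻¹ * y * z) * z ^ j))
    rw [pow_succ']
    congr 2
    group
  let I : Submodule (ZMod p) (ℕ → ZMod p) :=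
    { carrier := {b | ∃ y ∈ M, n y = b}
      add_mem' := by
        rintro _ _ ⟨y, hy, rfl⟩ ⟨y', hy', rfl⟩
        exact ⟨y * y', M.mul_mem hy hy', hnmul y hy y' hy'⟩
      zero_mem' := ⟨1, M.one_mem, hnone⟩
      smul_mem' := by
        rintro c _ ⟨y, hy, rfl⟩
        refine ⟨y ^ c.val, M.pow_mem hy _, ?_⟩
        rw [hnpow y hy, ZMod.natCast_zmod_val] }
  have hImem : ∀ b, b ∈ I ↔ ∃ y ∈ M, n y = b := fun b => Iff.rfl
  have hsum : ∑ i ∈ range p, n x i ≠ 0 := by
    intro h
    apply hne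
    have : Multiplicative.ofAdd (∑ i ∈ range p, n x i) = ∏ i ∈ range p, ν ((z ^ i)⁻¹ * x * z ^ i) := by
      rw [ofAdd_sum]
      rfl
    rw [← this, h]
    rfl
  have hall : ∀ w : ℕ → ZMod p, (∀ j, w (j + p) = w j) → ∃ y ∈ M, n y = w := by
    intro w hw
    apply (hImem w).mp
    refine all_periodic I ?_ (n x) ((hImem _).mpr ⟨x, hx, rfl⟩) (hnper x hx) hsum w hw
    rintro b ⟨y, hy, rfl⟩
    exact ⟨z⁻¹ * y * z, hconj _ _ hy, (hnshift y).symm⟩
  -- the homomorphism to the base group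
  let Ψ : ↥M →* Multiplicative (Fin p → ZMod p) :=
    { toFun := fun y => Multiplicative.ofAdd (fun i : Fin p => n y.1 i)
      map_one' := by
        show Multiplicative.ofAdd (fun i : Fin p => n 1 i) = 1
        rw [hnone]
        rfl
      map_mul' := by
        intro y y'
        show Multiplicative.ofAdd (fun i : Fin p => n (y.1 * y'.1) i) = _
        rw [hnmul _ y.2 _ y'.2]
        rfl }
  have hΨsurj : Function.Surjective Ψ := by
    intro v
    let w : ℕ → ZMod p := fun j =>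
      Multiplicative.toAdd v ⟨j % p, Nat.mod_lt _ hp.out.pos⟩
    have hw : ∀ j, w (j + p) = w j := by
      intro j
      show Multiplicative.toAdd v ⟨(j + p) % p, _⟩ = Multiplicative.toAdd v ⟨j % p, _⟩
      congr 2
      simp
    obtain ⟨y, hy, hyw⟩ := hall w hw
    refine ⟨⟨y, hy⟩, ?_⟩
    apply Multiplicative.toAdd.injective
    funext i
    show n y i = _
    rw [hyw]
    have hii : (⟨i.val % p, Nat.mod_lt _ hp.out.pos⟩ : Fin p) = i :=
      Fin.ext (Nat.mod_eq_of_lt i.2)
    show Multiplicative.toAdd v ⟨i.val % p, Nat.mod_lt _ hp.out.pos⟩ = _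
    rw [hii]
  have hΨidx : Ψ.ker.index = p ^ p := by
    rw [Subgroup.index_ker, MonoidHom.range_eq_top.mpr hΨsurj, Subgroup.card_top,
      Nat.card_congr Multiplicative.toAdd, Nat.card_fun, Nat.card_zmod]
    simp
  set R : Subgroup Γ := Ψ.ker.map M.subtype with hR
  have hRidx : R.index = p ^ p * p := by
    rw [hR, Subgroup.index_map_subtype, hΨidx, hi]
  -- the kernel of `ν`
  let ν₀ : ↥M →* Multiplicative (ZMod p) :=
    { toFun := fun y => ν y.1
      map_one' := hν1
      map_mul' := fun y y' => hν _ y.2 _ y'.2 }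
  have hν₀ne : ∃ y : ↥M, ν₀ y ≠ 1 := by
    by_contra hcon
    push Not at hcon
    apply hne
    apply prod_eq_one
    intro i _
    exact hcon ⟨_, hconj _ _ hx⟩
  have hcardE : Nat.card (Multiplicative (ZMod p)) = p := by
    rw [Nat.card_congr Multiplicative.toAdd, Nat.card_zmod]
  have hν₀idx : ν₀.ker.index = p := by
    rw [Subgroup.index_ker]
    have h1 : Nat.card ν₀.range ∣ p := by
      have h2 := Subgroup.card_subgroup_dvd_card ν₀.range
      rwa [hcardE] at h2
    rcases (Nat.dvd_prime hp.out).mp h1 with h2 | h2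
    · exfalso
      obtain ⟨y, hy⟩ := hν₀ne
      have h3 := (Subgroup.card_eq_one.mp h2 : ν₀.range = ⊥)
      have h4 : ν₀ y ∈ ν₀.range := ⟨y, rfl⟩
      rw [h3] at h4
      exact hy h4
    · exact h2
  set L : Subgroup Γ := ν₀.ker.map M.subtype with hL
  have hLidx : L.index = p ^ 2 := by
    rw [hL, Subgroup.index_map_subtype, hν₀idx, hi, pow_two]
  have hLν : ∀ y ∈ L, ν y = 1 := by
    rintro _ ⟨y, hy, rfl⟩
    exact hy
  have hLM : L ≤ M := by
    rintro _ ⟨y, -, rfl⟩
    exact y.2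
  have hcardL : Nat.card (Γ ⧸ L) = p ^ 2 := hLidx
  let e : (Γ ⧸ L) ≃ Fin (p ^ 2) := Finite.equivFinOfCardEq hcardL
  let ρ : Γ →* Equiv.Perm (Fin (p ^ 2)) :=
    (e.permCongrHom).toMonoidHom.comp (MulAction.toPermHom Γ (Γ ⧸ L))
  have hρker : ρ.ker = L.normalCore := by
    rw [Subgroup.normalCore_eq_ker]
    ext y
    rw [MonoidHom.mem_ker, MonoidHom.mem_ker]
    show (e.permCongrHom) _ = 1 ↔ _
    exact map_eq_one_iff _ (e.permCongrHom).injective
  have hCR : L.normalCore ≤ R := by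
    intro y hy
    have hyM : y ∈ M := hLM (Subgroup.normalCore_le L hy)
    refine ⟨⟨y, hyM⟩, ?_, rfl⟩
    show Ψ ⟨y, hyM⟩ = 1
    apply Multiplicative.toAdd.injective
    funext i
    show Multiplicative.toAdd (ν ((z ^ (i : ℕ))⁻¹ * y * z ^ (i : ℕ))) = 0
    have h1 : (z ^ (i : ℕ))⁻¹ * y * z ^ (i : ℕ) ∈ L.normalCore := by
      have h2 := (Subgroup.normalCore_normal L).conj_mem y hy (z ^ (i : ℕ))⁻¹
      rwa [inv_inv] at h2
    rw [hLν _ (Subgroup.normalCore_le L h1)]
    rfl
  have hrange : p ^ (p + 1) ≤ Nat.card ρ.range := by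
    rw [← Subgroup.index_ker, hρker]
    have h1 := Subgroup.index_dvd_of_le hCR
    rw [hRidx, ← pow_succ] at h1
    exact Nat.le_of_dvd (Nat.pos_of_ne_zero Subgroup.index_ne_zero_of_finite) h1
  have hρp : IsPGroup p ρ.range := IsPGroup.of_surjective hΓ ρ.rangeRestrict ρ.rangeRestrict_surjective
  obtain ⟨Q, hQ⟩ := hρp.exists_le_sylow
  have hQeq : ρ.range = Q := by
    apply Subgroup.eq_of_le_of_card_ge hQ
    rw [card_sylow_perm]
    exact hrange
  refine ⟨Q, ρ.codRestrict Q (fun g => hQ ⟨g, rfl⟩), ?_⟩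
  rintro ⟨s, hs⟩
  rw [← hQeq] at hs
  obtain ⟨g, rfl⟩ := hs
  exact ⟨g, rfl⟩

end Wreath

section Final

variable {G : Type*} [Group G] [Finite G] {p : ℕ} [hp : Fact p.Prime]

/-- Conjugates of a weakly closed subgroup. -/
lemma normalizer_facts {P W : Subgroup G} (hWP : W ≤ P)
    (hW : ∀ g : G, W.map (MulAut.conj g).toMonoidHom ≤ P → W.map (MulAut.conj g).toMonoidHom = W) :
    (∀ g : G, (∀ w ∈ W, g⁻¹ * w * g ∈ P) → g ∈ Subgroup.normalizer (W : Set G)) ∧
      P ≤ Subgroup.normalizer (W : Set G) := by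
  have key : ∀ g : G, W.map (MulAut.conj g).toMonoidHom = W → g ∈ Subgroup.normalizer (W : Set G) := by
    intro g hg
    rw [Subgroup.mem_normalizer_iff]
    intro n
    constructor
    · intro hn
      rw [← hg]
      exact ⟨n, hn, rfl⟩
    · intro hn
      rw [← hg] at hn
      obtain ⟨w, hw, hwn⟩ := hn
      have h1 : w = n := by
        apply mul_left_cancel (a := g)
        apply mul_right_cancel (b := g⁻¹)
        exact hwn
      rwa [← h1]
  constructor
  · intro g hg
    have h1 : W.map (MulAut.conj g⁻¹).toMonoidHom ≤ P := by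
      rintro _ ⟨w, hw, rfl⟩
      have := hg w hw
      simpa [MulAut.conj_apply] using this
    have h2 := hW _ h1
    have := key _ h2
    have h3 := Subgroup.inv_mem _ this
    rwa [inv_inv] at h3
  · intro y hy
    apply key
    apply hW
    rintro _ ⟨w, hw, rfl⟩
    have := P.mul_mem (P.mul_mem hy (hWP hw)) (P.inv_mem hy)
    simpa [MulAut.conj_apply] using this

/-- **Yoshida's transfer theorem.** -/
theorem yoshida (S : Sylow p G)
    (h : (S : Subgroup G) ⊓ commutator G ≠ (S : Subgroup G) ⊓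
      ⁅Subgroup.normalizer ((S : Subgroup G) : Set G), Subgroup.normalizer ((S : Subgroup G) : Set G)⁆) :
    ∃ (Q : Sylow p (Equiv.Perm (Fin (p ^ 2))))
      (f : ↥(S : Subgroup G) →* ↥(Q : Subgroup (Equiv.Perm (Fin (p ^ 2))))),
        Function.Surjective f := by
  classical
  by_contra hno
  apply h
  have hSp : IsPGroup p (S : Subgroup G) := S.isPGroup'
  have hW : ∀ g : G, (S : Subgroup G).map (MulAut.conj g).toMonoidHom ≤ (S : Subgroup G) →
      (S : Subgroup G).map (MulAut.conj g).toMonoidHom = (S : Subgroup G) := by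
    intro g hg
    apply Subgroup.eq_of_le_of_card_ge hg
    rw [Subgroup.card_map_of_injective (MulAut.conj g).injective]
  obtain ⟨h1, h2⟩ := normalizer_facts (le_refl (S : Subgroup G)) hW
  refine main hSp S.not_dvd_index le_rfl h1 h2 ?_
  intro x hxS M hMY hMn hxM hi z hzS hzM ν hν
  by_contra hne
  have hY : Subgroup.zpowers x ⊔ (S : Subgroup G) = S := by
    rw [sup_eq_right, Subgroup.zpowers_le]
    exact hxS
  rw [hY] at hMY hMn hi
  apply hno
  let M' : Subgroup ↥(S : Subgroup G) := M.subgroupOf S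
  have hM'n : M'.Normal := by
    constructor
    intro n hn g
    rw [Subgroup.mem_subgroupOf] at hn ⊢
    exact hMn g g.2 n hn
  let ν' : ↥(S : Subgroup G) → Multiplicative (ZMod p) := fun y => ν y
  refine wreath (z := ⟨z, hzS⟩) (x := ⟨x, hxS⟩) hSp M' hM'n hi ν' ?_ ?_ ?_
  · intro a ha b hb
    exact hν _ ha _ hb
  · exact hxM
  · intro hprod
    apply hne
    rw [← hprod]
    apply Finset.prod_congr rfl
    intro i _
    simp [ν']

/-- A subgroup of prime index is a coatom. -/
lemma isCoatom_of_index_prime {Q : Type*} [Group Q] [Finite Q] (K : Subgroup Q)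
    (hK : K.index = p) : IsCoatom K := by
  constructor
  · intro h
    rw [h, Subgroup.index_top] at hK
    exact hp.out.one_lt.ne hK
  · intro K' hlt
    have h1 := Subgroup.relIndex_mul_index hlt.le
    rw [hK] at h1
    have h2 : K'.index ∣ p := ⟨_, by rw [← h1, mul_comm]⟩
    rcases (Nat.dvd_prime hp.out).mp h2 with h3 | h3
    · exact Subgroup.index_eq_one.mp h3
    · exfalso
      rw [h3] at h1
      have h4 : K.relIndex K' = 1 := by
        have h5 := hp.out.pos
        nlinarith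
      have h6 : K' ≤ K := Subgroup.relIndex_eq_one.mp h4
      exact (not_le_of_gt hlt) h6

/-- **The Wielandt--Yoshida theorem.** -/
theorem wielandt_yoshida (S : Sylow p G) (W : Subgroup G) (hWP : W ≤ (S : Subgroup G))
    (hW : ∀ g : G, W.map (MulAut.conj g).toMonoidHom ≤ (S : Subgroup G) →
      W.map (MulAut.conj g).toMonoidHom = W)
    (h : (S : Subgroup G) ⊓ commutator G ≠ (S : Subgroup G) ⊓
      ⁅Subgroup.normalizer (W : Set G), Subgroup.normalizer (W : Set G)⁆) :
    ∃ x ∈ (S : Subgroup G), ∃ z ∈ W, ∃ W₀ : Subgroup ↥W, IsCoatom W₀ ∧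
      (fun y : G => y⁻¹ * z⁻¹ * y * z)^[p - 1] x ∈ W₀.map W.subtype ∧
      (fun y : G => y⁻¹ * z⁻¹ * y * z)^[p - 1] x ∉ ((frattini ↥W₀).map W₀.subtype).map W.subtype := by
  classical
  by_contra hno
  apply h
  have hSp : IsPGroup p (S : Subgroup G) := S.isPGroup'
  obtain ⟨h1, h2⟩ := normalizer_facts hWP hW
  refine main hSp S.not_dvd_index hWP h1 h2 ?_
  intro x hxS M hMY hMn hxM hi z hzW hzM ν hν
  by_contra hne
  apply hno
  set Y := Subgroup.zpowers x ⊔ W with hY
  have hYS : Y ≤ (S : Subgroup G) := by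
    rw [hY, sup_le_iff, Subgroup.zpowers_le]
    exact ⟨hxS, hWP⟩
  have hWY : W ≤ Y := le_sup_right
  have hν1 : ν 1 = 1 := one_of_mult hν
  have hνinv : ∀ a ∈ M, ν a⁻¹ = (ν a)⁻¹ := by
    intro a ha
    have := hν a ha a⁻¹ (M.inv_mem ha)
    rw [mul_inv_cancel, hν1] at this
    exact eq_inv_of_mul_eq_one_right this.symm
  have hconj : ∀ g ∈ Y, ∀ y ∈ M, g⁻¹ * y * g ∈ M := by
    intro g hg y hy
    have := hMn _ (Y.inv_mem hg) y hy
    rwa [inv_inv] at this
  have hconjW : ∀ y ∈ (S : Subgroup G), ∀ w ∈ W, y⁻¹ * w * y ∈ W := by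
    intro y hy w hw
    have h3 := (Subgroup.mem_normalizer_iff.mp (h2 (Subgroup.inv_mem _ hy)) w).mp hw
    rwa [inv_inv] at h3
  set f : G → G := fun y : G => y⁻¹ * z⁻¹ * y * z with hf
  have hzY := hWY hzW
  have hfM : ∀ k, f^[k] x ∈ M := by
    intro k
    induction k with
    | zero => exact hxM
    | succ k ih =>
      rw [Function.iterate_succ_apply']
      have h3 : f (f^[k] x) = (f^[k] x)⁻¹ * (z⁻¹ * f^[k] x * z) := by
        simp only [hf]
        group
      rw [h3]
      apply M.mul_mem (M.inv_mem ih)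
      have := hconj z hzY _ ih
      exact this
  have hfW : ∀ k, f^[k + 1] x ∈ W := by
    intro k
    rw [Function.iterate_succ_apply']
    simp only [hf]
    apply W.mul_mem _ hzW
    exact hconjW _ (hYS (hMY (hfM k))) _ (W.inv_mem hzW)
  -- values of `ν`
  let c : ℕ → ℕ → ZMod p := fun k j => Multiplicative.toAdd (ν ((z ^ j)⁻¹ * f^[k] x * z ^ j))
  have hzpowY : ∀ j : ℕ, z ^ j ∈ Y := fun j => Y.pow_mem hzY j
  have hcs : ∀ k j, c (k + 1) j = c k (j + 1) - c k j := by
    intro k j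
    show Multiplicative.toAdd (ν ((z ^ j)⁻¹ * f^[k + 1] x * z ^ j)) =
      Multiplicative.toAdd (ν ((z ^ (j + 1))⁻¹ * f^[k] x * z ^ (j + 1))) -
        Multiplicative.toAdd (ν ((z ^ j)⁻¹ * f^[k] x * z ^ j))
    have h3 : (z ^ j)⁻¹ * f^[k + 1] x * z ^ j =
        ((z ^ j)⁻¹ * f^[k] x * z ^ j)⁻¹ * ((z ^ (j + 1))⁻¹ * f^[k] x * z ^ (j + 1)) := by
      rw [Function.iterate_succ_apply', pow_succ]
      simp only [hf]
      group
    have hm1 := hconj _ (hzpowY j) _ (hfM k)
    have hm2 := hconj _ (hzpowY (j + 1)) _ (hfM k)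
    rw [h3, hν _ (M.inv_mem hm1) _ hm2, hνinv _ hm1, toAdd_mul, toAdd_inv]
    ring
  have hid := shift_identity c hcs
  have hp1 : p - 1 = (p - 2) + 1 := by
    have := hp.out.two_le
    omega
  set y := f^[p - 1] x with hy
  have hyM : y ∈ M := hfM _
  have hyW : y ∈ W := by
    rw [hy, hp1]
    exact hfW _
  have hνy : ν y ≠ 1 := by
    intro h3
    apply hne
    have h4 : c (p - 1) 0 = 0 := by
      show Multiplicative.toAdd (ν ((z ^ 0)⁻¹ * f^[p - 1] x * z ^ 0)) = 0
      simp only [pow_zero, inv_one, one_mul, mul_one]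
      rw [← hy, h3]
      rfl
    rw [h4] at hid
    have h5 : Multiplicative.ofAdd (∑ i ∈ range p, c 0 i) =
        ∏ i ∈ range p, ν ((z ^ i)⁻¹ * x * z ^ i) := by
      rw [ofAdd_sum]
      rfl
    rw [← h5, ← hid]
    rfl
  -- the coatom of `W`
  let W₀ : Subgroup ↥W := M.subgroupOf W
  have hM'n : (M.subgroupOf Y).Normal := by
    constructor
    intro n hn g
    rw [Subgroup.mem_subgroupOf] at hn ⊢
    exact hMn g g.2 n hn
  have hcardQ : Nat.card (↥Y ⧸ M.subgroupOf Y) = p := hi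
  let φ : ↥W →* ↥Y ⧸ M.subgroupOf Y :=
    (QuotientGroup.mk' (M.subgroupOf Y)).comp (Subgroup.inclusion hWY)
  have hφker : φ.ker = W₀ := by
    ext w
    rw [MonoidHom.mem_ker]
    show (QuotientGroup.mk' (M.subgroupOf Y)) _ = 1 ↔ _
    rw [← MonoidHom.mem_ker, QuotientGroup.ker_mk', Subgroup.mem_subgroupOf]
    rfl
  have hW₀idx : W₀.index = p := by
    rw [← hφker, Subgroup.index_ker]
    have h3 : Nat.card φ.range ∣ p := by
      have h4 := Subgroup.card_subgroup_dvd_card φ.range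
      rwa [hcardQ] at h4
    rcases (Nat.dvd_prime hp.out).mp h3 with h4 | h4
    · exfalso
      have h5 := (Subgroup.card_eq_one.mp h4 : φ.range = ⊥)
      have h6 : φ ⟨z, hzW⟩ ∈ φ.range := ⟨_, rfl⟩
      rw [h5] at h6
      apply hzM
      have h7 : φ ⟨z, hzW⟩ = 1 := h6
      have h8 : (⟨z, hzW⟩ : ↥W) ∈ φ.ker := h7
      rw [hφker] at h8
      exact h8
    · exact h4
  have hcoat : IsCoatom W₀ := isCoatom_of_index_prime W₀ hW₀idx
  refine ⟨x, hxS, z, hzW, W₀, hcoat, ?_, ?_⟩
  · exact ⟨⟨y, hyW⟩, hyM, rfl⟩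
  · rintro ⟨_, ⟨u, hu, rfl⟩, hux⟩
    -- `ν` on `W₀`
    let ν₀ : ↥W₀ →* Multiplicative (ZMod p) :=
      { toFun := fun w => ν w.1.1
        map_one' := hν1
        map_mul' := fun a b => hν _ a.2 _ b.2 }
    have huy : (u.1.1 : G) = y := hux
    have hν₀u : ν₀ u ≠ 1 := by
      show ν u.1.1 ≠ 1
      rw [huy]
      exact hνy
    have hcardE : Nat.card (Multiplicative (ZMod p)) = p := by
      rw [Nat.card_congr Multiplicative.toAdd, Nat.card_zmod]
    have hkeridx : ν₀.ker.index = p := by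
      rw [Subgroup.index_ker]
      have h3 : Nat.card ν₀.range ∣ p := by
        have h4 := Subgroup.card_subgroup_dvd_card ν₀.range
        rwa [hcardE] at h4
      rcases (Nat.dvd_prime hp.out).mp h3 with h4 | h4
      · exfalso
        have h5 := (Subgroup.card_eq_one.mp h4 : ν₀.range = ⊥)
        have h6 : ν₀ u ∈ ν₀.range := ⟨_, rfl⟩
        rw [h5] at h6
        exact hν₀u h6
      · exact h4
    have hker := isCoatom_of_index_prime ν₀.ker hkeridx
    have := frattini_le_coatom hker hu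
    exact hν₀u this

end Final

end Cfsg.Agent.H12.Yoshida
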